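import Cfsg.Agent.H882.Ten.Form
import Cfsg.Agent.LieClassical.OrthFinite
import Cfsg.Agent.H882.Ten.RadFour
import Cfsg.Agent.H882.Ten.Stab
set_option linter.all false

-- part: H883/C7/Base
section
/-!
# Tensor powers of an orthogonal space

`(ι → κ) → F` is the tensor power of `κ → F` over the slots `ι`: pure tensors `tp`, tensor products of operators
`op`, `opE`, one slot `slE`, slot permutations `pe`, the form `QT q`, and for each slot `i` the two-factor
structure `tst i : TSt (ten i) (QT q) q (QT q)` with factors `({j // j ≠ i} → κ) → F` and `κ → F`.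
-/

set_option autoImplicit false
set_option linter.unusedSectionVars false

namespace Cfsg.Agent.H883.C7

open QuadraticMap hiding proj
open Cfsg.Agent.LieClassical.OrthCore Cfsg.Agent.LieClassical.OrthTrans
open Cfsg.Agent.H882.Ten Cfsg.Agent.LieClassical.OrthFinite

variable {F : Type*} [Field F] {κ : Type*} [Fintype κ] [DecidableEq κ] {ι : Type*} [Fintype ι] [DecidableEq ι]

/-! ### pure tensors -/

/-- The pure tensor `⊗ x i`. -/
def tp (x : ι → (κ → F)) : (ι → κ) → F := fun a => ∏ i, x i (a i)

theorem tp_apply (x : ι → (κ → F)) (a : ι → κ) : tp x a = ∏ i, x i (a i) := rfl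

theorem single_eq_tp (a : ι → κ) :
    (Pi.single a (1 : F) : (ι → κ) → F) = tp (fun i => Pi.single (a i) 1) := by
  funext b
  rw [tp_apply]
  by_cases h : a = b
  · subst h
    simp
  · rw [Pi.single_eq_of_ne (Ne.symm h)]
    obtain ⟨i, hi⟩ := Function.ne_iff.1 h
    symm
    exact Finset.prod_eq_zero (Finset.mem_univ i) (Pi.single_eq_of_ne (Ne.symm hi) _)

/-- Linear maps agreeing on the pure tensors are equal. -/
theorem tp_ext {X : Type*} [AddCommGroup X] [Module F X] {A B : ((ι → κ) → F) →ₗ[F] X}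
    (h : ∀ x, A (tp x) = B (tp x)) : A = B := by
  refine (Pi.basisFun F (ι → κ)).ext fun a => ?_
  rw [Pi.basisFun_apply, single_eq_tp, h]

theorem tp_extE {X : Type*} [AddCommGroup X] [Module F X] {A B : ((ι → κ) → F) ≃ₗ[F] X}
    (h : ∀ x, A (tp x) = B (tp x)) : A = B := by
  have := tp_ext (A := (A : ((ι → κ) → F) →ₗ[F] X)) (B := (B : ((ι → κ) → F) →ₗ[F] X)) h
  ext1 v
  exact LinearMap.congr_fun this v

theorem tp_ext2 {X : Type*} [AddCommGroup X] [Module F X] {A B : ((ι → κ) → F) →ₗ[F] ((ι → κ) → F) →ₗ[F] X}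
    (h : ∀ x y, A (tp x) (tp y) = B (tp x) (tp y)) : A = B :=
  tp_ext fun x => tp_ext fun y => h x y

theorem prod_update (x : ι → (κ → F)) (i : ι) (z : κ → F) (a : ι → κ) :
    ∏ j, Function.update x i z j (a j) = z (a i) * ∏ j ∈ Finset.univ.erase i, x j (a j) := by
  rw [← Finset.mul_prod_erase Finset.univ _ (Finset.mem_univ i), Function.update_self]
  congr 1
  refine Finset.prod_congr rfl fun j hj => ?_
  rw [Function.update_of_ne (Finset.ne_of_mem_erase hj)]

theorem tp_update_add (x : ι → (κ → F)) (i : ι) (y z : κ → F) :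
    tp (Function.update x i (y + z)) = tp (Function.update x i y) + tp (Function.update x i z) := by
  funext a
  rw [Pi.add_apply, tp_apply, tp_apply, tp_apply, prod_update, prod_update, prod_update, Pi.add_apply, add_mul]

theorem tp_update_smul (x : ι → (κ → F)) (i : ι) (c : F) (y : κ → F) :
    tp (Function.update x i (c • y)) = c • tp (Function.update x i y) := by
  funext a
  rw [Pi.smul_apply, tp_apply, tp_apply, prod_update, prod_update, Pi.smul_apply, smul_eq_mul, smul_eq_mul,
    mul_assoc]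

theorem tp_update_zero (x : ι → (κ → F)) (i : ι) : tp (Function.update x i 0) = 0 := by
  have := tp_update_smul x i (0 : F) 0
  rwa [zero_smul, zero_smul] at this

theorem tp_ne_zero {x : ι → (κ → F)} (h : ∀ i, x i ≠ 0) : tp x ≠ 0 := by
  have h1 : ∀ i, ∃ a, x i a ≠ 0 := fun i => Function.ne_iff.1 (h i)
  choose a ha using h1
  intro h2
  have h3 := congrFun h2 a
  rw [tp_apply, Pi.zero_apply, Finset.prod_eq_zero_iff] at h3
  obtain ⟨i, _, hi⟩ := h3
  exact ha i hi

/-- `tp` as a multilinear map. -/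
def tpM (F : Type*) [Field F] (ι κ : Type*) [Fintype ι] [DecidableEq ι] :
    MultilinearMap F (fun _ : ι => κ → F) ((ι → κ) → F) where
  toFun := tp
  map_update_add' := by
    intro hd x i y z
    funext a
    rw [Pi.add_apply]
    simp only [tp]
    rw [← Finset.mul_prod_erase Finset.univ _ (Finset.mem_univ i),
      ← Finset.mul_prod_erase Finset.univ (fun j => Function.update x i y j (a j)) (Finset.mem_univ i),
      ← Finset.mul_prod_erase Finset.univ (fun j => Function.update x i z j (a j)) (Finset.mem_univ i)]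
    rw [Function.update_self, Function.update_self, Function.update_self, Pi.add_apply, add_mul]
    congr 2 <;>
    · refine Finset.prod_congr rfl fun j hj => ?_
      rw [Function.update_of_ne (Finset.ne_of_mem_erase hj), Function.update_of_ne (Finset.ne_of_mem_erase hj)]
  map_update_smul' := by
    intro hd x i c y
    funext a
    rw [Pi.smul_apply]
    simp only [tp]
    rw [← Finset.mul_prod_erase Finset.univ _ (Finset.mem_univ i),
      ← Finset.mul_prod_erase Finset.univ (fun j => Function.update x i y j (a j)) (Finset.mem_univ i)]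
    rw [Function.update_self, Function.update_self, Pi.smul_apply, smul_eq_mul, smul_eq_mul, mul_assoc]
    congr 2
    refine Finset.prod_congr rfl fun j hj => ?_
    rw [Function.update_of_ne (Finset.ne_of_mem_erase hj), Function.update_of_ne (Finset.ne_of_mem_erase hj)]

theorem tpM_apply (x : ι → (κ → F)) : tpM F ι κ x = tp x := rfl

/-- scalars in all slots -/
theorem tp_smul_all (x : ι → (κ → F)) (c : ι → F) : tp (fun i => c i • x i) = (∏ i, c i) • tp x := by
  funext a
  rw [Pi.smul_apply, tp_apply, tp_apply, smul_eq_mul, ← Finset.prod_mul_distrib]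
  rfl

/-! ### tensor products of operators -/

/-- The tensor product `⊗ f i` of operators. -/
noncomputable def op (f : ι → Module.End F (κ → F)) : Module.End F ((ι → κ) → F) :=
  Matrix.toLin' (Matrix.of fun a b => ∏ i, f i (Pi.single (b i) 1) (a i))

theorem op_tp (f : ι → Module.End F (κ → F)) (x : ι → (κ → F)) : op f (tp x) = tp (fun i => f i (x i)) := by
  have h : ∀ i (c : κ), f i (x i) c = ∑ b, f i (Pi.single b 1) c * x i b := by
    intro i c
    conv_lhs => rw [← Pi.basisFun F κ |>.sum_repr (x i)]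
    rw [map_sum, Finset.sum_apply]
    refine Finset.sum_congr rfl fun b _ => ?_
    rw [map_smul, Pi.smul_apply, smul_eq_mul, Pi.basisFun_apply, Pi.basisFun_repr, mul_comm]
  rw [op, Matrix.toLin'_apply]
  funext a
  simp only [Matrix.mulVec, dotProduct, Matrix.of_apply, tp_apply, h]
  rw [Finset.prod_univ_sum, Fintype.piFinset_univ]
  exact Finset.sum_congr rfl fun c _ => (Finset.prod_mul_distrib).symm

theorem op_mul (f g : ι → Module.End F (κ → F)) : op (fun i => f i * g i) = op f * op g := by
  refine tp_ext fun x => ?_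
  rw [Module.End.mul_apply, op_tp, op_tp, op_tp]
  rfl

theorem op_one : op (fun _ : ι => (1 : Module.End F (κ → F))) = 1 := by
  refine tp_ext fun x => ?_
  rw [op_tp]
  rfl

theorem op_update_tp (f : ι → Module.End F (κ → F)) (i : ι) (g : Module.End F (κ → F)) (x : ι → (κ → F)) :
    op (Function.update f i g) (tp x) = tp (Function.update (fun j => f j (x j)) i (g (x i))) := by
  rw [op_tp]
  congr 1
  funext j
  by_cases h : j = i
  · subst h; rw [Function.update_self, Function.update_self]
  · rw [Function.update_of_ne h, Function.update_of_ne h]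

theorem op_update_add (f : ι → Module.End F (κ → F)) (i : ι) (g h : Module.End F (κ → F)) :
    op (Function.update f i (g + h)) = op (Function.update f i g) + op (Function.update f i h) := by
  refine tp_ext fun x => ?_
  rw [LinearMap.add_apply, op_update_tp, op_update_tp, op_update_tp, LinearMap.add_apply, tp_update_add]

theorem op_update_smul (f : ι → Module.End F (κ → F)) (i : ι) (c : F) (g : Module.End F (κ → F)) :
    op (Function.update f i (c • g)) = c • op (Function.update f i g) := by
  refine tp_ext fun x => ?_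
  rw [LinearMap.smul_apply, op_update_tp, op_update_tp, LinearMap.smul_apply, tp_update_smul]

/-- `op` on invertible operators. -/
noncomputable def opE : (ι → ((κ → F) ≃ₗ[F] (κ → F))) →* (((ι → κ) → F) ≃ₗ[F] ((ι → κ) → F)) where
  toFun f := LinearEquiv.ofLinearMap (op fun i => (f i : Module.End F (κ → F)))
    (op fun i => ((f i)⁻¹ : (κ → F) ≃ₗ[F] (κ → F)))
    (tp_ext fun x => by
      rw [LinearMap.comp_apply, op_tp, op_tp]
      congr 1
      funext i
      exact LinearEquiv.apply_symm_apply _ _)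
    (tp_ext fun x => by
      rw [LinearMap.comp_apply, op_tp, op_tp]
      congr 1
      funext i
      exact LinearEquiv.symm_apply_apply _ _)
  map_one' := tp_extE fun x => by
    show op _ (tp x) = tp x
    rw [op_tp]
    rfl
  map_mul' f g := tp_extE fun x => by
    show op _ (tp x) = op _ (op _ (tp x))
    rw [op_tp, op_tp, op_tp]
    rfl

theorem opE_tp (f : ι → ((κ → F) ≃ₗ[F] (κ → F))) (x : ι → (κ → F)) :
    opE f (tp x) = tp (fun i => f i (x i)) := op_tp _ x

theorem opE_coe (f : ι → ((κ → F) ≃ₗ[F] (κ → F))) (v : (ι → κ) → F) :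
    opE f v = op (fun i => (f i : Module.End F (κ → F))) v := rfl

/-- `f` in slot `i`. -/
noncomputable def sl (i : ι) (f : Module.End F (κ → F)) : Module.End F ((ι → κ) → F) :=
  op (Function.update (fun _ => 1) i f)

theorem sl_tp (i : ι) (f : Module.End F (κ → F)) (x : ι → (κ → F)) :
    sl i f (tp x) = tp (Function.update x i (f (x i))) := by
  rw [sl, op_update_tp]
  rfl

/-- slot `i` as an algebra homomorphism -/
noncomputable def slA (i : ι) : Module.End F (κ → F) →ₐ[F] Module.End F ((ι → κ) → F) :=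
  AlgHom.ofLinearMap
    { toFun := sl i
      map_add' := fun f g => op_update_add _ i f g
      map_smul' := fun c f => op_update_smul _ i c f }
    (tp_ext fun x => by
      show sl i 1 (tp x) = tp x
      rw [sl_tp, Module.End.one_apply, Function.update_eq_self])
    (fun f g => tp_ext fun x => by
      show sl i (f * g) (tp x) = sl i f (sl i g (tp x))
      rw [sl_tp, sl_tp, sl_tp, Function.update_idem, Function.update_self, Module.End.mul_apply])

theorem slA_apply (i : ι) (f : Module.End F (κ → F)) : slA i f = sl i f := rfl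

theorem sl_mul (i : ι) (f g : Module.End F (κ → F)) : sl i (f * g) = sl i f * sl i g := map_mul (slA i) f g

theorem sl_one (i : ι) : sl i (1 : Module.End F (κ → F)) = 1 := map_one (slA i)

theorem sl_add (i : ι) (f g : Module.End F (κ → F)) : sl i (f + g) = sl i f + sl i g := map_add (slA i) f g

theorem sl_sub (i : ι) (f g : Module.End F (κ → F)) : sl i (f - g) = sl i f - sl i g := map_sub (slA i) f g

theorem sl_smul (i : ι) (c : F) (f : Module.End F (κ → F)) : sl i (c • f) = c • sl i f := map_smul (slA i) c f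

theorem sl_comm {i j : ι} (h : i ≠ j) (f g : Module.End F (κ → F)) : sl i f * sl j g = sl j g * sl i f := by
  refine tp_ext fun x => ?_
  rw [Module.End.mul_apply, Module.End.mul_apply, sl_tp, sl_tp, sl_tp, sl_tp, Function.update_of_ne h,
    Function.update_of_ne (Ne.symm h), Function.update_comm h]

/-- An isometry in slot `i`. -/
noncomputable def slE (i : ι) : ((κ → F) ≃ₗ[F] (κ → F)) →* (((ι → κ) → F) ≃ₗ[F] ((ι → κ) → F)) :=
  (opE (F := F) (κ := κ) (ι := ι)).comp (MonoidHom.mulSingle (fun _ => (κ → F) ≃ₗ[F] (κ → F)) i)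

theorem slE_eq (i : ι) (f : (κ → F) ≃ₗ[F] (κ → F)) : slE i f = opE (Pi.mulSingle i f) := rfl

theorem slE_tp (i : ι) (f : (κ → F) ≃ₗ[F] (κ → F)) (x : ι → (κ → F)) :
    slE i f (tp x) = tp (Function.update x i (f (x i))) := by
  rw [slE_eq, opE_tp]
  congr 1
  funext j
  by_cases h : j = i
  · subst h; rw [Function.update_self, Pi.mulSingle_eq_same]
  · rw [Function.update_of_ne h, Pi.mulSingle_eq_of_ne h]; rfl

theorem slE_coe (i : ι) (f : (κ → F) ≃ₗ[F] (κ → F)) (v : (ι → κ) → F) :
    slE i f v = sl i (f : Module.End F (κ → F)) v := by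
  have : ((slE i f : ((ι → κ) → F) ≃ₗ[F] ((ι → κ) → F)) : Module.End F ((ι → κ) → F)) = sl i f :=
    tp_ext fun x => by rw [LinearEquiv.coe_coe, slE_tp, sl_tp]; rfl
  exact LinearMap.congr_fun this v

theorem slE_comm {i j : ι} (h : i ≠ j) (f g : (κ → F) ≃ₗ[F] (κ → F)) : slE i f * slE j g = slE j g * slE i f := by
  refine tp_extE fun x => ?_
  rw [LinearEquiv.mul_apply, LinearEquiv.mul_apply, slE_tp, slE_tp, slE_tp, slE_tp, Function.update_of_ne h,
    Function.update_of_ne (Ne.symm h), Function.update_comm h]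

/-- Permutation of the slots. -/
def pe : Equiv.Perm ι →* (((ι → κ) → F) ≃ₗ[F] ((ι → κ) → F)) where
  toFun σ := LinearEquiv.funCongrLeft F F (Equiv.arrowCongr σ⁻¹ (Equiv.refl κ))
  map_one' := by ext v a; rfl
  map_mul' σ τ := by ext v a; rfl

theorem pe_apply (σ : Equiv.Perm ι) (v : (ι → κ) → F) (a : ι → κ) : pe σ v a = v (fun i => a (σ i)) := rfl

theorem pe_tp (σ : Equiv.Perm ι) (x : ι → (κ → F)) : pe σ (tp x) = tp (fun i => x (σ⁻¹ i)) := by
  funext a
  rw [pe_apply, tp_apply, tp_apply]
  have := Equiv.prod_comp σ (fun i => x (σ⁻¹ i) (a i))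
  rw [← this]
  exact Finset.prod_congr rfl fun i _ => by
    have : σ⁻¹ (σ i) = i := σ.symm_apply_apply i
    rw [this]

theorem pe_conj_opE (σ : Equiv.Perm ι) (f : ι → ((κ → F) ≃ₗ[F] (κ → F))) :
    pe σ * opE f * (pe σ)⁻¹ = opE (fun i => f (σ⁻¹ i)) := by
  rw [mul_inv_eq_iff_eq_mul]
  refine tp_extE fun x => ?_
  rw [LinearEquiv.mul_apply, LinearEquiv.mul_apply, opE_tp, pe_tp, pe_tp, opE_tp]

theorem pe_conj_slE (σ : Equiv.Perm ι) (i : ι) (f : (κ → F) ≃ₗ[F] (κ → F)) :
    pe σ * slE i f * (pe σ)⁻¹ = slE (σ i) f := by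
  rw [slE_eq, pe_conj_opE, slE_eq]
  congr 1
  funext j
  by_cases h : j = σ i
  · subst h
    have : σ⁻¹ (σ i) = i := σ.symm_apply_apply i
    rw [this, Pi.mulSingle_eq_same, Pi.mulSingle_eq_same]
  · rw [Pi.mulSingle_eq_of_ne h, Pi.mulSingle_eq_of_ne]
    intro h'
    refine h ?_
    rw [← h']
    exact (σ.apply_symm_apply j).symm

/-! ### the form -/

/-- The tensor power of the polar form of `q`. -/
noncomputable def BT (q : QuadraticForm F (κ → F)) (ι : Type*) [Fintype ι] [DecidableEq ι] :
    LinearMap.BilinForm F ((ι → κ) → F) :=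
  Matrix.toBilin' (Matrix.of fun a b => ∏ i, polar q (Pi.single (a i) 1) (Pi.single (b i) 1))

theorem BT_tp (q : QuadraticForm F (κ → F)) (x y : ι → (κ → F)) :
    BT q ι (tp x) (tp y) = ∏ i, polar q (x i) (y i) := by
  have hx : ∀ z : κ → F, z = ∑ b, z b • (Pi.single b (1 : F) : κ → F) := by
    intro z
    conv_lhs => rw [← Pi.basisFun F κ |>.sum_repr z]
    exact Finset.sum_congr rfl fun b _ => by rw [Pi.basisFun_apply, Pi.basisFun_repr]
  have h : ∀ i, polar q (x i) (y i) = ∑ p : κ × κ,
      x i p.1 * polar q (Pi.single p.1 1) (Pi.single p.2 1) * y i p.2 := by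
    intro i
    rw [Fintype.sum_prod_type]
    have h1 : polar q (x i) (y i) = polarBilin q (x i) (y i) := rfl
    rw [h1]
    conv_lhs => rw [hx (x i), hx (y i)]
    rw [map_sum, Finset.sum_comm]
    refine Finset.sum_congr rfl fun c _ => ?_
    rw [map_sum, LinearMap.sum_apply]
    refine Finset.sum_congr rfl fun b _ => ?_
    rw [map_smul, map_smul, LinearMap.smul_apply, smul_eq_mul, smul_eq_mul, polarBilin_apply_apply]
    ring
  rw [Finset.prod_congr rfl fun i _ => h i, Finset.prod_univ_sum, Fintype.piFinset_univ, BT,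
    Matrix.toBilin'_apply]
  rw [← Fintype.sum_prod_type']
  rw [← Equiv.sum_comp (Equiv.arrowProdEquivProdArrow ι (fun _ => κ) (fun _ => κ))]
  refine Finset.sum_congr rfl fun p _ => ?_
  simp only [tp_apply, Equiv.arrowProdEquivProdArrow_apply, Matrix.of_apply]
  rw [← Finset.prod_mul_distrib, ← Finset.prod_mul_distrib]

theorem BT_symm (q : QuadraticForm F (κ → F)) (x y : (ι → κ) → F) : BT q ι x y = BT q ι y x := by
  have : BT q ι = (BT q ι).flip := by
    refine tp_ext2 fun x y => ?_
    rw [BT_tp]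
    show _ = BT q ι (tp y) (tp x)
    rw [BT_tp]
    exact Finset.prod_congr rfl fun i _ => polar_comm q _ _
  exact LinearMap.congr_fun (LinearMap.congr_fun this x) y

/-- The quadratic form on the tensor power. -/
noncomputable def QT (q : QuadraticForm F (κ → F)) (ι : Type*) [Fintype ι] [DecidableEq ι] :
    QuadraticForm F ((ι → κ) → F) :=
  ((2 : F)⁻¹ • BT q ι).toQuadraticMap

section form

variable {q : QuadraticForm F (κ → F)}

theorem polar_QT (h2 : (2 : F) ≠ 0) (x y : (ι → κ) → F) : polar (QT q ι) x y = BT q ι x y := by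
  rw [QT, LinearMap.BilinMap.polar_toQuadraticMap, LinearMap.smul_apply, LinearMap.smul_apply,
    LinearMap.smul_apply, LinearMap.smul_apply, BT_symm q y x, smul_eq_mul, ← mul_add, ← two_mul,
    ← mul_assoc, inv_mul_cancel₀ h2, one_mul]

theorem polar_tp (h2 : (2 : F) ≠ 0) (x y : ι → (κ → F)) :
    polar (QT q ι) (tp x) (tp y) = ∏ i, polar q (x i) (y i) := by rw [polar_QT h2, BT_tp]

theorem polar_ext_tp (h2 : (2 : F) ≠ 0) {g : ((ι → κ) → F) ≃ₗ[F] ((ι → κ) → F)}
    (h : ∀ x y, polar (QT q ι) (g (tp x)) (g (tp y)) = polar (QT q ι) (tp x) (tp y)) : g ∈ O (QT q ι) := by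
  refine mem_O_of_polar h2 fun x y => ?_
  have := tp_ext2 (A := (polarBilin (QT q ι)).compl₁₂ (g : ((ι → κ) → F) →ₗ[F] ((ι → κ) → F))
    (g : ((ι → κ) → F) →ₗ[F] ((ι → κ) → F))) (B := polarBilin (QT q ι)) (fun x y => h x y)
  exact LinearMap.congr_fun (LinearMap.congr_fun this x) y

/-- A dual basis. -/
theorem exists_dual (hq : Nondeg q) : ∃ d : κ → (κ → F), ∀ b (x : κ → F), polar q x (d b) = x b := by
  have hinj : Function.Injective (polarBilin q : (κ → F) →ₗ[F] ((κ → F) →ₗ[F] F)) := by
    rw [← LinearMap.ker_eq_bot, LinearMap.ker_eq_bot']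
    intro u hu
    exact hq u fun v => by
      have := LinearMap.congr_fun hu v
      exact this
  have hfin : Module.finrank F (κ → F) = Module.finrank F ((κ → F) →ₗ[F] F) :=
    (Subspace.dual_finrank_eq (K := F) (V := κ → F)).symm
  have hsurj := (LinearMap.injective_iff_surjective_of_finrank_eq_finrank hfin).1 hinj
  have h : ∀ b : κ, ∃ d : κ → F, ∀ x : κ → F, polar q x d = x b := by
    intro b
    obtain ⟨d, hd⟩ := hsurj (LinearMap.proj b)
    refine ⟨d, fun x => ?_⟩
    have := LinearMap.congr_fun hd x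
    rw [polarBilin_apply_apply, polar_comm] at this
    exact this
  choose d hd using h
  exact ⟨d, hd⟩

theorem nondeg_QT (h2 : (2 : F) ≠ 0) (hq : Nondeg q) : Nondeg (QT q ι) := by
  obtain ⟨d, hd⟩ := exists_dual hq
  have key : ∀ b : ι → κ, (polarBilin (QT q ι)).flip (tp fun i => d (b i)) = LinearMap.proj b := by
    intro b
    refine tp_ext fun x => ?_
    rw [LinearMap.flip_apply, polarBilin_apply_apply, polar_tp h2, LinearMap.proj_apply, tp_apply]
    exact Finset.prod_congr rfl fun i _ => hd _ _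
  intro v hv
  funext b
  have := LinearMap.congr_fun (key b) v
  rw [LinearMap.flip_apply, polarBilin_apply_apply, hv, LinearMap.proj_apply] at this
  rw [← this]
  rfl

theorem good_QT [Finite F] (h2 : (2 : F) ≠ 0) (hq : Nondeg q) (hd : 5 ≤ Fintype.card κ ^ Fintype.card ι) :
    Good (QT q ι) := by
  refine good_of_finite (nondeg_QT h2 hq) ?_
  rw [Module.finrank_fintype_fun_eq_card, Fintype.card_fun]
  exact hd

/-- Similarities with multipliers of product one. -/
theorem opE_mem_O_of_sim (h2 : (2 : F) ≠ 0) {f : ι → ((κ → F) ≃ₗ[F] (κ → F))} {c : ι → F}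
    (hf : ∀ i x y, polar q (f i x) (f i y) = c i * polar q x y) (hc : ∏ i, c i = 1) : opE f ∈ O (QT q ι) := by
  refine polar_ext_tp h2 fun x y => ?_
  rw [opE_tp, opE_tp, polar_tp h2, polar_tp h2, Finset.prod_congr rfl fun i _ => hf i _ _,
    Finset.prod_mul_distrib, hc, one_mul]

theorem opE_mem_O (h2 : (2 : F) ≠ 0) {f : ι → ((κ → F) ≃ₗ[F] (κ → F))} (hf : ∀ i, f i ∈ O q) :
    opE f ∈ O (QT q ι) :=
  opE_mem_O_of_sim h2 (c := fun _ => 1) (fun i x y => by rw [polar_map (hf i), one_mul]) (by simp)

theorem slE_mem_O (h2 : (2 : F) ≠ 0) (i : ι) {f : (κ → F) ≃ₗ[F] (κ → F)} (hf : f ∈ O q) :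
    slE i f ∈ O (QT q ι) := by
  rw [slE_eq]
  refine opE_mem_O h2 fun j => ?_
  by_cases h : j = i
  · subst h; rw [Pi.mulSingle_eq_same]; exact hf
  · rw [Pi.mulSingle_eq_of_ne h]; exact (O q).one_mem

theorem pe_mem_O (h2 : (2 : F) ≠ 0) (σ : Equiv.Perm ι) : pe σ ∈ O (QT q ι) := by
  refine polar_ext_tp h2 fun x y => ?_
  rw [pe_tp, pe_tp, polar_tp h2, polar_tp h2]
  exact Equiv.prod_comp σ⁻¹ (fun i => polar q (x i) (y i))

theorem pe_sq_mem_E (h2 : (2 : F) ≠ 0) (hG : Good (QT q ι)) (σ : Equiv.Perm ι) : pe (σ * σ) ∈ E (QT q ι) := by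
  rw [map_mul]
  exact sq_mem_E hG (pe_mem_O h2 σ)

/-- `g` in two slots. -/
theorem slE_mul_slE_mem_E (h2 : (2 : F) ≠ 0) (hG : Good (QT q ι)) (i j : ι) {g : (κ → F) ≃ₗ[F] (κ → F)}
    (hg : g ∈ O q) : slE i g * slE j g ∈ E (QT q ι) := by
  have hs := slE_mem_O h2 i hg (ι := ι)
  have hp := pe_mem_O (q := q) h2 (Equiv.swap i j)
  have h1 : slE j g = pe (Equiv.swap i j) * slE i g * (pe (Equiv.swap i j))⁻¹ := by
    rw [pe_conj_slE, Equiv.swap_apply_left]
  rw [h1]
  have h3 : slE i g * (pe (Equiv.swap i j) * slE i g * (pe (Equiv.swap i j))⁻¹) =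
      (slE i g * slE i g) * ((slE i g)⁻¹ * pe (Equiv.swap i j) * (slE i g)⁻¹⁻¹ * (pe (Equiv.swap i j))⁻¹) := by
    group
  rw [h3]
  refine (E (QT q ι)).mul_mem (sq_mem_E hG hs) ?_
  rw [← hG.commutator_eq_E]
  exact Subgroup.commutator_mem_commutator ((O (QT q ι)).inv_mem hs) hp

theorem opE_sq_mem_E (h2 : (2 : F) ≠ 0) (hG : Good (QT q ι)) {f : ι → ((κ → F) ≃ₗ[F] (κ → F))}
    (hf : ∀ i, f i ∈ O q) : opE (fun i => f i * f i) ∈ E (QT q ι) := by
  have := sq_mem_E hG (opE_mem_O h2 hf)
  rw [← map_mul] at this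
  exact this

end form

/-! ### two factors: slot `i` and the rest -/

/-- `u` in slot `i`, `y` in the others. -/
def ins {α : Type*} (i : ι) (y : {j // j ≠ i} → α) (u : α) : ι → α :=
  fun j => if h : j = i then u else y ⟨j, h⟩

theorem ins_same {α : Type*} (i : ι) (y : {j // j ≠ i} → α) (u : α) : ins i y u i = u := dif_pos rfl

theorem ins_ne {α : Type*} (i : ι) (y : {j // j ≠ i} → α) (u : α) {j : ι} (h : j ≠ i) :
    ins i y u j = y ⟨j, h⟩ := dif_neg h

theorem ins_sub {α : Type*} (i : ι) (y : {j // j ≠ i} → α) (u : α) (j : {j // j ≠ i}) :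
    ins i y u j = y j := ins_ne i y u j.2

theorem ins_restrict {α : Type*} (i : ι) (x : ι → α) : ins i (fun j => x j) (x i) = x := by
  funext j
  by_cases h : j = i
  · subst h; rw [ins_same]
  · rw [ins_ne i _ _ h]

theorem update_ins {α : Type*} (i : ι) (y : {j // j ≠ i} → α) (u v : α) :
    Function.update (ins i y u) i v = ins i y v := by
  funext j
  by_cases h : j = i
  · subst h; rw [Function.update_self, ins_same]
  · rw [Function.update_of_ne h, ins_ne i _ _ h, ins_ne i _ _ h]

theorem update_ins_ne {α : Type*} (i : ι) (y : {j // j ≠ i} → α) (u v : α) (j : {j // j ≠ i}) :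
    Function.update (ins i y u) j v = ins i (Function.update y j v) u := by
  funext l
  by_cases h : l = i
  · subst h; rw [ins_same, Function.update_of_ne (fun h => j.2 h.symm), ins_same]
  · rw [ins_ne i _ _ h]
    by_cases h' : l = j
    · subst h'
      rw [Function.update_self]
      have : (⟨(j : ι), h⟩ : {j // j ≠ i}) = j := rfl
      rw [this, Function.update_self]
    · rw [Function.update_of_ne h', Function.update_of_ne (fun h'' => h' (by rw [← h''])), ins_ne i _ _ h]

/-- The tensor map: the rest, slot `i`. -/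
def ten (F : Type*) [Field F] (κ : Type*) [Fintype κ] [DecidableEq κ] {ι : Type*} [Fintype ι] [DecidableEq ι] (i : ι) : (({j // j ≠ i} → κ) → F) →ₗ[F] (κ → F) →ₗ[F] ((ι → κ) → F) :=
  LinearMap.mk₂ F (fun a u c => a (fun j => c j) * u (c i))
    (fun a a' u => by funext c; simp only [Pi.add_apply, add_mul])
    (fun r a u => by funext c; simp only [Pi.smul_apply, smul_eq_mul, mul_assoc])
    (fun a u u' => by funext c; simp only [Pi.add_apply, mul_add])
    (fun r a u => by funext c; simp only [Pi.smul_apply, smul_eq_mul]; ring)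

theorem ten_apply (i : ι) (a : ({j // j ≠ i} → κ) → F) (u : κ → F) (c : ι → κ) :
    ten F κ i a u c = a (fun j => c j) * u (c i) := rfl

theorem ten_tp (i : ι) (y : {j // j ≠ i} → (κ → F)) (u : κ → F) : ten F κ i (tp y) u = tp (ins i y u) := by
  funext c
  rw [ten_apply, tp_apply, tp_apply, Fintype.prod_eq_mul_prod_subtype_ne _ i, ins_same, mul_comm]
  congr 1
  exact Finset.prod_congr rfl fun j _ => by rw [ins_sub]

theorem tp_eq_ten (i : ι) (x : ι → (κ → F)) : tp x = ten F κ i (tp fun j => x j) (x i) := by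
  rw [ten_tp, ins_restrict]

theorem isTen (F : Type*) [Field F] (κ : Type*) [Fintype κ] [DecidableEq κ] {ι : Type*} [Fintype ι] [DecidableEq ι] (i : ι) : IsTensorProduct (ten F κ i) := by
  have hsurj : Function.Surjective (TensorProduct.lift (ten F κ i)) := by
    rw [← LinearMap.range_eq_top, eq_top_iff, ← (Pi.basisFun F (ι → κ)).span_eq, Submodule.span_le]
    rintro _ ⟨a, rfl⟩
    refine ⟨(tp fun j : {j // j ≠ i} => Pi.single (a j) 1) ⊗ₜ Pi.single (a i) 1, ?_⟩
    rw [TensorProduct.lift.tmul, Pi.basisFun_apply, single_eq_tp, tp_eq_ten i]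
  have hfin : Module.finrank F (TensorProduct F (({j // j ≠ i} → κ) → F) (κ → F)) =
      Module.finrank F ((ι → κ) → F) := by
    rw [Module.finrank_tensorProduct, Module.finrank_fintype_fun_eq_card, Module.finrank_fintype_fun_eq_card,
      Module.finrank_fintype_fun_eq_card, Fintype.card_congr (Equiv.funSplitAt i κ), Fintype.card_prod, mul_comm]
  exact ⟨(LinearMap.injective_iff_surjective_of_finrank_eq_finrank hfin).2 hsurj, hsurj⟩

theorem slE_ten (i : ι) (g : (κ → F) ≃ₗ[F] (κ → F)) (a : ({j // j ≠ i} → κ) → F) (u : κ → F) :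
    slE i g (ten F κ i a u) = ten F κ i a (g u) := by
  have : ((slE i g : ((ι → κ) → F) ≃ₗ[F] ((ι → κ) → F)) : Module.End F ((ι → κ) → F)) ∘ₗ (ten F κ i).flip u =
      (ten F κ i).flip (g u) := tp_ext fun y => by
    rw [LinearMap.comp_apply, LinearMap.flip_apply, LinearMap.flip_apply, ten_tp, ten_tp, LinearEquiv.coe_coe,
      slE_tp, ins_same, update_ins]
  exact LinearMap.congr_fun this a

theorem sl_ten (i : ι) (g : Module.End F (κ → F)) (a : ({j // j ≠ i} → κ) → F) (u : κ → F) :
    sl i g (ten F κ i a u) = ten F κ i a (g u) := by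
  have : sl i g ∘ₗ (ten F κ i).flip u = (ten F κ i).flip (g u) := tp_ext fun y => by
    rw [LinearMap.comp_apply, LinearMap.flip_apply, LinearMap.flip_apply, ten_tp, ten_tp,
      sl_tp, ins_same, update_ins]
  exact LinearMap.congr_fun this a

theorem slE_eq_rW (i : ι) (g : (κ → F) ≃ₗ[F] (κ → F)) : slE i g = rW (isTen F κ i) g :=
  ext_t' (isTen F κ i) fun a u => by rw [slE_ten, rW_apply]

theorem slE_sub_ten (i : ι) (j : {j // j ≠ i}) (g : (κ → F) ≃ₗ[F] (κ → F)) (a : ({j // j ≠ i} → κ) → F)
    (u : κ → F) : slE (j : ι) g (ten F κ i a u) = ten F κ i (slE j g a) u := by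
  have : ((slE (j : ι) g : ((ι → κ) → F) ≃ₗ[F] ((ι → κ) → F)) : Module.End F ((ι → κ) → F)) ∘ₗ (ten F κ i).flip u =
      (ten F κ i).flip u ∘ₗ ((slE j g : (({j // j ≠ i} → κ) → F) ≃ₗ[F] (({j // j ≠ i} → κ) → F)) :
        Module.End F (({j // j ≠ i} → κ) → F)) := tp_ext fun y => by
    rw [LinearMap.comp_apply, LinearMap.flip_apply, LinearMap.comp_apply, LinearMap.flip_apply, ten_tp,
      LinearEquiv.coe_coe, LinearEquiv.coe_coe, slE_tp, slE_tp, ten_tp, ins_sub, update_ins_ne]
  exact LinearMap.congr_fun this a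

theorem slE_sub (i : ι) (j : {j // j ≠ i}) (g : (κ → F) ≃ₗ[F] (κ → F)) :
    slE (j : ι) g = rU (isTen F κ i) (slE j g) :=
  ext_t' (isTen F κ i) fun a u => by rw [slE_sub_ten, rU_apply]

theorem op_ten (i : ι) (f : ι → Module.End F (κ → F)) (a : ({j // j ≠ i} → κ) → F) (u : κ → F) :
    op f (ten F κ i a u) = ten F κ i (op (fun j : {j // j ≠ i} => f j) a) (f i u) := by
  have : op f ∘ₗ (ten F κ i).flip u = (ten F κ i).flip (f i u) ∘ₗ op (fun j : {j // j ≠ i} => f j) := tp_ext fun y => by
    rw [LinearMap.comp_apply, LinearMap.flip_apply, LinearMap.comp_apply, LinearMap.flip_apply, ten_tp,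
      op_tp, op_tp, ten_tp]
    congr 1
    funext l
    by_cases h : l = i
    · subst h; rw [ins_same, ins_same]
    · rw [ins_ne i _ _ h, ins_ne i _ _ h]
  exact LinearMap.congr_fun this a

theorem opE_ten (i : ι) (f : ι → ((κ → F) ≃ₗ[F] (κ → F))) (a : ({j // j ≠ i} → κ) → F) (u : κ → F) :
    opE f (ten F κ i a u) = ten F κ i (opE (fun j : {j // j ≠ i} => f j) a) (f i u) :=
  op_ten i (fun j => (f j : Module.End F (κ → F))) a u

theorem opE_eq_tm (i : ι) (f : ι → ((κ → F) ≃ₗ[F] (κ → F))) :
    opE f = tm (isTen F κ i) (opE (fun j : {j // j ≠ i} => f j)) (f i) :=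
  ext_t' (isTen F κ i) fun a u => by rw [opE_ten, tm_apply]

/-- Every pair of a pure element of the rest and an element of slot `i` is pure. -/
theorem tm_opE (i : ι) (f : {j // j ≠ i} → ((κ → F) ≃ₗ[F] (κ → F))) (g : (κ → F) ≃ₗ[F] (κ → F)) :
    tm (isTen F κ i) (opE f) g = opE (ins i f g) := by
  have h : (fun j : {j // j ≠ i} => ins i f g j) = f := funext fun j => ins_sub i f g j
  rw [opE_eq_tm i, ins_same, h]

/-- The two-factor structure at slot `i`. -/
theorem tst {q : QuadraticForm F (κ → F)} (h2 : (2 : F) ≠ 0) (hq : Nondeg q) (i : ι) :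
    TSt (ten F κ i) (QT q {j // j ≠ i}) q (QT q ι) where
  ten := isTen F κ i
  two := h2
  pol := by
    intro a u a' u'
    have : ((polarBilin (QT q ι)).compl₁₂ ((ten F κ i).flip u) ((ten F κ i).flip u')) =
        polar q u u' • polarBilin (QT q {j // j ≠ i}) := by
      refine tp_ext2 fun y y' => ?_
      rw [LinearMap.compl₁₂_apply, LinearMap.flip_apply, LinearMap.flip_apply, ten_tp, ten_tp,
        polarBilin_apply_apply, polar_tp h2, LinearMap.smul_apply, LinearMap.smul_apply, polarBilin_apply_apply,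
        polar_tp h2, smul_eq_mul, Fintype.prod_eq_mul_prod_subtype_ne _ i, ins_same, ins_same]
      congr 1
      exact Finset.prod_congr rfl fun j _ => by rw [ins_sub, ins_sub]
    have h := LinearMap.congr_fun (LinearMap.congr_fun this a) a'
    rw [LinearMap.compl₁₂_apply, LinearMap.flip_apply, LinearMap.flip_apply, polarBilin_apply_apply,
      LinearMap.smul_apply, LinearMap.smul_apply, polarBilin_apply_apply, smul_eq_mul, mul_comm] at h
    exact h
  ndU := nondeg_QT h2 hq
  ndW := hq

theorem slE_siegel_mem_E {q : QuadraticForm F (κ → F)} (h2 : (2 : F) ≠ 0) (hG : Good (QT q ι)) (i : ι)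
    {u x : κ → F} (hu : q u = 0) (hx : polar q u x = 0) : slE i (siegel q u x hu hx) ∈ E (QT q ι) := by
  have hx' : polar q u ((2 : F)⁻¹ • x) = 0 := by rw [polar_smul_right, hx, smul_zero]
  have hs : polar q u ((2 : F)⁻¹ • x + (2 : F)⁻¹ • x) = 0 := by rw [polar_add_right, hx', add_zero]
  have e : (2 : F)⁻¹ • x + (2 : F)⁻¹ • x = x := by
    rw [← add_smul]
    have : (2 : F)⁻¹ + 2⁻¹ = 1 := by
      field_simp
      norm_num
    rw [this, one_smul]
  have h1 : siegel q u x hu hx =
      siegel q u ((2 : F)⁻¹ • x) hu hx' * siegel q u ((2 : F)⁻¹ • x) hu hx' := by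
    rw [siegel_mul hu hx' hx' hs]
    ext v
    rw [siegel_apply, siegel_apply, e]
  rw [h1, map_mul]
  exact sq_mem_E hG (slE_mem_O h2 i (siegel_mem_O hu hx'))

theorem slE_mem_E {q : QuadraticForm F (κ → F)} (h2 : (2 : F) ≠ 0) (hG : Good (QT q ι)) (i : ι)
    {g : (κ → F) ≃ₗ[F] (κ → F)} (hg : g ∈ E q) : slE i g ∈ E (QT q ι) := by
  induction hg using Subgroup.closure_induction with
  | mem x hx =>
    obtain ⟨u, w, hu, hw, rfl⟩ := hx
    exact slE_siegel_mem_E h2 hG i hu hw
  | one => rw [map_one]; exact (E (QT q ι)).one_mem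
  | mul a b _ _ ha hb => rw [map_mul]; exact (E (QT q ι)).mul_mem ha hb
  | inv a _ ha => rw [map_inv]; exact (E (QT q ι)).inv_mem ha

/-- commutators in one slot -/
theorem slE_comm_mem_E {q : QuadraticForm F (κ → F)} (h2 : (2 : F) ≠ 0) (hG : Good (QT q ι)) (i : ι)
    {g : (κ → F) ≃ₗ[F] (κ → F)} (hg : g ∈ ⁅O q, O q⁆) : slE i g ∈ E (QT q ι) := by
  rw [← hG.commutator_eq_E]
  have h1 : (⁅O q, O q⁆).map (slE i) ≤ ⁅O (QT q ι), O (QT q ι)⁆ := by
    rw [Subgroup.map_commutator]
    refine Subgroup.commutator_mono ?_ ?_ <;>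
    · rintro _ ⟨x, hx, rfl⟩
      exact slE_mem_O h2 i hx
  exact h1 ⟨g, hg, rfl⟩

theorem cw_tp {q : QuadraticForm F (κ → F)} (h2 : (2 : F) ≠ 0) (hq : Nondeg q) (i : ι) (w : κ → F)
    (x : ι → (κ → F)) : (tst (ι := ι) h2 hq i).cw w (tp x) = polar q w (x i) • tp (fun j : {j // j ≠ i} => x j) := by
  rw [tp_eq_ten i, TSt.cw_t]

/-! ### the groups -/

/-- `g` permutes the pure tensors: a tensor product of operators followed by a permutation of the slots. -/
def IsMono (g : ((ι → κ) → F) ≃ₗ[F] ((ι → κ) → F)) : Prop :=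
  ∃ (f : ι → ((κ → F) ≃ₗ[F] (κ → F))) (σ : Equiv.Perm ι), g = opE f * pe σ

/-- The subgroup `M` contains all monomial elements of `E (QT q ι)`. -/
def Over (q : QuadraticForm F (κ → F)) (M : Subgroup (((ι → κ) → F) ≃ₗ[F] ((ι → κ) → F))) : Prop :=
  M ≤ E (QT q ι) ∧ ∀ g ∈ E (QT q ι), IsMono g → g ∈ M

/-- `M` is thin: an element of `M` which is trivial on `(A_i ⊗ w)^⊥`, `w` singular, is `1`. -/
def Thin (q : QuadraticForm F (κ → F)) (M : Subgroup (((ι → κ) → F) ≃ₗ[F] ((ι → κ) → F))) : Prop :=
  ∀ (i : ι) (w : κ → F), w ≠ 0 → q w = 0 → ∀ g ∈ M,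
    (∀ v, (∀ a, polar (QT q ι) v (ten F κ i a w) = 0) → g v = v) → g = 1

/-- `g 𝒜_i g⁻¹ ⊆ 𝒜_j` for the slot algebras `𝒜_i = sl i (End U)`. -/
def Carries (g : ((ι → κ) → F) ≃ₗ[F] ((ι → κ) → F)) (i j : ι) : Prop :=
  ∀ f : Module.End F (κ → F), ∃ f' : Module.End F (κ → F), ∀ v, g (sl i f v) = sl j f' (g v)

/-- (D): an element of `M` carrying `A_i ⊗ w` to `A_j ⊗ w'`, `w` singular, carries slot `i` to slot `j`. -/
def DProp (q : QuadraticForm F (κ → F)) (M : Subgroup (((ι → κ) → F) ≃ₗ[F] ((ι → κ) → F))) : Prop :=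
  ∀ g ∈ M, ∀ (i j : ι) (w w' : κ → F), w ≠ 0 → w' ≠ 0 → q w = 0 →
    (∀ a, ∃ b, g (ten F κ i a w) = ten F κ j b w') → Carries g i j

end Cfsg.Agent.H883.C7
end

-- part: H883/C7/Common
section
/-!
# Common fixed vectors of commuting unipotent elements; the fixed vectors of the Siegel groups; irreducibility
-/

set_option autoImplicit false
set_option linter.unusedSectionVars false
set_option linter.unusedSimpArgs false

namespace Cfsg.Agent.H883.C7

open QuadraticMap hiding proj
open Cfsg.Agent.LieClassical.OrthCore Cfsg.Agent.LieClassical.OrthTrans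
open Cfsg.Agent.H882.Ten

/-- Commuting locally nilpotent maps have a common "kernel" modulo `E0`. -/
theorem exists_common {G I : Type*} [Zero G] (D : I → G → G) (hcomm : ∀ i j g, D i (D j g) = D j (D i g))
    (E E0 : Set G) (h0 : (0 : G) ∈ E0) (hE : ∀ i, ∀ g ∈ E, D i g ∈ E) (hE0 : ∀ i, ∀ g ∈ E0, D i g ∈ E0)
    (hnil : ∀ i, ∃ n : ℕ, ∀ g ∈ E, (D i)^[n] g = 0) {a : G} (ha : a ∈ E) (ha0 : a ∉ E0) (S : Finset I) :
    ∃ b ∈ E, b ∉ E0 ∧ ∀ i ∈ S, D i b ∈ E0 := by
  classical
  induction S using Finset.induction_on with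
  | empty => exact ⟨a, ha, ha0, by simp⟩
  | insert i S hi ih =>
    obtain ⟨b, hb, hb0, hbS⟩ := ih
    have hit : ∀ n : ℕ, (D i)^[n] b ∈ E := by
      intro n
      induction n with
      | zero => exact hb
      | succ n ih => rw [Function.iterate_succ_apply']; exact hE i _ ih
    have hit0 : ∀ j ∈ S, ∀ n : ℕ, D j ((D i)^[n] b) ∈ E0 := by
      intro j hj n
      have h1 : D j ((D i)^[n] b) = (D i)^[n] (D j b) := by
        induction n with
        | zero => rfl
        | succ n ih => rw [Function.iterate_succ_apply', Function.iterate_succ_apply', hcomm, ih]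
      rw [h1]
      clear h1
      induction n with
      | zero => exact hbS j hj
      | succ n ih => rw [Function.iterate_succ_apply']; exact hE0 i _ ih
    have hex : ∃ n : ℕ, (D i)^[n] b ∈ E0 := by
      obtain ⟨n, hn⟩ := hnil i
      exact ⟨n, by rw [hn b hb]; exact h0⟩
    have hn0 : Nat.find hex ≠ 0 := by
      intro h
      have := Nat.find_spec hex
      rw [h] at this
      exact hb0 this
    obtain ⟨m, hm⟩ := Nat.exists_eq_succ_of_ne_zero hn0
    refine ⟨(D i)^[m] b, hit m, ?_, ?_⟩
    · exact Nat.find_min hex (by omega)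
    · intro j hj
      rcases Finset.mem_insert.1 hj with rfl | hj
      · rw [← Function.iterate_succ_apply' (D j)]
        have := Nat.find_spec hex
        rw [hm] at this
        exact this
      · exact hit0 j hj m

section one

variable {F : Type*} [Field F] {V : Type*} [AddCommGroup V] [Module F V] {q : QuadraticForm F V}

/-- `n_z = w ∧ z` -/
def nn (q : QuadraticForm F V) (w z : V) : Module.End F V :=
  (polarBilin q w).smulRight z - (polarBilin q z).smulRight w

theorem nn_apply (w z v : V) : nn q w z v = polar q w v • z - polar q z v • w := rfl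

/-- `om w v = B(w, v) w` -/
def om (q : QuadraticForm F V) (w : V) : Module.End F V := (polarBilin q w).smulRight w

theorem om_apply (w v : V) : om q w v = polar q w v • w := rfl

theorem siegel_eq {w z : V} (hw : q w = 0) (hz : polar q w z = 0) :
    ((siegel q w z hw hz : V ≃ₗ[F] V) : Module.End F V) = 1 + nn q w z - q z • om q w := by
  ext v
  rw [LinearEquiv.coe_coe, siegel_apply, LinearMap.sub_apply, LinearMap.add_apply, LinearMap.smul_apply,
    Module.End.one_apply, nn_apply, om_apply]
  module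

theorem nn_sq {w z : V} (hw : q w = 0) (hz : polar q w z = 0) : nn q w z * nn q w z = (-(2 * q z)) • om q w := by
  ext v
  have h1 : polar q z w = 0 := by rw [polar_comm]; exact hz
  simp only [Module.End.mul_apply, nn_apply, polar_sub_right, polar_smul_right, hz, h1, polar_self_of_sing hw,
    polar_self' z, LinearMap.smul_apply, om_apply, smul_eq_mul]
  module

theorem nn_mul_perp {w z z' : V} (hw : q w = 0) (hz : polar q w z = 0) (hz' : polar q w z' = 0)
    : nn q w z * nn q w z' = (-(polar q z z')) • om q w := by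
  ext v
  have h1 : polar q z w = 0 := by rw [polar_comm]; exact hz
  simp only [Module.End.mul_apply, nn_apply, polar_sub_right, polar_smul_right, hz, hz', h1, polar_self_of_sing hw,
    LinearMap.smul_apply, om_apply, smul_eq_mul]
  module

theorem nn_om {w z : V} (hw : q w = 0) (hz : polar q w z = 0) : nn q w z * om q w = 0 := by
  ext v
  have h1 : polar q z w = 0 := by rw [polar_comm]; exact hz
  simp [Module.End.mul_apply, nn_apply, om_apply, h1, polar_self_of_sing hw]

theorem om_nn {w z : V} (hw : q w = 0) (hz : polar q w z = 0) : om q w * nn q w z = 0 := by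
  ext v
  simp [Module.End.mul_apply, nn_apply, om_apply, hz, polar_self_of_sing hw, polar_sub_right, polar_smul_right]

theorem om_om {w : V} (hw : q w = 0) : om q w * om q w = 0 := by
  ext v
  simp [Module.End.mul_apply, om_apply, polar_self_of_sing hw, polar_smul_right]

theorem siegel_sub_one_cube {w z : V} (hw : q w = 0) (hz : polar q w z = 0) :
    (((siegel q w z hw hz : V ≃ₗ[F] V) : Module.End F V) - 1) ^ 3 = 0 := by
  have h1 := siegel_eq hw hz (F := F)
  have h2 : ((siegel q w z hw hz : V ≃ₗ[F] V) : Module.End F V) - 1 = nn q w z - q z • om q w := by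
    rw [h1]; abel
  rw [h2, pow_succ, pow_two]
  have e1 : (nn q w z - q z • om q w) * (nn q w z - q z • om q w) = (-(2 * q z)) • om q w := by
    rw [mul_sub, sub_mul, sub_mul, nn_sq hw hz, mul_smul_comm, mul_smul_comm, smul_mul_assoc, smul_mul_assoc,
      nn_om hw hz, om_nn hw hz, om_om hw]
    simp
  rw [e1, mul_sub, smul_mul_assoc, om_nn hw hz, mul_smul_comm, smul_mul_assoc, om_om hw]
  simp

end one

variable {F : Type*} [Field F] {κ : Type*} [Fintype κ] [DecidableEq κ] {ι : Type*} [Fintype ι] [DecidableEq ι]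
  {q : QuadraticForm F (κ → F)}

/-- the operator of a slot siegel element -/
theorem slE_toEnd (i : ι) (f : (κ → F) ≃ₗ[F] (κ → F)) :
    ((slE i f : ((ι → κ) → F) ≃ₗ[F] ((ι → κ) → F)) : Module.End F ((ι → κ) → F)) =
      sl i (f : Module.End F (κ → F)) := LinearMap.ext fun v => slE_coe i f v

/-- A vector fixed by the Siegel group of `w` in slot `i` is `a ⊗ w`. -/
theorem fix_slot (h2 : (2 : F) ≠ 0) (hq : Nondeg q) {i : ι} {w : κ → F} (hw : q w = 0) (hw0 : w ≠ 0)
    {v : (ι → κ) → F} (hv : ∀ (z : κ → F) (hz : polar q w z = 0), slE i (siegel q w z hw hz) v = v)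
    (hd : ∃ z : κ → F, polar q w z = 0 ∧ q z ≠ 0) :
    ∃ a, v = ten F κ i a w := by
  have S := tst (ι := ι) h2 hq i
  obtain ⟨w', hyp⟩ := LieClassical.OrthTrans.exists_hyp hq hw hw0
  have key : ∀ (z y : κ → F) (hz : polar q w z = 0),
      S.cw (polar q w y • z - polar q z y • w - (q z * polar q w y) • w) v = 0 := by
    intro z y hz
    have hz' : polar q w (-z) = 0 := by rw [polar_neg_right, hz, neg_zero]
    have h1 := hv (-z) hz'
    have h3 : S.cw (siegel q w z hw hz y) v = S.cw y v := by
      refine S.eq_of_polar fun u => ?_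
      rw [← S.polar_cw, ← S.polar_cw]
      have h5 : slE i (siegel q w z hw hz) v = v := hv z hz
      conv_lhs => rw [← h5, ← slE_ten]
      exact polar_map (slE_mem_O h2 i (siegel_mem_O hw hz)) _ _
    rw [siegel_apply] at h3
    have h4 : S.cw (polar q w y • z - polar q z y • w - (q z * polar q w y) • w) v =
        S.cw (y + polar q w y • z - polar q z y • w - (q z * polar q w y) • w) v - S.cw y v := by
      refine S.eq_of_polar fun u => ?_
      rw [polar_sub_left, ← S.polar_cw, ← S.polar_cw, ← S.polar_cw]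
      simp only [map_add, map_sub, map_smul, polar_add_right, polar_sub_right, polar_smul_right]
      ring
    rw [h4, h3, sub_self]
  have hlin : ∀ (c : F) (y : κ → F), S.cw (c • y) v = c • S.cw y v := by
    intro c y
    refine S.eq_of_polar fun u => ?_
    rw [polar_smul_left, ← S.polar_cw, ← S.polar_cw, map_smul, polar_smul_right]
  have hadd : ∀ (x y : κ → F), S.cw (x + y) v = S.cw x v + S.cw y v := by
    intro x y
    refine S.eq_of_polar fun u => ?_
    rw [polar_add_left, ← S.polar_cw, ← S.polar_cw, ← S.polar_cw, map_add, polar_add_right]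
  -- `cw w v = 0`
  obtain ⟨z0, hz0, hz0'⟩ := hd
  have hcw : S.cw w v = 0 := by
    have h1 := key z0 z0 hz0
    rw [hz0, zero_smul, mul_zero, zero_smul, sub_zero, zero_sub, ← neg_smul, hlin] at h1
    refine (smul_eq_zero.1 h1).resolve_left ?_
    rw [polar_self']
    exact neg_ne_zero.2 (mul_ne_zero h2 hz0')
  have hcz : ∀ z, polar q w z = 0 → S.cw z v = 0 := by
    intro z hz
    have h1 := key z w' hz
    rw [hyp.pair, one_smul, mul_one, sub_sub, ← add_smul, sub_eq_add_neg, ← neg_smul, hadd, hlin, hcw, smul_zero,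
      add_zero] at h1
    exact h1
  exact ⟨_, S.eq_t_of_perp (nondeg_QT h2 hq) hyp hcz⟩

/-- The vectors fixed by the Siegel groups of `x i` in all slots are the multiples of `tp x`. -/
theorem fix_pure (h2 : (2 : F) ≠ 0) (hq : Nondeg q) {x : ι → (κ → F)} (hx : ∀ i, q (x i) = 0)
    (hx0 : ∀ i, x i ≠ 0) {v : (ι → κ) → F}
    (hv : ∀ i (z : κ → F) (hz : polar q (x i) z = 0), slE i (siegel q (x i) z (hx i) hz) v = v)
    (hd : ∀ i, ∃ z : κ → F, polar q (x i) z = 0 ∧ q z ≠ 0) :
    ∃ c : F, v = c • tp x := by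
  have h1 : ∀ i, ∃ y, Hyp q (x i) y := fun i => LieClassical.OrthTrans.exists_hyp hq (hx i) (hx0 i)
  choose y hy using h1
  let π : ι → Module.End F (κ → F) := fun i => (polarBilin q (y i)).smulRight (x i)
  have hπ : ∀ i z, π i z = polar q (y i) z • x i := fun i z => rfl
  have hfix : ∀ i, sl i (π i) v = v := by
    intro i
    obtain ⟨a, ha⟩ := fix_slot h2 hq (hx i) (hx0 i) (hv i) (hd i)
    rw [ha, sl_ten, hπ, (hy i).pair', one_smul]
  have hall : ∀ S : Finset ι, op (fun i => if i ∈ S then π i else 1) v = v := by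
    intro S
    induction S using Finset.induction_on with
    | empty => simp only [Finset.notMem_empty, if_false, op_one, Module.End.one_apply]
    | insert i S hi ih =>
      have : op (fun j => if j ∈ insert i S then π j else 1) = op (fun j => if j ∈ S then π j else 1) * sl i (π i) := by
        rw [sl, ← op_mul]
        congr 1
        funext j
        by_cases hj : j = i
        · subst hj
          rw [if_pos (Finset.mem_insert_self _ _), if_neg hi, Function.update_self, one_mul]
        · rw [Function.update_of_ne hj, mul_one]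
          by_cases hjS : j ∈ S
          · rw [if_pos (Finset.mem_insert_of_mem hjS), if_pos hjS]
          · rw [if_neg, if_neg hjS]
            intro h
            rcases Finset.mem_insert.1 h with h | h
            · exact hj h
            · exact hjS h
      rw [this, Module.End.mul_apply, hfix, ih]
  have h3 := hall Finset.univ
  simp only [Finset.mem_univ, if_true] at h3
  -- the image of `op π` is spanned by `tp x`
  have h4 : ∀ v, ∃ c : F, op π v = c • tp x := by
    have h5 : LinearMap.range (op π) ≤ Submodule.span F {tp x} := by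
      rw [LinearMap.range_eq_map, ← (Pi.basisFun F (ι → κ)).span_eq, Submodule.map_span, Submodule.span_le]
      rintro _ ⟨_, ⟨a, rfl⟩, rfl⟩
      rw [Pi.basisFun_apply, single_eq_tp, op_tp]
      have : (fun i => π i (Pi.single (a i) 1)) = fun i => (polar q (y i) (Pi.single (a i) 1)) • x i := rfl
      rw [this, tp_smul_all]
      exact Submodule.smul_mem _ _ (Submodule.mem_span_singleton_self _)
    intro v
    obtain ⟨c, hc⟩ := Submodule.mem_span_singleton.1 (h5 ⟨v, rfl⟩)
    exact ⟨c, hc.symm⟩
  obtain ⟨c, hc⟩ := h4 v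
  exact ⟨c, by rw [← hc, h3]⟩

/-! ### irreducibility -/

/-- A submodule of `U` closed under the Siegel transformations and containing a singular vector is everything. -/
theorem top_of_sing {V : Type*} [AddCommGroup V] [Module F V] {Q : QuadraticForm F V} (h2 : (2 : F) ≠ 0)
    (hQ : Nondeg Q) (hd : 3 ≤ Module.finrank F V) {W : Submodule F V} {x : V} (hx : Q x = 0) (hx0 : x ≠ 0)
    (hxW : x ∈ W) (hW : ∀ (u z : V) (hu : Q u = 0) (hz : polar Q u z = 0), ∀ v ∈ W, siegel Q u z hu hz v ∈ W) :
    W = ⊤ := by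
  obtain ⟨y, hyp⟩ := LieClassical.OrthTrans.exists_hyp hQ hx hx0
  have key : ∀ z, polar Q y z = 0 → z - (polar Q z x + Q z) • y ∈ W := by
    intro z hz
    have h1 := W.sub_mem (hW y z hyp.right hz x hxW) hxW
    rw [siegel_apply, hyp.pair'] at h1
    have e : x + (1 : F) • z - polar Q z x • y - (Q z * 1) • y - x = z - (polar Q z x + Q z) • y := by module
    rwa [e] at h1
  obtain ⟨z, hz1, hz2, hz3⟩ := exists_nonsing_perp hQ hd hyp
  have hyW : y ∈ W := by
    have h1 := key z hz2
    have h3 := key (-z) (by rw [polar_neg_right, hz2, neg_zero])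
    have h4 := W.add_mem h1 h3
    rw [polar_comm Q z x, hz1, polar_neg_left, polar_comm Q z x, hz1, QuadraticMap.map_neg] at h4
    have e : z - (0 + Q z) • y + (-z - (-0 + Q z) • y) = (-(2 * Q z)) • y := by module
    rw [e] at h4
    exact (W.smul_mem_iff (neg_ne_zero.2 (mul_ne_zero h2 hz3))).1 h4
  rw [eq_top_iff]
  intro v _
  have h1 := key (v - polar Q y v • x) (by rw [polar_sub_right, polar_smul_right, hyp.pair']; simp)
  have h3 := W.add_mem (W.add_mem h1 (W.smul_mem (polar Q (v - polar Q y v • x) x + Q (v - polar Q y v • x)) hyW))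
    (W.smul_mem (polar Q y v) hxW)
  have e : v - polar Q y v • x - (polar Q (v - polar Q y v • x) x + Q (v - polar Q y v • x)) • y +
      (polar Q (v - polar Q y v • x) x + Q (v - polar Q y v • x)) • y + polar Q y v • x = v := by module
  rwa [e] at h3

/-- The tensor power is irreducible. -/
theorem top_of_tp (h2 : (2 : F) ≠ 0) (hq : Nondeg q) (hd : 3 ≤ Fintype.card κ)
    {W : Submodule F ((ι → κ) → F)} {x : ι → (κ → F)} (hx : ∀ i, q (x i) = 0) (hx0 : ∀ i, x i ≠ 0)
    (hxW : tp x ∈ W) (hW : ∀ i (u z : κ → F) (hu : q u = 0) (hz : polar q u z = 0), ∀ v ∈ W,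
      slE i (siegel q u z hu hz) v ∈ W) : W = ⊤ := by
  have hall : ∀ S : Finset ι, ∀ y : ι → (κ → F), tp (fun i => if i ∈ S then y i else x i) ∈ W := by
    intro S
    induction S using Finset.induction_on with
    | empty => intro y; simpa using hxW
    | insert i S hi ih =>
      intro y
      let b : ι → (κ → F) := fun j => if j ∈ S then y j else x j
      have hb : b i = x i := if_neg hi
      let L : (κ → F) →ₗ[F] ((ι → κ) → F) := (tpM F ι κ).toLinearMap b i
      have hL : ∀ u, L u = tp (Function.update b i u) := fun u => rfl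
      have htop : W.comap L = ⊤ := by
        refine top_of_sing h2 hq (by rw [Module.finrank_fintype_fun_eq_card]; exact hd) (hx i) (hx0 i) ?_ ?_
        · rw [Submodule.mem_comap, hL, ← hb, Function.update_eq_self]
          exact ih y
        · intro u z hu hz v hv
          rw [Submodule.mem_comap, hL] at hv ⊢
          have h1 := hW i u z hu hz _ hv
          rw [slE_tp, Function.update_self, Function.update_idem] at h1
          exact h1
      have h1 : y i ∈ W.comap L := by rw [htop]; trivial
      rw [Submodule.mem_comap, hL] at h1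
      convert h1 using 2
      funext j
      by_cases hj : j = i
      · subst hj
        rw [Function.update_self, if_pos (Finset.mem_insert_self _ _)]
      · rw [Function.update_of_ne hj]
        show _ = if j ∈ S then y j else x j
        by_cases hjS : j ∈ S
        · rw [if_pos (Finset.mem_insert_of_mem hjS), if_pos hjS]
        · rw [if_neg, if_neg hjS]
          intro h
          rcases Finset.mem_insert.1 h with h | h
          · exact hj h
          · exact hjS h
  rw [eq_top_iff, ← (Pi.basisFun F (ι → κ)).span_eq, Submodule.span_le]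
  rintro _ ⟨a, rfl⟩
  have h1 := hall Finset.univ (fun i => Pi.single (a i) 1)
  simp only [Finset.mem_univ, if_true] at h1
  rw [Pi.basisFun_apply, single_eq_tp]
  exact h1

/-- A non-zero submodule closed under the slot Siegel elements contains `tp x`. -/
theorem tp_mem_of_ne_bot [Finite F] (h2 : (2 : F) ≠ 0) (hq : Nondeg q) (hd : 3 ≤ Fintype.card κ)
    {W : Submodule F ((ι → κ) → F)} {x : ι → (κ → F)} (hx : ∀ i, q (x i) = 0) (hx0 : ∀ i, x i ≠ 0)
    (hne : W ≠ ⊥) (hW : ∀ i (z : κ → F) (hz : polar q (x i) z = 0), ∀ v ∈ W,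
      slE i (siegel q (x i) z (hx i) hz) v ∈ W) : tp x ∈ W := by
  classical
  obtain ⟨a, haW, ha0⟩ := Submodule.exists_mem_ne_zero_of_ne_bot hne
  let I := Σ i : ι, {z : κ → F // polar q (x i) z = 0}
  have : Finite I := inferInstance
  have : Fintype I := Fintype.ofFinite I
  let s : I → (((ι → κ) → F) ≃ₗ[F] ((ι → κ) → F)) := fun j => slE j.1 (siegel q (x j.1) j.2.1 (hx j.1) j.2.2)
  let D : I → ((ι → κ) → F) → ((ι → κ) → F) := fun j v => s j v - v
  have hs : ∀ j j', s j * s j' = s j' * s j := by
    rintro ⟨i, z, hz⟩ ⟨i', z', hz'⟩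
    by_cases h : i = i'
    · subst h
      show slE i _ * slE i _ = slE i _ * slE i _
      rw [← map_mul, ← map_mul, siegel_mul (hx i) hz hz' (by rw [polar_add_right, hz, hz', add_zero]),
        siegel_mul (hx i) hz' hz (by rw [polar_add_right, hz, hz', add_zero])]
      congr 1
      ext v : 1
      rw [siegel_apply, siegel_apply, add_comm z z']
    · exact slE_comm h _ _
  have hcomm : ∀ i j g, D i (D j g) = D j (D i g) := by
    intro i j g
    show s i (s j g - g) - (s j g - g) = s j (s i g - g) - (s i g - g)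
    have h1 : s i (s j g) = s j (s i g) := LinearEquiv.congr_fun (hs i j) g
    rw [map_sub, map_sub, h1]
    abel
  have hDlin : ∀ j v, D j v = (((s j : ((ι → κ) → F) ≃ₗ[F] ((ι → κ) → F)) : Module.End F ((ι → κ) → F)) - 1) v :=
    fun j v => rfl
  have hnil : ∀ j, ∃ n : ℕ, ∀ g ∈ (W : Set ((ι → κ) → F)), (D j)^[n] g = 0 := by
    rintro ⟨i, z, hz⟩
    refine ⟨3, fun g _ => ?_⟩
    have h1 : ∀ n : ℕ, (D ⟨i, z, hz⟩)^[n] g =
        ((((s ⟨i, z, hz⟩ : ((ι → κ) → F) ≃ₗ[F] ((ι → κ) → F)) : Module.End F ((ι → κ) → F)) - 1) ^ n) g := by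
      intro n
      induction n with
      | zero => rfl
      | succ n ih => rw [Function.iterate_succ_apply', ih, pow_succ']; rfl
    rw [h1]
    have h3 : (((s ⟨i, z, hz⟩ : ((ι → κ) → F) ≃ₗ[F] ((ι → κ) → F)) : Module.End F ((ι → κ) → F)) - 1) ^ 3 = 0 := by
      show (((slE i (siegel q (x i) z (hx i) hz) : ((ι → κ) → F) ≃ₗ[F] ((ι → κ) → F)) :
        Module.End F ((ι → κ) → F)) - 1) ^ 3 = 0
      rw [slE_toEnd, ← sl_one i, ← sl_sub, ← slA_apply, ← map_pow, siegel_sub_one_cube, map_zero]
    rw [h3]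
    rfl
  obtain ⟨b, hb, hb0, hbS⟩ := exists_common D hcomm (W : Set ((ι → κ) → F)) {0} rfl
    (fun j g hg => W.sub_mem (hW j.1 j.2.1 j.2.2 g hg) hg)
    (fun j g hg => by
      rw [Set.mem_singleton_iff] at hg ⊢
      subst hg
      show s j 0 - 0 = 0
      rw [map_zero, sub_zero]) hnil haW (by simpa using ha0) Finset.univ
  have hfix : ∀ i (z : κ → F) (hz : polar q (x i) z = 0), slE i (siegel q (x i) z (hx i) hz) b = b := by
    intro i z hz
    have h1 := hbS ⟨i, z, hz⟩ (Finset.mem_univ _)
    exact sub_eq_zero.1 h1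
  obtain ⟨c, hc⟩ := fix_pure h2 hq hx hx0 hfix (fun i => by
    obtain ⟨y, hyp⟩ := LieClassical.OrthTrans.exists_hyp hq (hx i) (hx0 i)
    obtain ⟨z, hz1, _, hz3⟩ := exists_nonsing_perp hq
      (by rw [Module.finrank_fintype_fun_eq_card]; exact hd) hyp
    exact ⟨z, hz1, hz3⟩)
  have hc0 : c ≠ 0 := by
    rintro rfl
    rw [zero_smul] at hc
    exact hb0 hc
  rw [hc] at hb
  exact (W.smul_mem_iff hc0).1 hb

end Cfsg.Agent.H883.C7
end

-- part: H883/C7/Irr
section
/-!
# Commutative sets of operators invariant under the slot groups are scalar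
-/

set_option autoImplicit false
set_option linter.unusedSectionVars false
set_option linter.unusedSimpArgs false

namespace Cfsg.Agent.H883.C7

open QuadraticMap hiding proj
open Cfsg.Agent.LieClassical.OrthCore Cfsg.Agent.LieClassical.OrthTrans
open Cfsg.Agent.H882.Ten

section cj

variable {F : Type*} [Field F] {V : Type*} [AddCommGroup V] [Module F V]

theorem cj_mul' (k : V ≃ₗ[F] V) (a b : Module.End F V) : cj k (a * b) = cj k a * cj k b := by
  ext v
  rw [Module.End.mul_apply, cj_apply, cj_apply, cj_apply, Module.End.mul_apply]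
  have : k⁻¹ (k (b (k⁻¹ v))) = b (k⁻¹ v) := LinearEquiv.symm_apply_apply k _
  rw [this]

theorem cj_sub' (k : V ≃ₗ[F] V) (a b : Module.End F V) : cj k (a - b) = cj k a - cj k b := by
  ext v
  rw [LinearMap.sub_apply, cj_apply, cj_apply, cj_apply, LinearMap.sub_apply, map_sub]

theorem cj_add' (k : V ≃ₗ[F] V) (a b : Module.End F V) : cj k (a + b) = cj k a + cj k b := by
  ext v
  rw [LinearMap.add_apply, cj_apply, cj_apply, cj_apply, LinearMap.add_apply, map_add]

theorem cj_smul' (k : V ≃ₗ[F] V) (c : F) (a : Module.End F V) : cj k (c • a) = c • cj k a := by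
  ext v
  rw [LinearMap.smul_apply, cj_apply, cj_apply, LinearMap.smul_apply, map_smul]

theorem cj_one' (k : V ≃ₗ[F] V) : cj k (1 : Module.End F V) = 1 := by
  ext v
  rw [cj_apply]
  exact LinearEquiv.apply_symm_apply k v

theorem cj_cj (k l : V ≃ₗ[F] V) (a : Module.End F V) : cj k (cj l a) = cj (k * l) a := by
  ext v
  rw [cj_apply, cj_apply, cj_apply, mul_inv_rev]
  rfl

theorem one_cj (a : Module.End F V) : cj (1 : V ≃ₗ[F] V) a = a := by
  ext v
  rw [cj_apply, inv_one]
  rfl

/-- `k a = (cj k a) k` -/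
theorem toEnd_mul_eq (k : V ≃ₗ[F] V) (a : Module.End F V) :
    (k : Module.End F V) * a = cj k a * (k : Module.End F V) := by
  ext v
  rw [Module.End.mul_apply, Module.End.mul_apply, cj_apply, LinearEquiv.coe_coe]
  have : k⁻¹ (k v) = v := LinearEquiv.symm_apply_apply k v
  rw [this]

theorem cj_eq_iff (k : V ≃ₗ[F] V) (a b : Module.End F V) :
    cj k a = b ↔ (k : Module.End F V) * a = b * (k : Module.End F V) := by
  constructor
  · rintro rfl; exact toEnd_mul_eq k a
  · intro h
    ext v
    have h1 := LinearMap.congr_fun h (k⁻¹ v)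
    rw [Module.End.mul_apply, Module.End.mul_apply, LinearEquiv.coe_coe] at h1
    rw [cj_apply, h1]
    congr 1
    exact LinearEquiv.apply_symm_apply k v

end cj

variable {F : Type*} [Field F] {κ : Type*} [Fintype κ] [DecidableEq κ] {ι : Type*} [Fintype ι] [DecidableEq ι]
  {q : QuadraticForm F (κ → F)}

theorem sl_inj {x : κ → F} (hx : x ≠ 0) {i : ι} {f g : Module.End F (κ → F)} (h : sl i f = sl i g) : f = g := by
  refine LinearMap.ext fun u => ?_
  have hne : tp (fun _ : {j // j ≠ i} => x) ≠ 0 := tp_ne_zero fun _ => hx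
  have h1 := LinearMap.congr_fun h (ten F κ i (tp fun _ => x) u)
  rw [sl_ten, sl_ten] at h1
  exact t_right_inj (isTen F κ i) hne h1

theorem sl_eq_zero {x : κ → F} (hx : x ≠ 0) {i : ι} {f : Module.End F (κ → F)} (h : sl i f = 0) : f = 0 :=
  sl_inj hx (i := i) (by rw [h, ← slA_apply, map_zero])

/-- An operator commuting with the Siegel group of `x` (slot `i`) up to scalars commutes with it. -/
theorem lam_zero (h2 : (2 : F) ≠ 0) (hq : Nondeg q)
    (hF : 4 ≤ Fintype.card κ ∨ ∃ c : F, c ≠ 0 ∧ c * c ≠ 1) {x : κ → F} (hx : q x = 0) (hx0 : x ≠ 0) (i : ι)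
    {α : Module.End F ((ι → κ) → F)}
    (h : ∀ (z : κ → F) (hz : polar q x z = 0), ∃ c : F, cj (slE i (siegel q x z hx hz)) α - α = c • 1)
    (z : κ → F) (hz : polar q x z = 0) : cj (slE i (siegel q x z hx hz)) α = α := by
  obtain ⟨x', hyp⟩ := LieClassical.OrthTrans.exists_hyp hq hx hx0
  let Ω : Module.End F ((ι → κ) → F) := sl i (om q x)
  let N : (κ → F) → Module.End F ((ι → κ) → F) := fun z => sl i (nn q x z)
  have hs : ∀ (z : κ → F) (hz : polar q x z = 0),
      ((slE i (siegel q x z hx hz) : ((ι → κ) → F) ≃ₗ[F] ((ι → κ) → F)) : Module.End F ((ι → κ) → F)) =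
        1 + N z - q z • Ω := by
    intro z hz
    rw [slE_toEnd, siegel_eq, sl_sub, sl_add, sl_one, sl_smul]
  -- the commutator with `N z`
  have hcomm : ∀ (z : κ → F) (hz : polar q x z = 0), ∃ c : F,
      cj (slE i (siegel q x z hx hz)) α - α = c • 1 ∧ N z * α - α * N z = c • (1 - q z • Ω) := by
    intro z hz
    have hz' : polar q x (-z) = 0 := by rw [polar_neg_right, hz, neg_zero]
    obtain ⟨c, hc⟩ := h z hz
    obtain ⟨c', hc'⟩ := h (-z) hz'
    have e1 : cj (slE i (siegel q x z hx hz)) α = α + c • 1 := by rw [← hc]; abel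
    have e2 : cj (slE i (siegel q x (-z) hx hz')) α = α + c' • 1 := by rw [← hc']; abel
    have hinv : slE i (siegel q x z hx hz) * slE i (siegel q x (-z) hx hz') = (1 : ((ι → κ) → F) ≃ₗ[F] ((ι → κ) → F)) := by
      rw [← map_mul, siegel_mul hx hz hz' (by rw [add_neg_cancel, polar_zero_right])]
      have : siegel q x (z + -z) hx (by rw [add_neg_cancel, polar_zero_right]) = 1 := by
        ext v : 1
        rw [siegel_apply, add_neg_cancel, polar_zero_left, QuadraticMap.map_zero]
        simp
      rw [this, map_one]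
    have e3 : c' = -c := by
      have h3 := congrArg (cj (slE i (siegel q x z hx hz))) e2
      rw [cj_cj, hinv, one_cj, cj_add', cj_smul', cj_one', e1] at h3
      have h4 : (c + c') • (1 : Module.End F ((ι → κ) → F)) = 0 := by
        rw [add_smul]
        have h5 : α = α + (c • 1 + c' • 1) := by
          conv_lhs => rw [h3]
          abel
        exact (left_eq_add.1 h5)
      have h5 : c + c' = 0 := by
        by_contra hne
        have h6 : (1 : Module.End F ((ι → κ) → F)) = 0 := (smul_eq_zero.1 h4).resolve_left hne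
        have h7 := LinearMap.congr_fun h6 (tp fun _ : ι => x)
        exact tp_ne_zero (fun _ : ι => hx0) h7
      exact (neg_eq_of_add_eq_zero_right h5).symm
    rw [cj_eq_iff, hs] at e1 e2
    have hN : N (-z) = (-1 : F) • N z := by
      show sl i (nn q x (-z)) = (-1 : F) • sl i (nn q x z)
      rw [← sl_smul]
      congr 1
      refine LinearMap.ext fun v => ?_
      rw [nn_apply, LinearMap.smul_apply, nn_apply, polar_neg_left]
      module
    rw [hN, QuadraticMap.map_neg, e3] at e2
    refine ⟨c, hc, ?_⟩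
    have h3 : (2 : F) • (N z * α - α * N z) = (2 : F) • (c • (1 - q z • Ω)) := by
      simp only [add_mul, sub_mul, mul_add, mul_sub, one_mul, mul_one, smul_mul_assoc, mul_smul_comm] at e1 e2
      linear_combination (norm := module) e1 - e2
    exact smul_right_injective _ h2 h3
  -- it suffices that the scalar is zero
  obtain ⟨c, hc, hcN⟩ := hcomm z hz
  suffices hc0 : c = 0 by
    rw [hc0, zero_smul, sub_eq_zero] at hc
    exact hc
  by_cases hzs : q z = 0
  · rw [hzs, zero_smul, sub_zero] at hcN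
    have hN2 : N z * N z = 0 := by
      show sl i _ * sl i _ = 0
      rw [← sl_mul, nn_sq hx hz, hzs, mul_zero, neg_zero, zero_smul, ← slA_apply, map_zero]
    have h3 : (2 * c) • N z = 0 := by
      have h4 : N z * (N z * α - α * N z) + (N z * α - α * N z) * N z = 0 := by
        rw [mul_sub, sub_mul, ← mul_assoc, hN2, zero_mul, zero_sub, mul_assoc α, hN2, mul_zero, sub_zero,
          mul_assoc]
        abel
      rw [hcN, mul_smul_comm, smul_mul_assoc, mul_one, one_mul] at h4
      rw [two_mul, add_smul]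
      exact h4
    by_contra hc0
    have h4 := (smul_eq_zero.1 h3).resolve_left (mul_ne_zero h2 hc0)
    rw [h4, zero_mul, mul_zero, sub_zero] at hcN
    have h5 := LinearMap.congr_fun hcN.symm (tp fun _ : ι => x)
    rw [LinearMap.smul_apply, Module.End.one_apply, LinearMap.zero_apply] at h5
    exact hc0 ((smul_eq_zero.1 h5).resolve_right (tp_ne_zero fun _ => hx0))
  rcases hF with hF | ⟨a, ha0, ha1⟩
  · obtain ⟨z', hz'0, hz'⟩ := exists_perp_ne (Q := q) ![x, x', z]
      (by rw [Module.finrank_fintype_fun_eq_card]; omega)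
    have h1 : polar q x z' = 0 := hz' 0
    have h1' : polar q x' z' = 0 := hz' 1
    have h1'' : polar q z z' = 0 := hz' 2
    obtain ⟨c', -, hcN'⟩ := hcomm z' h1
    have hNN : N z * N z' = 0 := by
      show sl i _ * sl i _ = 0
      rw [← sl_mul, nn_mul_perp hx hz h1, h1'', neg_zero, zero_smul, ← slA_apply, map_zero]
    have hNΩ : N z * Ω = 0 := by
      show sl i _ * sl i _ = 0
      rw [← sl_mul, nn_om hx hz, ← slA_apply, map_zero]
    have hΩN : Ω * N z' = 0 := by
      show sl i _ * sl i _ = 0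
      rw [← sl_mul, om_nn hx h1, ← slA_apply, map_zero]
    have h3 : N z * (N z' * α - α * N z') + (N z * α - α * N z) * N z' = 0 := by
      rw [mul_sub, sub_mul, ← mul_assoc, hNN, zero_mul, mul_assoc α, hNN, mul_zero, mul_assoc]
      abel
    rw [hcN, hcN', mul_smul_comm, smul_mul_assoc, mul_sub, sub_mul, mul_smul_comm, smul_mul_assoc, hNΩ, hΩN,
      mul_one, one_mul, smul_zero, smul_zero, sub_zero, sub_zero] at h3
    have h4 : c' • nn q x z + c • nn q x z' = 0 := by
      refine sl_eq_zero hx0 (i := i) ?_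
      rw [sl_add, sl_smul, sl_smul]
      exact h3
    have h5 := LinearMap.congr_fun h4 x'
    rw [LinearMap.add_apply, LinearMap.smul_apply, LinearMap.smul_apply, nn_apply, nn_apply, hyp.pair,
      polar_comm q z' x', h1', LinearMap.zero_apply] at h5
    have h6 := congrArg (polar q z) h5
    simp only [polar_add_right, polar_smul_right, polar_sub_right, polar_self', polar_comm q z x, hz, h1'',
      polar_zero_right, smul_eq_mul] at h6
    have h7 : c' = 0 := by
      have : c' * (2 * q z) = 0 := by linear_combination h6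
      exact (mul_eq_zero.1 this).resolve_right (mul_ne_zero h2 hzs)
    rw [h7] at h5
    have h8 : c • z' = 0 := by
      have : (0 : F) • ((1 : F) • z - polar q z x' • x) + c • ((1 : F) • z' - (0 : F) • x) = c • z' := by module
      rw [← this]; exact h5
    exact (smul_eq_zero.1 h8).resolve_right hz'0
  · have haz : polar q x (a • z) = 0 := by rw [polar_smul_right, hz, smul_zero]
    obtain ⟨c', -, hcN'⟩ := hcomm (a • z) haz
    have hNa : N (a • z) = a • N z := by
      show sl i (nn q x (a • z)) = a • sl i (nn q x z)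
      rw [← sl_smul]
      congr 1
      refine LinearMap.ext fun v => ?_
      rw [nn_apply, LinearMap.smul_apply, nn_apply, polar_smul_left, smul_eq_mul]
      module
    rw [hNa, smul_mul_assoc, mul_smul_comm] at hcN'
    have hcN'' : a • (N z * α - α * N z) = c' • (1 - q (a • z) • Ω) := by rw [← hcN']; module
    rw [hcN] at hcN''
    have h3 : (a * c - c') • (1 : Module.End F (κ → F)) - (a * c * q z - c' * q (a • z)) • om q x = 0 := by
      refine sl_eq_zero hx0 (i := i) ?_
      rw [sl_sub, sl_smul, sl_smul, sl_one]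
      have : (a * c - c') • (1 : Module.End F ((ι → κ) → F)) - (a * c * q z - c' * q (a • z)) • sl i (om q x) =
          a • c • (1 - q z • Ω) - c' • (1 - q (a • z) • Ω) := by
        show _ = a • c • (1 - q z • sl i (om q x)) - c' • (1 - q (a • z) • sl i (om q x))
        module
      rw [this, hcN'', sub_self]
    have h5 := LinearMap.congr_fun h3 x'
    rw [LinearMap.sub_apply, LinearMap.smul_apply, LinearMap.smul_apply, om_apply, hyp.pair, one_smul,
      Module.End.one_apply, LinearMap.zero_apply] at h5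
    have h6 := congrArg (polar q x) h5
    have h7 := congrArg (polar q x') h5
    simp only [polar_sub_right, polar_smul_right, hyp.pair, hyp.pair', hyp.polar_left, hyp.polar_right,
      polar_zero_right, smul_eq_mul, mul_one, mul_zero, sub_zero, zero_sub] at h6 h7
    rw [QuadraticMap.map_smul, smul_eq_mul] at h7
    have h8 : c' = a * c := by linear_combination -h6
    rw [h8] at h7
    have h9 : (a * c * q z) * (a * a - 1) = 0 := by linear_combination h7
    rcases mul_eq_zero.1 h9 with h9 | h9
    · rcases mul_eq_zero.1 h9 with h9 | h9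
      · exact (mul_eq_zero.1 h9).resolve_left ha0
      · exact absurd h9 hzs
    · exact absurd (by linear_combination h9) ha1

section nil

variable {V : Type*} [AddCommGroup V] [Module F V]

/-- `Ad k - 1` is nilpotent for unipotent `k`. -/
theorem cj_sub_nil {k : V ≃ₗ[F] V} (h : IsNilpotent ((k : Module.End F V) - 1)) :
    ∃ n : ℕ, ∀ α : Module.End F V, (fun β : Module.End F V => cj k β - β)^[n] α = 0 := by
  let a : Module.End F V := (k : Module.End F V)
  let b : Module.End F V := ((k⁻¹ : V ≃ₗ[F] V) : Module.End F V)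
  have hab : a * b = 1 := LinearMap.ext fun v => LinearEquiv.apply_symm_apply k v
  have hba : b * a = 1 := LinearMap.ext fun v => LinearEquiv.symm_apply_apply k v
  let L : Module.End F (Module.End F V) := LinearMap.mulLeft F a
  let R : Module.End F (Module.End F V) := LinearMap.mulRight F b
  have hLR : Commute L R := LinearMap.commute_mulLeft_right a b
  have hL : IsNilpotent (L - 1) := by
    obtain ⟨n, hn⟩ := h
    refine ⟨n, ?_⟩
    have e : L - 1 = LinearMap.mulLeft F (a - 1) := by
      refine LinearMap.ext fun x => ?_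
      rw [LinearMap.sub_apply, LinearMap.mulLeft_apply, LinearMap.mulLeft_apply, Module.End.one_apply, sub_mul,
        one_mul]
    rw [e, LinearMap.pow_mulLeft, hn]
    refine LinearMap.ext fun x => ?_
    rw [LinearMap.mulLeft_apply, zero_mul, LinearMap.zero_apply]
  have hR : IsNilpotent (R - 1) := by
    have h1 : IsNilpotent (b - 1) := by
      have e : b - 1 = -(b * (a - 1)) := by rw [mul_sub, hba, mul_one, neg_sub]
      rw [e]
      refine IsNilpotent.neg ?_
      refine Commute.isNilpotent_mul_left ?_ h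
      show b * (a - 1) = (a - 1) * b
      rw [mul_sub, sub_mul, hba, hab, mul_one, one_mul]
    obtain ⟨n, hn⟩ := h1
    refine ⟨n, ?_⟩
    have e : R - 1 = LinearMap.mulRight F (b - 1) := by
      refine LinearMap.ext fun x => ?_
      rw [LinearMap.sub_apply, LinearMap.mulRight_apply, LinearMap.mulRight_apply, Module.End.one_apply, mul_sub,
        mul_one]
    rw [e, LinearMap.pow_mulRight, hn]
    refine LinearMap.ext fun x => ?_
    rw [LinearMap.mulRight_apply, mul_zero, LinearMap.zero_apply]
  have hT : IsNilpotent (L * R - 1) := by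
    have e : L * R - 1 = (L - 1) * R + (R - 1) := by rw [sub_mul, one_mul]; abel
    rw [e]
    have c1 : Commute (L - 1) R := hLR.sub_left (Commute.one_left R)
    refine Commute.isNilpotent_add ?_ (Commute.isNilpotent_mul_right c1 hL) hR
    have c2 : Commute (L - 1) (R - 1) := c1.sub_right (Commute.one_right _)
    exact c2.mul_left ((Commute.refl R).sub_right (Commute.one_right R))
  obtain ⟨n, hn⟩ := hT
  refine ⟨n, fun α => ?_⟩
  have h1 : ∀ m : ℕ, (fun β : Module.End F V => cj k β - β)^[m] α = ((L * R - 1) ^ m) α := by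
    intro m
    induction m with
    | zero => rfl
    | succ m ih =>
      rw [Function.iterate_succ_apply', ih, pow_succ']
      rfl
  rw [h1, hn, LinearMap.zero_apply]

/-- Fitting: `ν` is nilpotent if no non-zero `v` in the images of all powers. -/
theorem nilp_of_range [FiniteDimensional F V] (ν : Module.End F V)
    (h : ∀ n : ℕ, LinearMap.range (ν ^ n) ≠ ⊥ → ∃ v ∈ LinearMap.range (ν ^ n), v ≠ 0 ∧ ν v = 0) :
    IsNilpotent ν := by
  obtain ⟨n, -, hn⟩ := Module.End.exists_ker_pow_eq_ker_pow_succ ν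
  refine ⟨n, ?_⟩
  by_contra hne
  have h1 : LinearMap.range (ν ^ n) ≠ ⊥ := by
    intro h0
    exact hne (LinearMap.range_eq_bot.1 h0)
  obtain ⟨v, ⟨u, rfl⟩, hv0, hv⟩ := h n h1
  apply hv0
  have h2 : u ∈ LinearMap.ker (ν ^ n.succ) := by
    rw [LinearMap.mem_ker, pow_succ']
    exact hv
  rw [← hn] at h2
  exact LinearMap.mem_ker.1 h2

end nil

/-- **Commutative families of operators invariant under the slot groups are scalar.** -/
theorem irr [Finite F] (h2 : (2 : F) ≠ 0) (hq : Nondeg q) (hd : 3 ≤ Fintype.card κ)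
    (hF : 4 ≤ Fintype.card κ ∨ ∃ c : F, c ≠ 0 ∧ c * c ≠ 1) {x : κ → F} (hx : q x = 0) (hx0 : x ≠ 0)
    (P : Module.End F ((ι → κ) → F) → Prop)
    (hsub : ∀ α β, P α → P β → P (α - β))
    (hcj : ∀ α, P α → ∀ i (u z : κ → F) (hu : q u = 0) (hz : polar q u z = 0),
      P (cj (slE i (siegel q u z hu hz)) α))
    (hcom : ∀ α β, P α → P β → α * β = β * α) {α : Module.End F ((ι → κ) → F)} (hα : P α) :
    ∃ c : F, α = c • 1 := by
  classical
  by_contra hns
  let X : Set (Module.End F ((ι → κ) → F)) := {β | ∃ c : F, β = c • 1}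
  let I := ι × {z : κ → F // polar q x z = 0}
  have : Finite I := inferInstance
  have : Fintype I := Fintype.ofFinite I
  let s : I → (((ι → κ) → F) ≃ₗ[F] ((ι → κ) → F)) := fun j => slE j.1 (siegel q x j.2.1 hx j.2.2)
  let D : I → Module.End F ((ι → κ) → F) → Module.End F ((ι → κ) → F) := fun j β => cj (s j) β - β
  have hs : ∀ j j', s j * s j' = s j' * s j := by
    rintro ⟨i, z, hz⟩ ⟨i', z', hz'⟩
    by_cases h : i = i'
    · subst h
      show slE i _ * slE i _ = slE i _ * slE i _
      rw [← map_mul, ← map_mul, siegel_mul hx hz hz' (by rw [polar_add_right, hz, hz', add_zero]),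
        siegel_mul hx hz' hz (by rw [polar_add_right, hz, hz', add_zero])]
      congr 1
      ext v : 1
      rw [siegel_apply, siegel_apply, add_comm z z']
    · exact slE_comm h _ _
  have hcomm : ∀ i j g, D i (D j g) = D j (D i g) := by
    intro i j g
    show cj (s i) (cj (s j) g - g) - (cj (s j) g - g) = cj (s j) (cj (s i) g - g) - (cj (s i) g - g)
    rw [cj_sub', cj_sub', cj_cj, cj_cj, hs i j]
    abel
  obtain ⟨α, hα, hα0, hαS⟩ := exists_common D hcomm {β | P β} X ⟨0, by rw [zero_smul]⟩
    (fun j g hg => hsub _ _ (hcj g hg j.1 x j.2.1 hx j.2.2) hg)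
    (by
      rintro j g ⟨c, rfl⟩
      refine ⟨0, ?_⟩
      show cj (s j) (c • 1) - c • 1 = _
      rw [cj_smul', cj_one', sub_self, zero_smul])
    (by
      intro j
      obtain ⟨n, hn⟩ := cj_sub_nil (k := s j) ⟨3, by
        show (((slE j.1 (siegel q x j.2.1 hx j.2.2) : ((ι → κ) → F) ≃ₗ[F] ((ι → κ) → F)) :
          Module.End F ((ι → κ) → F)) - 1) ^ 3 = 0
        rw [slE_toEnd, ← sl_one j.1, ← sl_sub, ← slA_apply, ← map_pow, siegel_sub_one_cube, map_zero]⟩
      exact ⟨n, fun g _ => hn g⟩) hα hns Finset.univ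
  -- `α` commutes with the Siegel groups of `x`
  have hfix : ∀ i (z : κ → F) (hz : polar q x z = 0), cj (slE i (siegel q x z hx hz)) α = α := by
    intro i
    exact lam_zero h2 hq hF hx hx0 i fun z hz => hαS (i, ⟨z, hz⟩) (Finset.mem_univ _)
  set t : (ι → κ) → F := tp (fun _ : ι => x) with ht
  have ht0 : t ≠ 0 := tp_ne_zero fun _ => hx0
  have happ : ∀ i (z : κ → F) (hz : polar q x z = 0) v,
      slE i (siegel q x z hx hz) (α v) = α (slE i (siegel q x z hx hz) v) := by
    intro i z hz v
    have h1 := (cj_eq_iff _ _ _).1 (hfix i z hz)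
    exact LinearMap.congr_fun h1 v
  have hst : ∀ i (z : κ → F) (hz : polar q x z = 0), slE i (siegel q x z hx hz) t = t := by
    intro i z hz
    rw [ht, slE_tp, siegel_apply, polar_self_of_sing hx, polar_comm q z x, hz]
    simp
  have hdd : ∀ _ : ι, ∃ z : κ → F, polar q x z = 0 ∧ q z ≠ 0 := fun _ => by
    obtain ⟨y, hyp⟩ := LieClassical.OrthTrans.exists_hyp hq hx hx0
    obtain ⟨z, hz1, _, hz3⟩ := exists_nonsing_perp hq
      (by rw [Module.finrank_fintype_fun_eq_card]; exact hd) hyp
    exact ⟨z, hz1, hz3⟩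
  obtain ⟨μ, hμ⟩ := fix_pure h2 hq (x := fun _ : ι => x) (fun _ => hx) (fun _ => hx0) (v := α t)
    (fun i z hz => by rw [happ, hst]) hdd
  let ν : Module.End F ((ι → κ) → F) := α - μ • 1
  have hνt : ν t = 0 := by
    show α t - μ • t = 0
    rw [hμ, sub_self]
  have hνs : ∀ i (z : κ → F) (hz : polar q x z = 0) v,
      slE i (siegel q x z hx hz) (ν v) = ν (slE i (siegel q x z hx hz) v) := by
    intro i z hz v
    show slE i (siegel q x z hx hz) (α v - μ • v) = α _ - μ • _
    rw [map_sub, happ, map_smul]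
    rfl
  have hνn : IsNilpotent ν := by
    refine nilp_of_range ν fun n hne => ⟨t, ?_, ht0, hνt⟩
    refine tp_mem_of_ne_bot h2 hq hd (fun _ => hx) (fun _ => hx0) hne ?_
    rintro i z hz _ ⟨u, rfl⟩
    refine ⟨slE i (siegel q x z hx hz) u, ?_⟩
    have : ∀ m : ℕ, (ν ^ m) (slE i (siegel q x z hx hz) u) = slE i (siegel q x z hx hz) ((ν ^ m) u) := by
      intro m
      induction m with
      | zero => rfl
      | succ m ih =>
        rw [pow_succ', Module.End.mul_apply, Module.End.mul_apply, ih, hνs]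
    exact this n
  -- the group generated by the slot Siegel elements
  let A : Set (((ι → κ) → F) ≃ₗ[F] ((ι → κ) → F)) :=
    {k | ∃ (i : ι) (u z : κ → F) (hu : q u = 0) (hz : polar q u z = 0), k = slE i (siegel q u z hu hz)}
  let K := Subgroup.closure A
  have hKP : ∀ k ∈ K, ∀ β, P β ↔ P (cj k β) := by
    have hinv : ∀ i (u z : κ → F) (hu : q u = 0) (hz : polar q u z = 0),
        (slE i (siegel q u z hu hz) : ((ι → κ) → F) ≃ₗ[F] ((ι → κ) → F))⁻¹ =
          slE i (siegel q u (-z) hu (by rw [polar_neg_right, hz, neg_zero])) := by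
      intro i u z hu hz
      rw [← map_inv, siegel_inv hu hz (by rw [polar_neg_right, hz, neg_zero])]
    intro k hk
    induction hk using Subgroup.closure_induction with
    | mem k hk =>
      obtain ⟨i, u, z, hu, hz, rfl⟩ := hk
      intro β
      refine ⟨fun h => hcj β h i u z hu hz, fun h => ?_⟩
      have h1 := hcj _ h i u (-z) hu (by rw [polar_neg_right, hz, neg_zero])
      rw [← hinv i u z hu hz, cj_cj, inv_mul_cancel, one_cj] at h1
      exact h1
    | one => intro β; rw [one_cj]
    | mul a b _ _ ha hb => intro β; rw [hb, ha, cj_cj]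
    | inv a _ ha => intro β; rw [ha (cj a⁻¹ β), cj_cj, mul_inv_cancel, one_cj]
  have hfinE : Finite (((ι → κ) → F) ≃ₗ[F] ((ι → κ) → F)) :=
    Finite.of_injective (fun g => (g : ((ι → κ) → F) → ((ι → κ) → F))) DFunLike.coe_injective
  have : Finite K := inferInstance
  have : Fintype K := Fintype.ofFinite K
  have hcjν : ∀ k : ((ι → κ) → F) ≃ₗ[F] ((ι → κ) → F), cj k ν = cj k α - μ • 1 := by
    intro k
    show cj k (α - μ • 1) = _
    rw [cj_sub', cj_smul', cj_one']
  have hcomν : ∀ k ∈ K, ∀ k' ∈ K, cj k ν * cj k' ν = cj k' ν * cj k ν := by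
    intro k hk k' hk'
    have h1 := hcom _ _ ((hKP k hk α).1 hα) ((hKP k' hk' α).1 hα)
    rw [hcjν, hcjν, sub_mul, sub_mul, mul_sub, mul_sub, mul_sub, mul_sub, h1]
    simp only [smul_mul_assoc, mul_smul_comm, one_mul, mul_one]
    abel
  obtain ⟨b, -, hb0, hbK⟩ := exists_common (fun (k : K) (v : (ι → κ) → F) => cj k.1 ν v)
    (fun k k' v => LinearMap.congr_fun (hcomν k.1 k.2 k'.1 k'.2) v) Set.univ {0} rfl
    (fun _ _ _ => trivial) (fun k g hg => by
      rw [Set.mem_singleton_iff] at hg ⊢
      rw [hg, map_zero])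
    (by
      intro k
      obtain ⟨n, hn⟩ := hνn
      refine ⟨n, fun g _ => ?_⟩
      have h1 : ∀ m : ℕ, (fun v : (ι → κ) → F => cj k.1 ν v)^[m] g = k.1 ((ν ^ m) (k.1⁻¹ g)) := by
        intro m
        induction m with
        | zero => exact (LinearEquiv.apply_symm_apply k.1 g).symm
        | succ m ih =>
          rw [Function.iterate_succ_apply', ih, cj_apply, pow_succ', Module.End.mul_apply]
          have : k.1⁻¹ (k.1 ((ν ^ m) (k.1⁻¹ g))) = (ν ^ m) (k.1⁻¹ g) := LinearEquiv.symm_apply_apply k.1 _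
          rw [this]
      rw [h1, hn, LinearMap.zero_apply, map_zero]) (Set.mem_univ t) (by simpa using ht0) Finset.univ
  let W : Submodule F ((ι → κ) → F) :=
    { carrier := {v | ∀ k ∈ K, cj k ν v = 0}
      add_mem' := by
        intro a b ha hb k hk
        rw [map_add, ha k hk, hb k hk, add_zero]
      zero_mem' := by
        intro k _
        rw [map_zero]
      smul_mem' := by
        intro c a ha k hk
        rw [map_smul, ha k hk, smul_zero] }
  have hbW : b ∈ W := fun k hk => hbK ⟨k, hk⟩ (Finset.mem_univ _)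
  have hWinv : ∀ k ∈ K, ∀ v ∈ W, k v ∈ W := by
    intro k hk v hv l hl
    have h1 := hv (k⁻¹ * l) (K.mul_mem (K.inv_mem hk) hl)
    rw [← cj_cj, cj_apply, inv_inv] at h1
    have h3 : k (k⁻¹ (cj l ν (k v))) = 0 := by rw [h1, map_zero]
    have h4 : k (k⁻¹ (cj l ν (k v))) = cj l ν (k v) := LinearEquiv.apply_symm_apply k _
    rw [← h4, h3]
  have hWs : ∀ i (u z : κ → F) (hu : q u = 0) (hz : polar q u z = 0), ∀ v ∈ W, slE i (siegel q u z hu hz) v ∈ W :=
    fun i u z hu hz v hv => hWinv _ (Subgroup.subset_closure ⟨i, u, z, hu, hz, rfl⟩) v hv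
  have hWne : W ≠ ⊥ := by
    intro h
    rw [h] at hbW
    exact hb0 ((Submodule.mem_bot F).1 hbW)
  have htW : t ∈ W := tp_mem_of_ne_bot h2 hq hd (fun _ => hx) (fun _ => hx0) hWne
    (fun i z hz v hv => hWs i x z hx hz v hv)
  have hWtop := top_of_tp h2 hq hd (fun _ => hx) (fun _ => hx0) htW hWs
  apply hα0
  refine ⟨μ, ?_⟩
  refine LinearMap.ext fun v => ?_
  have h1 : v ∈ W := by rw [hWtop]; trivial
  have h3 := h1 1 K.one_mem
  rw [one_cj] at h3
  exact sub_eq_zero.1 h3

end Cfsg.Agent.H883.C7
end
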