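import Cfsg.Agent.H883.C7.Irr
import Cfsg.Agent.H883.Root
set_option linter.all false

/-!
# Interface of part (N): overgroups which are not thin contain `E (QT q ι)`
-/

set_option autoImplicit false
set_option linter.unusedSectionVars false

namespace Cfsg.Agent.H883.C7

open QuadraticMap hiding proj
open Cfsg.Agent.LieClassical.OrthCore Cfsg.Agent.LieClassical.OrthTrans
open Cfsg.Agent.H882.Ten Cfsg.Agent.LieClassical.OrthFinite

variable {F : Type*} [Field F] {κ : Type*} [Fintype κ] [DecidableEq κ] {ι : Type*} [Fintype ι] [DecidableEq ι]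

/-- The hypotheses on the slot form: odd characteristic, nondegenerate, dimension `k ≥ 3`, `(q, k) ≠ (3, 3)`,
not of plus type for `k = 4`. -/
structure Hyp7 (q : QuadraticForm F (κ → F)) : Prop where
  two : (2 : F) ≠ 0
  nd : Nondeg q
  three : 3 ≤ Fintype.card κ
  five : Fintype.card κ = 3 → 5 ≤ Nat.card F
  four : Fintype.card κ = 4 → ∀ w x, w ≠ 0 → q w = 0 → q x = 0 → polar q w x = 0 → ∃ c : F, x = c • w

/-- In a finite field with at least five elements there is `c ≠ 0` with `c ^ 2 ≠ 1`. -/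
theorem exists_sq_ne [Finite F] (h5 : 5 ≤ Nat.card F) : ∃ c : F, c ≠ 0 ∧ c * c ≠ 1 := by
  classical
  have : Fintype F := Fintype.ofFinite F
  rw [Nat.card_eq_fintype_card] at h5
  by_contra hcon
  push Not at hcon
  have h1 : (Finset.univ : Finset F) ⊆ {0, 1, -1} := by
    intro c _
    by_cases hc : c = 0
    · simp [hc]
    · have h3 := hcon c hc
      have h4 : (c - 1) * (c + 1) = 0 := by linear_combination h3
      rcases mul_eq_zero.1 h4 with h | h
      · simp [sub_eq_zero.1 h]
      · simp [eq_neg_of_add_eq_zero_left h]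
  have h2 := Finset.card_le_card h1
  have h3 : ({0, 1, -1} : Finset F).card ≤ 3 := Finset.card_le_three
  rw [Finset.card_univ] at h2
  omega

/-- `f = ω_u` with `u` singular. -/
def IsOm (q : QuadraticForm F (κ → F)) (f : Module.End F (κ → F)) : Prop :=
  ∃ u, u ≠ 0 ∧ q u = 0 ∧ f = om q u

/-- `f = u ∧ z` with `u` singular and `z ⊥ u` nonsingular. -/
def IsNn (q : QuadraticForm F (κ → F)) (f : Module.End F (κ → F)) : Prop :=
  ∃ u z, u ≠ 0 ∧ q u = 0 ∧ polar q u z = 0 ∧ q z ≠ 0 ∧ f = nn q u z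

/-- `1 + T ∈ M` -/
def PX (M : Subgroup (((ι → κ) → F) ≃ₗ[F] ((ι → κ) → F))) (T : Module.End F ((ι → κ) → F)) : Prop :=
  ∃ g ∈ M, ∀ v, g v = v + T v

theorem Hyp7.good [Finite F] {q : QuadraticForm F (κ → F)} (H : Hyp7 q) (ht : 2 ≤ Fintype.card ι) :
    Good (QT q ι) := by
  refine good_QT H.two H.nd ?_
  have h1 : 3 ^ 2 ≤ Fintype.card κ ^ Fintype.card ι :=
    (Nat.pow_le_pow_left H.three 2).trans (Nat.pow_le_pow_right (by have := H.three; omega) ht)
  omega

end Cfsg.Agent.H883.C7
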