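import Cfsg.Agent.H883.C7.LIface
import Cfsg.Agent.H883.C7.NIface
import Cfsg.Agent.H889.TensorPow
import Cfsg.Agent.H874.Recog
import Cfsg.Agent.H919.AschWreath
set_option linter.all false

-- part: H883/C7/Slots
section
/-!
# Operators commuting with the Siegel elements of the slots `l ≠ i`
-/

set_option autoImplicit false
set_option linter.unusedSectionVars false
set_option linter.unusedSimpArgs false

namespace Cfsg.Agent.H883.C7

open QuadraticMap hiding proj
open Cfsg.Agent.LieClassical.OrthCore Cfsg.Agent.LieClassical.OrthTrans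
open Cfsg.Agent.H882.Ten Cfsg.Agent.LieClassical.OrthFinite

variable {F : Type*} [Field F] {κ : Type*} [Fintype κ] [DecidableEq κ] {ι : Type*} [Fintype ι] [DecidableEq ι]
  {q : QuadraticForm F (κ → F)}

/-- An operator commuting with all slot Siegel elements is scalar. -/
theorem scalar_of_comm (h2 : (2 : F) ≠ 0) (hq : Nondeg q) (hd : 3 ≤ Fintype.card κ) {x : κ → F} (hx : q x = 0)
    (hx0 : x ≠ 0) {T : Module.End F ((ι → κ) → F)}
    (hT : ∀ i (u z : κ → F) (hu : q u = 0) (hz : polar q u z = 0) v,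
      T (slE i (siegel q u z hu hz) v) = slE i (siegel q u z hu hz) (T v)) :
    ∃ c : F, ∀ v, T v = c • v := by
  have hdz : ∃ z : κ → F, polar q x z = 0 ∧ q z ≠ 0 := by
    obtain ⟨y, hyp⟩ := LieClassical.OrthTrans.exists_hyp hq hx hx0
    obtain ⟨z, hz1, _, hz3⟩ := exists_nonsing_perp hq
      (by rw [Module.finrank_fintype_fun_eq_card]; exact hd) hyp
    exact ⟨z, hz1, hz3⟩
  obtain ⟨c, hc⟩ := fix_pure (ι := ι) h2 hq (x := fun _ => x) (v := T (tp fun _ => x)) (fun _ => hx)
    (fun _ => hx0) (fun i z hz => by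
      rw [← hT]
      congr 1
      rw [slE_tp]
      have : siegel q x z hx hz x = x := by
        rw [siegel_apply, polar_self_of_sing hx, polar_comm q z x, hz]; simp
      rw [this, Function.update_eq_self i (fun _ : ι => x)]) (fun _ => hdz)
  refine ⟨c, ?_⟩
  have htop : LinearMap.ker (T - c • LinearMap.id) = ⊤ := by
    refine top_of_tp h2 hq hd (x := fun _ => x) (fun _ => hx) (fun _ => hx0) ?_ ?_
    · rw [LinearMap.mem_ker, LinearMap.sub_apply, LinearMap.smul_apply, LinearMap.id_apply, hc, sub_self]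
    · intro i u z hu hz v hv
      rw [LinearMap.mem_ker, LinearMap.sub_apply, LinearMap.smul_apply, LinearMap.id_apply, sub_eq_zero] at hv ⊢
      rw [hT, hv, map_smul]
  intro v
  have : v ∈ LinearMap.ker (T - c • LinearMap.id) := by rw [htop]; trivial
  rw [LinearMap.mem_ker, LinearMap.sub_apply, LinearMap.smul_apply, LinearMap.id_apply, sub_eq_zero] at this
  exact this

/-- The commutant of the Siegel elements in the slots `l ≠ i` is the slot algebra. -/
theorem comm_slots (h2 : (2 : F) ≠ 0) (hq : Nondeg q) (hd : 3 ≤ Fintype.card κ) {x : κ → F} (hx : q x = 0)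
    (hx0 : x ≠ 0) (i : ι) {T : Module.End F ((ι → κ) → F)}
    (hT : ∀ l, l ≠ i → ∀ (u z : κ → F) (hu : q u = 0) (hz : polar q u z = 0) v,
      T (slE l (siegel q u z hu hz) v) = slE l (siegel q u z hu hz) (T v)) :
    ∃ f : Module.End F (κ → F), ∀ v, T v = sl i f v := by
  have S := tst (ι := ι) h2 hq i
  -- contractions are scalar
  have key : ∀ u0 u1 : κ → F, ∃ c : F, ∀ a, S.cw u0 (T (ten F κ i a u1)) = c • a := by
    intro u0 u1
    refine scalar_of_comm (ι := {j // j ≠ i}) h2 hq hd hx hx0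
      (T := S.cw u0 ∘ₗ T ∘ₗ (ten F κ i).flip u1) ?_
    intro l u z hu hz a
    show S.cw u0 (T (ten F κ i (slE l (siegel q u z hu hz) a) u1)) =
      slE l (siegel q u z hu hz) (S.cw u0 (T (ten F κ i a u1)))
    rw [← slE_sub_ten, hT (l : ι) l.2]
    set v := T (ten F κ i a u1)
    have : S.cw u0 ∘ₗ ((slE (l : ι) (siegel q u z hu hz) : ((ι → κ) → F) ≃ₗ[F] ((ι → κ) → F)) :
        Module.End F ((ι → κ) → F)) =
        ((slE l (siegel q u z hu hz) : (({j // j ≠ i} → κ) → F) ≃ₗ[F] (({j // j ≠ i} → κ) → F)) :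
        Module.End F (({j // j ≠ i} → κ) → F)) ∘ₗ S.cw u0 := by
      refine ext_t S.ten fun a u => ?_
      simp only [LinearMap.comp_apply, LinearEquiv.coe_coe]
      rw [slE_sub_ten, S.cw_t, S.cw_t, map_smul]
    exact LinearMap.congr_fun this v
  choose c hc using key
  -- a pair of dual vectors of the rest
  have hne : tp (fun _ : {j // j ≠ i} => x) ≠ 0 := tp_ne_zero fun _ => hx0
  obtain ⟨y0, hy0⟩ := S.ndU.exists_polar_eq hne 1
  set a0 := tp (fun _ : {j // j ≠ i} => x) with ha0
  let f : Module.End F (κ → F) := S.cu y0 ∘ₗ T ∘ₗ (ten F κ i) a0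
  have hf : ∀ u1, f u1 = S.cu y0 (T (ten F κ i a0 u1)) := fun u1 => rfl
  have hf2 : ∀ u0 u1, polar q (f u1) u0 = c u0 u1 := by
    intro u0 u1
    rw [hf, ← S.polar_cu, S.polar_cw, hc, polar_smul_left, hy0, smul_eq_mul, mul_one]
  refine ⟨f, ?_⟩
  have h3 : T = sl i f := by
    refine ext_t S.ten fun a u => ?_
    rw [sl_ten]
    -- both sides have the same contractions
    have hnd : Nondeg (QT q ι) := nondeg_QT h2 hq
    rw [← sub_eq_zero]
    refine hnd _ fun v => ?_
    have : (polarBilin (QT q ι) (T (ten F κ i a u) - ten F κ i a (f u))) = 0 := by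
      refine ext_t S.ten fun a' u' => ?_
      rw [polarBilin_apply_apply, polar_sub_left, S.polar_cw, S.pol, hc, polar_smul_left, hf2, smul_eq_mul,
        LinearMap.zero_apply]
      ring
    exact LinearMap.congr_fun this v
  intro v
  rw [h3]

end Cfsg.Agent.H883.C7
end

-- part: H829/C7/Std
section
/-!
# The standard tensor wreath group and `IsMono`, `Carries` (helper829, task 1606)

* `isMono_of_mem`, `mem_of_isMono` : `g ∈ tensorWreathStandard k t F ↔ IsMono (glEquiv g)`;
* `IsMono.carries` : a monomial element carries every slot to a slot;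
* `mem_of_carries` : an element which carries every slot to a slot is in `tensorWreathStandard k t F`.
-/

set_option autoImplicit false
set_option linter.unusedSectionVars false

namespace Cfsg.Agent.H829.C7

open QuadraticMap hiding proj
open Cfsg.Agent.LieClassical.OrthCore Cfsg.Agent.LieClassical.OrthTrans Cfsg.Agent.LieClassical.OrthFinite
open Cfsg.Agent.H883.C7 Cfsg.Geo
open scoped MatrixGroups Matrix

section carries

variable {F : Type*} [Field F] {κ : Type*} [Fintype κ] [DecidableEq κ] {ι : Type*} [Fintype ι] [DecidableEq ι]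

/-- A monomial element carries slots to slots. -/
theorem IsMono.carries {g : ((ι → κ) → F) ≃ₗ[F] ((ι → κ) → F)} (hg : IsMono g) (i : ι) : ∃ j, Carries g i j := by
  obtain ⟨f, σ, rfl⟩ := hg
  refine ⟨σ i, fun a => ⟨(f (σ i) : Module.End F (κ → F)) * a * ((f (σ i)).symm : Module.End F (κ → F)), ?_⟩⟩
  have key : ((opE f * pe σ : ((ι → κ) → F) ≃ₗ[F] ((ι → κ) → F)) : Module.End F ((ι → κ) → F)) * sl i a =
      sl (σ i) ((f (σ i) : Module.End F (κ → F)) * a * ((f (σ i)).symm : Module.End F (κ → F))) *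
        ((opE f * pe σ : ((ι → κ) → F) ≃ₗ[F] ((ι → κ) → F)) : Module.End F ((ι → κ) → F)) := by
    refine tp_ext fun x => ?_
    rw [Module.End.mul_apply, Module.End.mul_apply, sl_tp, LinearEquiv.coe_coe, LinearEquiv.mul_apply,
      LinearEquiv.mul_apply, pe_tp, opE_tp, pe_tp, opE_tp, sl_tp]
    congr 1
    funext j
    have hi : σ⁻¹ (σ i) = i := σ.symm_apply_apply i
    by_cases hj : j = σ i
    · subst hj
      rw [Function.update_self, hi, Function.update_self]
      show _ = f (σ i) (a ((f (σ i)).symm (f (σ i) (x i))))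
      rw [LinearEquiv.symm_apply_apply]
    · rw [Function.update_of_ne hj, Function.update_of_ne]
      intro h
      apply hj
      rw [← h]
      exact (σ.apply_symm_apply j).symm
  exact fun v => LinearMap.congr_fun key v

/-- Two different slots are not carried to the same slot. -/
theorem carries_inj (hk : 2 ≤ Fintype.card κ) {g : ((ι → κ) → F) ≃ₗ[F] ((ι → κ) → F)} {i i' j : ι}
    (h : Carries g i j) (h' : Carries g i' j) : i = i' := by
  classical
  by_contra hne
  obtain ⟨a0, b0, hab⟩ := Fintype.exists_pair_of_one_lt_card (by omega : 1 < Fintype.card κ)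
  have hx0 : (Pi.single a0 1 : κ → F) ≠ 0 := by
    intro h0
    have := congrFun h0 a0
    simp at this
  choose φ hφ using h
  choose ψ hψ using h'
  have hinj : ∀ f f' : Module.End F (κ → F), sl j f = sl j f' → f = f' := fun f f' h => sl_inj hx0 h
  have e1 : ∀ f, sl j (φ f) = (g : Module.End F ((ι → κ) → F)) * sl i f * (g.symm : Module.End F ((ι → κ) → F)) := by
    intro f
    refine LinearMap.ext fun v => ?_
    show _ = g (sl i f (g.symm v))
    rw [hφ, LinearEquiv.apply_symm_apply]
  have e2 : ∀ f, sl j (ψ f) = (g : Module.End F ((ι → κ) → F)) * sl i' f * (g.symm : Module.End F ((ι → κ) → F)) := by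
    intro f
    refine LinearMap.ext fun v => ?_
    show _ = g (sl i' f (g.symm v))
    rw [hψ, LinearEquiv.apply_symm_apply]
  -- `φ` is linear
  let Φ : Module.End F (κ → F) →ₗ[F] Module.End F (κ → F) :=
    { toFun := φ
      map_add' := fun f f' => hinj _ _ (by rw [sl_add, e1, e1, e1, sl_add, mul_add, add_mul])
      map_smul' := fun c f => hinj _ _ (by
        rw [RingHom.id_apply, sl_smul, e1, e1, sl_smul, mul_smul_comm, smul_mul_assoc]) }
  have hΦ : Function.Injective Φ := by
    intro f f' hff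
    have h1 : sl j (φ f) = sl j (φ f') := by rw [show φ f = φ f' from hff]
    rw [e1, e1] at h1
    refine sl_inj hx0 (i := i) ?_
    refine LinearMap.ext fun v => ?_
    have h2 := LinearMap.congr_fun h1 (g v)
    have h3 : g (sl i f (g.symm (g v))) = g (sl i f' (g.symm (g v))) := h2
    rw [LinearEquiv.symm_apply_apply] at h3
    exact g.injective h3
  have hsurj : Function.Surjective Φ := LinearMap.surjective_of_injective hΦ
  -- everything commutes
  have hcomm : ∀ f f', φ f * ψ f' = ψ f' * φ f := by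
    intro f f'
    refine hinj _ _ ?_
    rw [sl_mul, sl_mul, e1, e2]
    have hgg : (g.symm : Module.End F ((ι → κ) → F)) * (g : Module.End F ((ι → κ) → F)) = 1 := by
      refine LinearMap.ext fun v => ?_
      exact g.symm_apply_apply v
    calc (g : Module.End F ((ι → κ) → F)) * sl i f * (g.symm : Module.End F ((ι → κ) → F)) *
          ((g : Module.End F ((ι → κ) → F)) * sl i' f' * (g.symm : Module.End F ((ι → κ) → F)))
        = (g : Module.End F ((ι → κ) → F)) * sl i f * ((g.symm : Module.End F ((ι → κ) → F)) *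
          (g : Module.End F ((ι → κ) → F))) * sl i' f' * (g.symm : Module.End F ((ι → κ) → F)) := by
          simp only [mul_assoc]
      _ = (g : Module.End F ((ι → κ) → F)) * (sl i f * sl i' f') * (g.symm : Module.End F ((ι → κ) → F)) := by
          rw [hgg]; simp only [mul_assoc, one_mul]
      _ = (g : Module.End F ((ι → κ) → F)) * (sl i' f' * sl i f) * (g.symm : Module.End F ((ι → κ) → F)) := by
          rw [sl_comm hne]
      _ = (g : Module.End F ((ι → κ) → F)) * sl i' f' * ((g.symm : Module.End F ((ι → κ) → F)) *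
          (g : Module.End F ((ι → κ) → F))) * sl i f * (g.symm : Module.End F ((ι → κ) → F)) := by
          rw [hgg]; simp only [mul_assoc, one_mul]
      _ = _ := by simp only [mul_assoc]
  -- hence `ψ f'` commutes with everything
  have hcen : ∀ (m : Module.End F (κ → F)) f', m * ψ f' = ψ f' * m := by
    intro m f'
    obtain ⟨f, rfl⟩ := hsurj m
    exact hcomm f f'
  -- in particular the images of two elements commute, hence `f'` and `f''` do
  have hall : ∀ f' f'' : Module.End F (κ → F), f' * f'' = f'' * f' := by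
    intro f' f''
    refine sl_inj hx0 (i := i') ?_
    have h1 := congrArg (sl j) (hcen (ψ f') f'')
    rw [sl_mul, sl_mul, e2, e2] at h1
    have h2 : ∀ a b : Module.End F ((ι → κ) → F),
        (g : Module.End F ((ι → κ) → F)) * a * (g.symm : Module.End F ((ι → κ) → F)) *
          ((g : Module.End F ((ι → κ) → F)) * b * (g.symm : Module.End F ((ι → κ) → F))) =
        (g : Module.End F ((ι → κ) → F)) * (a * b) * (g.symm : Module.End F ((ι → κ) → F)) := by
      intro a b
      refine LinearMap.ext fun v => ?_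
      show g (a (g.symm (g (b (g.symm v))))) = g (a (b (g.symm v)))
      rw [LinearEquiv.symm_apply_apply]
    rw [h2, h2] at h1
    rw [sl_mul, sl_mul]
    refine LinearMap.ext fun v => ?_
    have h3 := LinearMap.congr_fun h1 (g v)
    have h4 : g ((sl i' f' * sl i' f'') (g.symm (g v))) = g ((sl i' f'' * sl i' f') (g.symm (g v))) := h3
    rw [LinearEquiv.symm_apply_apply] at h4
    exact g.injective h4
  -- contradiction
  let A : Module.End F (κ → F) := LinearMap.single F (fun _ => F) b0 ∘ₗ LinearMap.proj a0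
  let B : Module.End F (κ → F) := LinearMap.single F (fun _ => F) a0 ∘ₗ LinearMap.proj b0
  have h5 := congrFun (LinearMap.congr_fun (hall A B) (Pi.single a0 1)) a0
  have h6 : (A * B) (Pi.single a0 (1 : F)) a0 = 0 := by
    show (Pi.single b0 ((Pi.single a0 ((Pi.single a0 (1 : F) : κ → F) b0) : κ → F) a0) : κ → F) a0 = 0
    rw [Pi.single_eq_of_ne hab]
  have h7 : (B * A) (Pi.single a0 (1 : F)) a0 = 1 := by
    show (Pi.single a0 ((Pi.single b0 ((Pi.single a0 (1 : F) : κ → F) a0) : κ → F) b0) : κ → F) a0 = 1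
    rw [Pi.single_eq_same, Pi.single_eq_same, Pi.single_eq_same]
  rw [h6, h7] at h5
  exact zero_ne_one h5

end carries

section std

variable {F : Type*} [Field F] {k t : ℕ}

theorem tp_eq (x : Fin t → (Fin k → F)) : Cfsg.Agent.H889.tp x = Cfsg.Agent.H883.C7.tp x := rfl

theorem isMono_of_mem {g : GL (Fin t → Fin k) F} (hg : g ∈ tensorWreathStandard k t F) :
    IsMono (glEquiv (Fin t → Fin k) F g) := by
  obtain ⟨gs, σ, h⟩ := Cfsg.Agent.H889.exists_isMonomialOn hg
  refine ⟨fun i => glEquiv (Fin k) F (gs i), σ⁻¹, ?_⟩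
  refine tp_extE fun x => ?_
  rw [LinearEquiv.mul_apply, pe_tp, opE_tp, glEquiv_apply, inv_inv]
  exact h x

theorem mem_of_isMono {g : GL (Fin t → Fin k) F} (hg : IsMono (glEquiv (Fin t → Fin k) F g)) :
    g ∈ tensorWreathStandard k t F := by
  obtain ⟨f, σ, h⟩ := hg
  refine Cfsg.Agent.H874.mem_of_isMonomialOn (gs := fun i => (glEquiv (Fin k) F).symm (f i)) (σ := σ⁻¹) fun x => ?_
  have h1 : g.val *ᵥ Cfsg.Agent.H883.C7.tp x = glEquiv (Fin t → Fin k) F g (Cfsg.Agent.H883.C7.tp x) := rfl
  rw [tp_eq, h1, h, LinearEquiv.mul_apply, pe_tp, opE_tp]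
  show _ = Cfsg.Agent.H883.C7.tp _
  congr 1
  funext i
  rw [← glEquiv_apply, MulEquiv.apply_symm_apply]

/-- **Recognition.** -/
theorem mem_of_carries (hk : 2 ≤ k) (ht : 0 < t) {g : GL (Fin t → Fin k) F}
    (hg : ∀ i, ∃ j, Carries (glEquiv (Fin t → Fin k) F g) i j) : g ∈ tensorWreathStandard k t F := by
  classical
  choose σ hσ using hg
  have hinj : Function.Injective σ := fun i i' h => carries_inj (by simpa using hk) (hσ i) (by rw [h]; exact hσ i')
  have hbij : Function.Bijective σ := Finite.injective_iff_bijective.1 hinj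
  refine Cfsg.Agent.H919.mem_tensorWreathStandard ht (by omega) g (Equiv.ofBijective σ hbij) fun i x => ?_
  obtain ⟨f', hf'⟩ := hσ i (Matrix.toLin' x)
  refine ⟨LinearMap.toMatrix' f', ?_⟩
  have hs : ∀ (j : Fin t) (A : Matrix (Fin k) (Fin k) F) (v : (Fin t → Fin k) → F),
      Cfsg.Agent.H919.slotMat j A *ᵥ v = sl j (Matrix.toLin' A) v := by
    intro j A v
    have : Matrix.toLin' (Cfsg.Agent.H919.slotMat j A) = sl j (Matrix.toLin' A) := by
      refine tp_ext fun y => ?_
      rw [sl_tp, Matrix.toLin'_apply]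
      exact Cfsg.Agent.H889.slot_mulVec_tp j A y
    rw [← this, Matrix.toLin'_apply]
  rw [Units.mul_inv_eq_iff_eq_mul]
  refine Cfsg.Agent.H889.matrix_ext_tp fun y => ?_
  rw [← Matrix.mulVec_mulVec, ← Matrix.mulVec_mulVec, hs, hs, Matrix.toLin'_toMatrix']
  exact hf' _

end std

end Cfsg.Agent.H829.C7
end

-- part: H889/C7O/Ops
section
/-!
# Operators commuting with a slot (for the exceptional fields, task 1882)

* `CC i` : the operators commuting with the slot algebra of slot `i`;
* `li i A = A ⊗ 1` : the algebra homomorphism from the operators of the other slots onto `CC i`;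
* `IM M X` : the operator `X` is an element of `M`;
* `thin_end` : thinness for `1 + Z ω_j`, `Z ∈ CC j`;
* `comm_zero`, `exists_even` : operators commuting with the Siegel group of a slot.
-/

set_option autoImplicit false
set_option linter.unusedSectionVars false

namespace Cfsg.Agent.H889.C7O

open QuadraticMap hiding proj
open Cfsg.Agent.LieClassical.OrthCore Cfsg.Agent.LieClassical.OrthTrans
open Cfsg.Agent.H882.Ten Cfsg.Agent.LieClassical.OrthFinite
open Cfsg.Agent.H883.C7

section cj

variable {F : Type*} [Field F] {V : Type*} [AddCommGroup V] [Module F V]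

theorem cj_eq_mul (k : V ≃ₗ[F] V) (X : Module.End F V) :
    cj k X = (k : Module.End F V) * X * ((k⁻¹ : V ≃ₗ[F] V) : Module.End F V) := rfl

theorem coe_mul (k l : V ≃ₗ[F] V) : ((k * l : V ≃ₗ[F] V) : Module.End F V) = (k : Module.End F V) * l := rfl

theorem coe_one : ((1 : V ≃ₗ[F] V) : Module.End F V) = 1 := rfl

theorem coe_mul_inv (k : V ≃ₗ[F] V) : (k : Module.End F V) * ((k⁻¹ : V ≃ₗ[F] V) : Module.End F V) = 1 := by
  rw [← coe_mul, mul_inv_cancel, coe_one]

theorem coe_inv_mul (k : V ≃ₗ[F] V) : ((k⁻¹ : V ≃ₗ[F] V) : Module.End F V) * (k : Module.End F V) = 1 := by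
  rw [← coe_mul, inv_mul_cancel, coe_one]

theorem cj_zero (k : V ≃ₗ[F] V) : cj k (0 : Module.End F V) = 0 := by
  rw [cj_eq_mul, mul_zero, zero_mul]

theorem cj_neg (k : V ≃ₗ[F] V) (X : Module.End F V) : cj k (-X) = -cj k X := by
  rw [cj_eq_mul, cj_eq_mul, mul_neg, neg_mul]

theorem cj_inj {k : V ≃ₗ[F] V} {X : Module.End F V} (h : cj k X = 0) : X = 0 := by
  have := congrArg (cj k⁻¹) h
  rwa [cj_cj, inv_mul_cancel, one_cj, cj_zero] at this

/-- `X` commutes with `k` -/
theorem cj_eq_self {k : V ≃ₗ[F] V} {X : Module.End F V}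
    (h : (k : Module.End F V) * X = X * (k : Module.End F V)) : cj k X = X := (cj_eq_iff k X X).2 h

/-- The elements of `M` as operators. -/
def IM (M : Subgroup (V ≃ₗ[F] V)) (X : Module.End F V) : Prop := ∃ g ∈ M, (g : Module.End F V) = X

variable {M : Subgroup (V ≃ₗ[F] V)}

theorem IM.mul {X Y : Module.End F V} (hX : IM M X) (hY : IM M Y) : IM M (X * Y) := by
  obtain ⟨g, hg, rfl⟩ := hX
  obtain ⟨h, hh, rfl⟩ := hY
  exact ⟨g * h, M.mul_mem hg hh, rfl⟩

theorem IM.cj {X : Module.End F V} (hX : IM M X) {k : V ≃ₗ[F] V} (hk : k ∈ M) : IM M (cj k X) := by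
  obtain ⟨g, hg, rfl⟩ := hX
  exact ⟨k * g * k⁻¹, M.mul_mem (M.mul_mem hk hg) (M.inv_mem hk), rfl⟩

theorem IM.inv {X Y : Module.End F V} (hX : IM M X) (hY : X * Y = 1) : IM M Y := by
  obtain ⟨g, hg, rfl⟩ := hX
  refine ⟨g⁻¹, M.inv_mem hg, ?_⟩
  calc ((g⁻¹ : V ≃ₗ[F] V) : Module.End F V) = ((g⁻¹ : V ≃ₗ[F] V) : Module.End F V) * ((g : Module.End F V) * Y) := by
        rw [hY, mul_one]
    _ = Y := by rw [← mul_assoc, coe_inv_mul, one_mul]

theorem IM.one : IM M (1 : Module.End F V) := ⟨1, M.one_mem, rfl⟩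

end cj

theorem two_comm_aux {F : Type*} [Field F] {R : Type*} [Ring R] [Algebra F R] {a b X : R}
    (h1 : (1 + a - b) * X = X * (1 + a - b)) (h3 : (1 + -a - b) * X = X * (1 + -a - b)) :
    (2 : F) • (a * X) = (2 : F) • (X * a) := by
  have h5 : (2 : F) • (a * X) = (1 + a - b) * X - (1 + -a - b) * X := by
    simp only [add_mul, sub_mul, one_mul, neg_mul]
    module
  have h6 : (2 : F) • (X * a) = X * (1 + a - b) - X * (1 + -a - b) := by
    simp only [mul_add, mul_sub, mul_one, mul_neg]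
    module
  rw [h5, h6, h1, h3]

section sim

variable {F : Type*} [Field F] {V : Type*} [AddCommGroup V] [Module F V] {q : QuadraticForm F V}

theorem polar_sim_inv {g : V ≃ₗ[F] V} {c : F} (hc : c ≠ 0) (hg : ∀ x y, polar q (g x) (g y) = c * polar q x y)
    (x y : V) : polar q x (g⁻¹ y) = c⁻¹ * polar q (g x) y := by
  have h1 := hg x (g⁻¹ y)
  have h2 : g (g⁻¹ y) = y := LinearEquiv.apply_symm_apply g y
  rw [h2] at h1
  rw [h1, ← mul_assoc, inv_mul_cancel₀ hc, one_mul]

theorem cj_om_sim {g : V ≃ₗ[F] V} {c : F} (hc : c ≠ 0) (hg : ∀ x y, polar q (g x) (g y) = c * polar q x y)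
    (w : V) : cj g (om q w) = c⁻¹ • om q (g w) := by
  ext v
  rw [cj_apply, om_apply, LinearMap.smul_apply, om_apply, polar_sim_inv hc hg, map_smul, smul_smul]

theorem cj_nn_sim {g : V ≃ₗ[F] V} {c : F} (hc : c ≠ 0) (hg : ∀ x y, polar q (g x) (g y) = c * polar q x y)
    (w z : V) : cj g (nn q w z) = c⁻¹ • nn q (g w) (g z) := by
  ext v
  rw [cj_apply, nn_apply, LinearMap.smul_apply, nn_apply, polar_sim_inv hc hg, polar_sim_inv hc hg, map_sub,
    map_smul, map_smul]
  module

theorem cj_om {g : V ≃ₗ[F] V} (hg : g ∈ O q) (w : V) : cj g (om q w) = om q (g w) := by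
  rw [cj_om_sim one_ne_zero (fun x y => by rw [polar_map hg, one_mul]), inv_one, one_smul]

end sim

variable {F : Type*} [Field F] {κ : Type*} [Fintype κ] [DecidableEq κ] {ι : Type*} [Fintype ι] [DecidableEq ι]

/-- The operators commuting with the slot algebra of slot `i`. -/
noncomputable def CC (F : Type*) [Field F] (κ : Type*) [Fintype κ] [DecidableEq κ] {ι : Type*} [Fintype ι]
    [DecidableEq ι] (i : ι) : Subalgebra F (Module.End F ((ι → κ) → F)) :=
  Subalgebra.centralizer F (Set.range (sl i))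

theorem mem_CC {i : ι} {X : Module.End F ((ι → κ) → F)} :
    X ∈ CC F κ i ↔ ∀ f : Module.End F (κ → F), sl i f * X = X * sl i f := by
  rw [CC, Subalgebra.mem_centralizer_iff]
  exact ⟨fun h f => h _ ⟨f, rfl⟩, by rintro h _ ⟨f, rfl⟩; exact h f⟩

theorem sl_mem_CC {i j : ι} (h : i ≠ j) (f : Module.End F (κ → F)) : sl j f ∈ CC F κ i :=
  mem_CC.2 fun g => sl_comm h g f

theorem slE_mem_CC {i j : ι} (h : i ≠ j) (g : (κ → F) ≃ₗ[F] (κ → F)) :
    ((slE j g : ((ι → κ) → F) ≃ₗ[F] ((ι → κ) → F)) : Module.End F ((ι → κ) → F)) ∈ CC F κ i := by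
  rw [slE_toEnd]
  exact sl_mem_CC h _

theorem cj_slE_self {i : ι} (g : (κ → F) ≃ₗ[F] (κ → F)) {X : Module.End F ((ι → κ) → F)} (hX : X ∈ CC F κ i) :
    cj (slE i g) X = X := by
  refine cj_eq_self ?_
  rw [slE_toEnd]
  exact mem_CC.1 hX _

theorem cj_slE_mem {i : ι} (m : ι) (g : (κ → F) ≃ₗ[F] (κ → F)) {X : Module.End F ((ι → κ) → F)}
    (hX : X ∈ CC F κ i) : cj (slE m g) X ∈ CC F κ i := by
  by_cases h : i = m
  · subst h
    rwa [cj_slE_self g hX]
  · rw [cj_eq_mul, ← map_inv]
    exact mul_mem (mul_mem (slE_mem_CC h g) hX) (slE_mem_CC h g⁻¹)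

theorem cj_slE_sl (i : ι) (g : (κ → F) ≃ₗ[F] (κ → F)) (f : Module.End F (κ → F)) :
    cj (slE i g) (sl i f) = sl i (cj g f) := by
  rw [cj_eq_mul, ← map_inv, slE_toEnd, slE_toEnd, cj_eq_mul, sl_mul, sl_mul]

theorem cj_slE_sl_ne {i m : ι} (h : m ≠ i) (g : (κ → F) ≃ₗ[F] (κ → F)) (f : Module.End F (κ → F)) :
    cj (slE m g) (sl i f) = sl i f := cj_slE_self g (sl_mem_CC h f)

/-! ### `A ⊗ 1` -/

/-- `A ⊗ 1` (slot `i` is left alone). -/
noncomputable def li (i : ι) : Module.End F (({l // l ≠ i} → κ) → F) →ₐ[F] Module.End F ((ι → κ) → F) :=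
  AlgHom.ofLinearMap
    { toFun := fun A => (isTen F κ i).lift ((ten F κ i) ∘ₗ A)
      map_add' := fun A B => ext_t (isTen F κ i) fun a u => by
        rw [LinearMap.add_apply, IsTensorProduct.lift_eq, IsTensorProduct.lift_eq, IsTensorProduct.lift_eq,
          LinearMap.comp_apply, LinearMap.comp_apply, LinearMap.comp_apply, LinearMap.add_apply, map_add,
          LinearMap.add_apply]
      map_smul' := fun c A => ext_t (isTen F κ i) fun a u => by
        rw [RingHom.id_apply, LinearMap.smul_apply, IsTensorProduct.lift_eq, IsTensorProduct.lift_eq,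
          LinearMap.comp_apply, LinearMap.comp_apply, LinearMap.smul_apply, map_smul,
          LinearMap.smul_apply] }
    (ext_t (isTen F κ i) fun a u => by
      show (isTen F κ i).lift _ _ = _
      rw [IsTensorProduct.lift_eq]
      rfl)
    (fun A B => ext_t (isTen F κ i) fun a u => by
      show (isTen F κ i).lift _ _ = (isTen F κ i).lift _ ((isTen F κ i).lift _ _)
      rw [IsTensorProduct.lift_eq, IsTensorProduct.lift_eq]
      show _ = (isTen F κ i).lift _ (ten F κ i (B a) u)
      rw [IsTensorProduct.lift_eq]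
      rfl)

theorem li_ten (i : ι) (A : Module.End F (({l // l ≠ i} → κ) → F)) (a : ({l // l ≠ i} → κ) → F) (u : κ → F) :
    li i A (ten F κ i a u) = ten F κ i (A a) u := by
  show (isTen F κ i).lift _ _ = _
  rw [IsTensorProduct.lift_eq]
  rfl

theorem li_mem (i : ι) (A : Module.End F (({l // l ≠ i} → κ) → F)) : li i A ∈ CC F κ i := by
  refine mem_CC.2 fun f => ext_t (isTen F κ i) fun a u => ?_
  rw [Module.End.mul_apply, Module.End.mul_apply, li_ten, sl_ten, sl_ten, li_ten]

theorem sl_smulRight (i : ι) (φ : (κ → F) →ₗ[F] F) (u : κ → F) (v : (ι → κ) → F) :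
    sl i (φ.smulRight u) v = ten F κ i (cW (isTen F κ i) φ v) u := by
  have : sl i (φ.smulRight u) = (ten F κ i).flip u ∘ₗ cW (isTen F κ i) φ :=
    ext_t (isTen F κ i) fun a x => by
      rw [sl_ten, LinearMap.comp_apply, cW_apply, LinearMap.smulRight_apply, map_smul, LinearMap.flip_apply,
        map_smul, LinearMap.smul_apply]
  rw [this]
  rfl

theorem exists_fun {x : κ → F} (hx : x ≠ 0) : ∃ φ : (κ → F) →ₗ[F] F, φ x = 1 := by
  obtain ⟨a, ha⟩ := Function.ne_iff.1 hx
  refine ⟨(x a)⁻¹ • LinearMap.proj a, ?_⟩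
  rw [LinearMap.smul_apply, LinearMap.proj_apply, smul_eq_mul]
  exact inv_mul_cancel₀ ha

theorem exists_li {x : κ → F} (hx : x ≠ 0) {i : ι} {X : Module.End F ((ι → κ) → F)} (hX : X ∈ CC F κ i) :
    ∃ A, X = li i A := by
  obtain ⟨φ, hφ⟩ := exists_fun hx
  refine ⟨cW (isTen F κ i) φ ∘ₗ X ∘ₗ (ten F κ i).flip x, ext_t (isTen F κ i) fun a u => ?_⟩
  rw [li_ten]
  have h1 : ten F κ i a u = sl i (φ.smulRight u) (ten F κ i a x) := by
    rw [sl_ten, LinearMap.smulRight_apply, hφ, one_smul]
  have h2 := LinearMap.congr_fun (mem_CC.1 hX (φ.smulRight u)) (ten F κ i a x)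
  rw [Module.End.mul_apply, Module.End.mul_apply, sl_smulRight] at h2
  rw [h1, ← h2]
  rfl

/-- `CC i` acts faithfully after multiplication with a nonzero element of slot `i`. -/
theorem CC_eq_zero {i : ι} {X : Module.End F ((ι → κ) → F)} (hX : X ∈ CC F κ i) {f : Module.End F (κ → F)}
    (hf : f ≠ 0) (h : X * sl i f = 0) : X = 0 := by
  obtain ⟨u, hu⟩ : ∃ u, f u ≠ 0 := by
    by_contra hcon
    push Not at hcon
    exact hf (LinearMap.ext hcon)
  obtain ⟨A, rfl⟩ := exists_li hu hX
  have hA : A = 0 := by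
    refine LinearMap.ext fun a => ?_
    have h1 := LinearMap.congr_fun h (ten F κ i a u)
    rw [Module.End.mul_apply, sl_ten, li_ten, LinearMap.zero_apply] at h1
    exact eq_zero_of_t (isTen F κ i) h1 hu
  rw [hA, map_zero]

theorem om_ne {q : QuadraticForm F (κ → F)} {w w' : κ → F} (hyp : Hyp q w w') : om q w ≠ 0 := by
  intro h
  have h1 := LinearMap.congr_fun h w'
  rw [om_apply, hyp.pair, one_smul, LinearMap.zero_apply] at h1
  rw [h1] at hyp
  have := hyp.pair
  rw [polar_zero_left] at this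
  exact zero_ne_one this

theorem CC_om {q : QuadraticForm F (κ → F)} {w w' : κ → F} (hyp : Hyp q w w') {i : ι}
    {X : Module.End F ((ι → κ) → F)} (hX : X ∈ CC F κ i) (h : X * sl i (om q w) = 0) : X = 0 :=
  CC_eq_zero hX (om_ne hyp) h

theorem sl_om_sq {q : QuadraticForm F (κ → F)} {w : κ → F} (hw : q w = 0) (i : ι) :
    (sl i (om q w) : Module.End F ((ι → κ) → F)) * sl i (om q w) = 0 := by
  rw [← sl_mul, om_om hw]
  exact map_zero (slA i)

/-- `1` and `ω` are independent over `CC i`. -/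
theorem CC_indep {q : QuadraticForm F (κ → F)} {w w' : κ → F} (hyp : Hyp q w w') {i : ι}
    {X Y : Module.End F ((ι → κ) → F)} (hX : X ∈ CC F κ i) (hY : Y ∈ CC F κ i)
    (h : X + Y * sl i (om q w) = 0) : X = 0 ∧ Y = 0 := by
  have h1 : X = 0 := by
    refine CC_om hyp hX ?_
    have h2 := congrArg (· * sl i (om q w)) h
    simp only [add_mul, mul_assoc, zero_mul, sl_om_sq hyp.left, mul_zero, add_zero] at h2
    exact h2
  refine ⟨h1, CC_om hyp hY ?_⟩
  rw [h1, zero_add] at h
  exact h

theorem li_inj {i : ι} {x : κ → F} (hx : x ≠ 0) {A : Module.End F (({l // l ≠ i} → κ) → F)} (h : li i A = 0) :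
    A = 0 := by
  refine LinearMap.ext fun a => ?_
  have h1 := LinearMap.congr_fun h (ten F κ i a x)
  rw [li_ten, LinearMap.zero_apply] at h1
  exact eq_zero_of_t (isTen F κ i) h1 hx

theorem sl_sub_ten (i : ι) (j : {j // j ≠ i}) (g : Module.End F (κ → F)) (a : ({j // j ≠ i} → κ) → F)
    (u : κ → F) : sl (j : ι) g (ten F κ i a u) = ten F κ i (sl j g a) u := by
  have : sl (j : ι) g ∘ₗ (ten F κ i).flip u = (ten F κ i).flip u ∘ₗ sl j g := tp_ext fun y => by
    rw [LinearMap.comp_apply, LinearMap.flip_apply, LinearMap.comp_apply, LinearMap.flip_apply, ten_tp,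
      sl_tp, sl_tp, ten_tp, ins_sub, update_ins_ne]
  exact LinearMap.congr_fun this a

theorem li_sl (i : ι) (l : {l // l ≠ i}) (f : Module.End F (κ → F)) : li i (sl l f) = sl (l : ι) f :=
  ext_t (isTen F κ i) fun a u => by rw [li_ten, sl_sub_ten]

theorem cj_li (i : ι) (α : (({l // l ≠ i} → κ) → F) ≃ₗ[F] (({l // l ≠ i} → κ) → F))
    (A : Module.End F (({l // l ≠ i} → κ) → F)) : cj (rU (isTen F κ i) α) (li i A) = li i (cj α A) := by
  rw [cj_eq_iff]
  refine ext_t (isTen F κ i) fun a u => ?_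
  rw [Module.End.mul_apply, Module.End.mul_apply, li_ten, LinearEquiv.coe_coe, rU_apply, rU_apply, li_ten,
    cj_apply]
  have h1 : α⁻¹ (α a) = a := LinearEquiv.symm_apply_apply α a
  rw [h1]

/-! ### thinness -/

section thin

variable {q : QuadraticForm F (κ → F)} {M : Subgroup (((ι → κ) → F) ≃ₗ[F] ((ι → κ) → F))}

theorem thin_end (h2 : (2 : F) ≠ 0) (hq : Nondeg q) (hT : Thin q M) {w w' : κ → F} (hyp : Hyp q w w') {j : ι}
    {Z : Module.End F ((ι → κ) → F)} (hZ : Z ∈ CC F κ j) (h : IM M (1 + Z * sl j (om q w))) : Z = 0 := by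
  obtain ⟨g, hg, hgZ⟩ := h
  have hw0 : w ≠ 0 := by
    rintro rfl
    have := hyp.pair
    rw [polar_zero_left] at this
    exact zero_ne_one this
  have S := tst (ι := ι) h2 hq j
  have h1 := hT j w hw0 hyp.left g hg (by
    intro v hv
    have h3 : S.cw w v = 0 := (S.cw_eq_zero_iff v w).2 hv
    have h4 : sl j (om q w) v = 0 := by
      rw [om, sl_smulRight]
      show ten F κ j (S.cw w v) w = 0
      rw [h3, map_zero, LinearMap.zero_apply]
    have h5 := LinearMap.congr_fun hgZ v
    rw [LinearMap.add_apply, Module.End.mul_apply, h4, map_zero, add_zero] at h5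
    exact h5)
  rw [h1] at hgZ
  refine CC_om hyp hZ ?_
  have h2 : (1 : Module.End F ((ι → κ) → F)) = 1 + Z * sl j (om q w) := hgZ
  exact left_eq_add.1 h2

/-- The operators `X` commuting with the Siegel group of `w` in slot `m`. -/
def NC (q : QuadraticForm F (κ → F)) (w : κ → F) (m : ι) (X : Module.End F ((ι → κ) → F)) : Prop :=
  ∀ z, polar q w z = 0 → sl m (nn q w z) * X = X * sl m (nn q w z)

theorem NC.of_siegel (h2 : (2 : F) ≠ 0) {w : κ → F} (hw : q w = 0) {m : ι} {X : Module.End F ((ι → κ) → F)}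
    (h : ∀ z (hz : polar q w z = 0), cj (slE m (siegel q w z hw hz)) X = X) : NC q w m X := by
  intro z hz
  have hz' : polar q w (-z) = 0 := by rw [polar_neg_right, hz, neg_zero]
  have h1 := (cj_eq_iff _ _ _).1 (h z hz)
  have h3 := (cj_eq_iff _ _ _).1 (h (-z) hz')
  rw [slE_toEnd, siegel_eq, sl_sub, sl_add, sl_one] at h1 h3
  have e1 : nn q w (-z) = -nn q w z := by
    refine LinearMap.ext fun v => ?_
    rw [nn_apply, LinearMap.neg_apply, nn_apply, polar_neg_left]
    module
  rw [e1, QuadraticMap.map_neg, show (sl m (-nn q w z) : Module.End F ((ι → κ) → F)) = -sl m (nn q w z) from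
    map_neg (slA m) _] at h3
  have h4 : (2 : F) • (sl m (nn q w z) * X) = (2 : F) • (X * sl m (nn q w z)) := by
    exact two_comm_aux h1 h3
  have h5 := congrArg ((2 : F)⁻¹ • ·) h4
  simp only [smul_smul, inv_mul_cancel₀ h2, one_smul] at h5
  exact h5

theorem NC.siegel {w : κ → F} (hw : q w = 0) (hd : ∃ z, polar q w z = 0 ∧ q z ≠ 0) (h2 : (2 : F) ≠ 0)
    {m : ι} {X : Module.End F ((ι → κ) → F)} (h : NC q w m X) : sl m (om q w) * X = X * sl m (om q w) := by
  obtain ⟨z, hz, hz0⟩ := hd
  have h1 := h z hz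
  have h3 : sl m (nn q w z * nn q w z) * X = X * sl m (nn q w z * nn q w z) := by
    rw [sl_mul, mul_assoc, h1, ← mul_assoc, h1, mul_assoc]
  rw [nn_sq hw hz, sl_smul, smul_mul_assoc, mul_smul_comm] at h3
  have hn : (-(2 * q z)) ≠ 0 := neg_ne_zero.2 (mul_ne_zero h2 hz0)
  have h5 := congrArg ((-(2 * q z))⁻¹ • ·) h3
  simp only [smul_smul, inv_mul_cancel₀ hn, one_smul] at h5
  exact h5

theorem NC.add {w : κ → F} {m : ι} {X Y : Module.End F ((ι → κ) → F)} (hX : NC q w m X) (hY : NC q w m Y) :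
    NC q w m (X + Y) := fun z hz => by rw [mul_add, add_mul, hX z hz, hY z hz]

theorem NC.sub {w : κ → F} {m : ι} {X Y : Module.End F ((ι → κ) → F)} (hX : NC q w m X) (hY : NC q w m Y) :
    NC q w m (X - Y) := fun z hz => by rw [mul_sub, sub_mul, hX z hz, hY z hz]

theorem NC.smul {w : κ → F} {m : ι} {X : Module.End F ((ι → κ) → F)} (hX : NC q w m X) (c : F) :
    NC q w m (c • X) := fun z hz => by rw [mul_smul_comm, smul_mul_assoc, hX z hz]

theorem NC.of_CC {w : κ → F} {m : ι} {X : Module.End F ((ι → κ) → F)} (hX : X ∈ CC F κ m) : NC q w m X :=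
  fun _ _ => mem_CC.1 hX _

theorem NC.om {w : κ → F} (hw : q w = 0) {m : ι} : NC q w m (sl m (om q w)) := fun z hz => by
  rw [← sl_mul, ← sl_mul, nn_om hw hz, om_nn hw hz]

theorem NC.mul {w : κ → F} {m : ι} {X Y : Module.End F ((ι → κ) → F)} (hX : NC q w m X) (hY : NC q w m Y) :
    NC q w m (X * Y) := fun z hz => by rw [← mul_assoc, hX z hz, mul_assoc, hY z hz, mul_assoc]

/-- Conjugation by a similarity fixing the line of `w` in slot `m`. -/
theorem NC.cj {w : κ → F} {m : ι} {X : Module.End F ((ι → κ) → F)} (hX : NC q w m X)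
    {g : (κ → F) ≃ₗ[F] (κ → F)} {c : F} (hc : c ≠ 0) (hg : ∀ x y, polar q (g x) (g y) = c * polar q x y)
    (hgw : g w = w) : NC q w m (cj (slE m g) X) := by
  intro z hz
  have h1 : polar q w (g⁻¹ z) = 0 := by rw [polar_sim_inv hc hg, hgw, hz, mul_zero]
  have h3 : g (g⁻¹ z) = z := LinearEquiv.apply_symm_apply g z
  have h5 : sl m (nn q w z) = c • Cfsg.Agent.H882.Ten.cj (slE m g) (sl m (nn q w (g⁻¹ z))) := by
    rw [cj_slE_sl, cj_nn_sim hc hg, hgw, h3, sl_smul, smul_smul, mul_inv_cancel₀ hc, one_smul]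
  rw [h5, smul_mul_assoc, mul_smul_comm, ← cj_mul', ← cj_mul', hX _ h1]

/-- An operator commuting with the Siegel group is determined by its values on `A ⊗ w'`. -/
theorem comm_zero (h2 : (2 : F) ≠ 0) {w w' : κ → F} (hyp : Hyp q w w')
    (hd : ∃ z, polar q w z = 0 ∧ polar q w' z = 0 ∧ q z ≠ 0) {m : ι} {X : Module.End F ((ι → κ) → F)}
    (hX : NC q w m X) (h : ∀ a, X (ten F κ m a w') = 0) : X = 0 := by
  have hY : ∀ a y, polar q w y = 0 → polar q w' y = 0 → X (ten F κ m a y) = 0 := by
    intro a y hy hy'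
    have h1 := LinearMap.congr_fun (hX y hy) (ten F κ m a w')
    rw [Module.End.mul_apply, Module.End.mul_apply, sl_ten, h, map_zero, nn_apply, hyp.pair, polar_comm q y w',
      hy', one_smul, zero_smul, sub_zero] at h1
    exact h1.symm
  obtain ⟨z, hz, hz', hz0⟩ := hd
  have hw : ∀ a, X (ten F κ m a w) = 0 := by
    intro a
    have h1 := LinearMap.congr_fun (hX z hz) (ten F κ m a z)
    rw [Module.End.mul_apply, Module.End.mul_apply, sl_ten, hY a z hz hz', map_zero, nn_apply, hz, zero_smul,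
      zero_sub, ← neg_smul, map_smul, map_smul, polar_self'] at h1
    exact (smul_eq_zero.1 h1.symm).resolve_left (neg_ne_zero.2 (mul_ne_zero h2 hz0))
  refine ext_t (isTen F κ m) fun a u => ?_
  rw [LinearMap.zero_apply]
  have e : u = LieClassical.OrthTrans.proj q w w' u + polar q w' u • w + polar q w u • w' := by
    rw [LieClassical.OrthTrans.proj]; module
  rw [e, map_add, map_add, map_add, map_add, map_smul, map_smul, map_smul, map_smul, hw, h,
    hY a _ (polar_proj_left hyp u) (polar_proj_right hyp u)]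
  simp

/-- the projection onto `⟨w, w'⟩` -/
def pp (q : QuadraticForm F (κ → F)) (w w' : κ → F) : Module.End F (κ → F) :=
  (polarBilin q w).smulRight w' + (polarBilin q w').smulRight w

theorem pp_apply (w w' v : κ → F) : pp q w w' v = polar q w v • w' + polar q w' v • w := rfl

/-- Operators commuting with the Siegel group and with `θ = 2 pp - 1`. -/
theorem exists_even (h2 : (2 : F) ≠ 0) (hq : Nondeg q) {w w' : κ → F} (hyp : Hyp q w w')
    (hd : ∃ z, polar q w z = 0 ∧ polar q w' z = 0 ∧ q z ≠ 0) {m : ι} {X : Module.End F ((ι → κ) → F)}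
    (hX : NC q w m X) (hp : sl m (pp q w w') * X = X * sl m (pp q w w')) :
    ∃ A ∈ CC F κ m, ∃ C ∈ CC F κ m, X = A + C * sl m (om q w) := by
  have S := tst (ι := ι) h2 hq m
  refine ⟨li m (S.cw w ∘ₗ X ∘ₗ (ten F κ m).flip w'), li_mem _ _, li m (S.cw w' ∘ₗ X ∘ₗ (ten F κ m).flip w'),
    li_mem _ _, ?_⟩
  rw [← sub_eq_zero]
  refine comm_zero h2 hyp hd (m := m) ?_ fun a => ?_
  · exact hX.sub ((NC.of_CC (li_mem _ _)).add ((NC.of_CC (li_mem _ _)).mul (NC.om hyp.left)))
  · rw [LinearMap.sub_apply, LinearMap.add_apply, Module.End.mul_apply, sl_ten, li_ten, om_apply, hyp.pair,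
      one_smul, li_ten, sub_eq_zero]
    have h1 := LinearMap.congr_fun hp (ten F κ m a w')
    rw [Module.End.mul_apply, Module.End.mul_apply, sl_ten, pp_apply, hyp.pair, hyp.polar_right, one_smul,
      zero_smul, add_zero, pp, sl_add, LinearMap.add_apply, sl_smulRight, sl_smulRight] at h1
    exact h1.symm

end thin

end Cfsg.Agent.H889.C7O
end
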