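import Cfsg.Agent.H883.C7.Rad
import Cfsg.Agent.H883.C7.NIface
set_option linter.all false

-- part: H883/C7/Cent
section
/-!
# Elements commuting with the Siegel group of a slot
-/

set_option autoImplicit false
set_option linter.unusedSectionVars false
set_option linter.unusedSimpArgs false

namespace Cfsg.Agent.H883.C7

open QuadraticMap hiding proj
open Cfsg.Agent.LieClassical.OrthCore Cfsg.Agent.LieClassical.OrthTrans
open Cfsg.Agent.H882.Ten

section torus

variable {F : Type*} {V : Type*} [Field F] [AddCommGroup V] [Module F V] {Q : QuadraticForm F V}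

/-- The torus of a hyperbolic pair. -/
theorem exists_torus0 {w w' : V} (hyp : Hyp Q w w') {c : F} (hc : c ≠ 0) :
    ∃ h r : V ≃ₗ[F] V, h ∈ O Q ∧ r ∈ O Q ∧ h w = c • w ∧ h w' = c⁻¹ • w' ∧
      (∀ z, polar Q w z = 0 → polar Q w' z = 0 → h z = z) ∧ h * r * h⁻¹ * r⁻¹ = h * h := by
  have q1 : Q (w - (1 : F) • w') = -1 := by
    rw [sub_eq_add_neg, ← neg_smul, Q_add, QuadraticMap.map_smul, hyp.left, hyp.right, polar_smul_right, hyp.pair]
    simp
  have q2 : Q (w - c⁻¹ • w') = -c⁻¹ := by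
    rw [sub_eq_add_neg, ← neg_smul, Q_add, QuadraticMap.map_smul, hyp.left, hyp.right, polar_smul_right, hyp.pair]
    simp
  have n1 : Q (w - (1 : F) • w') ≠ 0 := by rw [q1]; exact neg_ne_zero.2 one_ne_zero
  have n2 : Q (w - c⁻¹ • w') ≠ 0 := by rw [q2]; exact neg_ne_zero.2 (inv_ne_zero hc)
  set r1 := refl Q (w - (1 : F) • w') n1 with hr1
  set r2 := refl Q (w - c⁻¹ • w') n2 with hr2
  have hcc : c⁻¹ * c = 1 := inv_mul_cancel₀ hc
  have i1 : ∀ v, r1 v = v + (polar Q w v - polar Q w' v) • (w - w') := by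
    intro v
    rw [hr1, refl_apply, q1, polar_sub_left, polar_smul_left]
    simp only [one_smul, one_mul, inv_neg, inv_one, smul_eq_mul]
    module
  have i2 : ∀ v, r2 v = v + (c * polar Q w v - polar Q w' v) • (w - c⁻¹ • w') := by
    intro v
    rw [hr2, refl_apply, q2, polar_sub_left, polar_smul_left]
    have e : (-c⁻¹)⁻¹ * (polar Q w v - c⁻¹ • polar Q w' v) = -(c * polar Q w v - polar Q w' v) := by
      rw [inv_neg, inv_inv, smul_eq_mul]
      linear_combination polar Q w' v * hcc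
    rw [e]
    module
  refine ⟨r2 * r1, r1, (O Q).mul_mem (refl_mem_O n2) (refl_mem_O n1), refl_mem_O n1, ?_, ?_, ?_, ?_⟩
  · show r2 (r1 w) = _
    rw [i1, hyp.polar_left, hyp.pair', zero_sub, neg_one_smul, i2]
    simp only [polar_add_right, polar_neg_right, polar_sub_right, hyp.polar_left, hyp.polar_right, hyp.pair, hyp.pair']
    have e : w + -(w - w') + (c * (0 + -(0 - 1)) - (1 + -(1 - 0))) • (w - c⁻¹ • w') =
        (1 - c * c⁻¹) • w' + c • w := by module
    rw [e, mul_inv_cancel₀ hc, sub_self, zero_smul, zero_add]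
  · show r2 (r1 w') = _
    rw [i1, hyp.polar_right, hyp.pair, sub_zero, one_smul, i2]
    simp only [polar_add_right, polar_neg_right, polar_sub_right, hyp.polar_left, hyp.polar_right, hyp.pair, hyp.pair']
    have e : w' + (w - w') + (c * (1 + (0 - 1)) - (0 + (1 - 0))) • (w - c⁻¹ • w') = c⁻¹ • w' := by module
    exact e
  · intro z hz hz'
    show r2 (r1 z) = z
    rw [i1, hz, hz', sub_self, zero_smul, add_zero, i2, hz, hz', mul_zero, sub_self, zero_smul, add_zero]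
  · have e1 : r1⁻¹ = r1 := refl_inv n1
    have e2 : r2⁻¹ = r2 := refl_inv n2
    have e3 : r1 * r1 = 1 := refl_mul_self n1
    rw [mul_inv_rev, e1, e2]
    calc r2 * r1 * r1 * (r1 * r2) * r1 = r2 * (r1 * r1) * r1 * r2 * r1 := by group
      _ = r2 * r1 * (r2 * r1) := by rw [e3]; group

theorem exists_torus {w w' : V} (hyp : Hyp Q w w') {c : F} (hc : c ≠ 0) :
    ∃ h ∈ ⁅O Q, O Q⁆, h ∈ O Q ∧ h w = (c * c) • w ∧ h w' = (c * c)⁻¹ • w' ∧
      (∀ z, polar Q w z = 0 → polar Q w' z = 0 → h z = z) := by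
  obtain ⟨h, r, hO, rO, h1, h2, h3, h4⟩ := exists_torus0 hyp hc
  refine ⟨h * h, ?_, (O Q).mul_mem hO hO, ?_, ?_, ?_⟩
  · rw [← h4]
    exact Subgroup.commutator_mem_commutator hO rO
  · show h (h w) = _
    rw [h1, map_smul, h1, smul_smul]
  · show h (h w') = _
    rw [h2, map_smul, h2, smul_smul, mul_inv]
  · intro z hz hz'
    show h (h z) = z
    rw [h3 z hz hz', h3 z hz hz']

end torus

section gen

variable {F : Type*} {U : Type*} {W : Type*} {V : Type*} [Field F] [AddCommGroup U] [Module F U]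
  [AddCommGroup W] [Module F W] [AddCommGroup V] [Module F V]
  {t : U →ₗ[F] W →ₗ[F] V} {QU : QuadraticForm F U} {QW : QuadraticForm F W} {Q : QuadraticForm F V}
  {X : Subgroup (V ≃ₗ[F] V)}

theorem isR_of (S : TSt t QU QW Q) {w w' : W} (hyp : Hyp QW w w') {g : V ≃ₗ[F] V}
    (h1 : ∀ u, g (t u w) = t u w) (h2 : ∀ u z, polar QW w z = 0 → ∃ u', g (t u z) = t u z + t u' w) :
    ∃ τ, IsR t QW w g τ := by
  let τ : W →ₗ[F] U →ₗ[F] U := (t.flip).compr₂ (S.cw w' ∘ₗ ((g : V →ₗ[F] V) - LinearMap.id))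
  have hτ : ∀ z u, τ z u = S.cw w' (g (t u z) - t u z) := fun z u => rfl
  refine ⟨τ, h1, fun u z hz => ?_⟩
  obtain ⟨u', hu'⟩ := h2 u z hz
  have : τ z u = u' := by
    rw [hτ, hu', add_sub_cancel_left, S.cw_t, hyp.pair', one_smul]
  rw [this]
  exact hu'

theorem siegel_sub (S : TSt t QU QW Q) {w y : W} (hw : QW w = 0) (hy : polar QW w y = 0) (v : V) :
    rW S.ten (siegel QW w y hw hy) v - v =
      t (S.cw w v) y - t (S.cw y v) w - (QW y) • t (S.cw w v) w := by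
  have : ((rW S.ten (siegel QW w y hw hy) : V ≃ₗ[F] V) : V →ₗ[F] V) - LinearMap.id =
      (t.flip y) ∘ₗ S.cw w - (t.flip w) ∘ₗ S.cw y - (QW y) • ((t.flip w) ∘ₗ S.cw w) := by
    refine ext_t S.ten fun u z => ?_
    simp only [LinearMap.sub_apply, LinearMap.smul_apply, LinearMap.comp_apply, LinearEquiv.coe_coe, rW_apply,
      siegel_apply, S.cw_t, LinearMap.flip_apply, LinearMap.id_apply, map_add, map_sub, map_smul]
    module
  exact LinearMap.congr_fun this v

/-- The structure of an isometry which stabilises `U ⊗ w` and commutes with its Siegel group. -/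
theorem cent_struct (S : TSt t QU QW Q) [FiniteDimensional F U] {w w' : W} (hyp : Hyp QW w w')
    (hz : ∃ z, polar QW w z = 0 ∧ QW z ≠ 0) {c : V ≃ₗ[F] V} (hc : c ∈ O Q)
    (hcw : ∀ u, ∃ u', c (t u w) = t u' w)
    (hcomm : ∀ (y : W) (hy : polar QW w y = 0), c * rW S.ten (siegel QW w y hyp.left hy) =
      rW S.ten (siegel QW w y hyp.left hy) * c) :
    ∃ (α : U ≃ₗ[F] U) (r : V ≃ₗ[F] V), α ∈ O QU ∧ r ∈ O Q ∧ c = rU S.ten α * r ∧ ∃ τ, IsR t QW w r τ := by
  have hw0 := hyp.left_ne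
  let β : U →ₗ[F] U := S.cw w ∘ₗ (c : V →ₗ[F] V) ∘ₗ t.flip w'
  have hβ : ∀ u, β u = S.cw w (c (t u w')) := fun u => rfl
  -- the action on `U ⊗ w^⊥`
  have hact : ∀ u y, polar QW w y = 0 → ∃ u', c (t u y) = t (β u) y + t u' w := by
    intro u y hy
    have h1 := LinearEquiv.congr_fun (hcomm y hy) (t u w')
    rw [LinearEquiv.mul_apply, LinearEquiv.mul_apply] at h1
    have h2 := siegel_sub S hyp.left hy (c (t u w'))
    have h3 := siegel_sub S hyp.left hy (t u w')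
    have h4 : c (rW S.ten (siegel QW w y hyp.left hy) (t u w') - t u w') =
        rW S.ten (siegel QW w y hyp.left hy) (c (t u w')) - c (t u w') := by rw [map_sub, h1]
    rw [h2, h3, ← hβ, S.cw_t, S.cw_t, hyp.pair, one_smul] at h4
    obtain ⟨u2, hu2⟩ := hcw u
    simp only [map_sub, map_smul, LinearMap.smul_apply, hu2] at h4
    refine ⟨polar QW y w' • u2 + QW y • u2 - S.cw y (c (t u w')) - QW y • β u, ?_⟩
    have h5 : c (t u y) = (c (t u y) - polar QW y w' • t u2 w - QW y • t u2 w) + polar QW y w' • t u2 w +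
        QW y • t u2 w := by abel
    rw [h5, h4]
    simp only [map_add, map_sub, map_smul, LinearMap.add_apply, LinearMap.sub_apply, LinearMap.smul_apply]
    module
  obtain ⟨z, hz1, hz2⟩ := hz
  have hβO : ∀ u u', polar QU (β u) (β u') = polar QU u u' := by
    intro u u'
    obtain ⟨a, ha⟩ := hact u z hz1
    obtain ⟨b, hb⟩ := hact u' z hz1
    have h1 := polar_map hc (t u z) (t u' z)
    rw [ha, hb] at h1
    simp only [polar_add_left, polar_add_right, S.pol, hz1, polar_comm QW z w, polar_self_of_sing hyp.left,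
      mul_zero, add_zero] at h1
    have h3 : polar QW z z ≠ 0 := by rw [polar_self']; exact mul_ne_zero S.two hz2
    exact mul_right_cancel₀ h3 h1
  have hβinj : Function.Injective β := by
    rw [← LinearMap.ker_eq_bot, LinearMap.ker_eq_bot']
    intro u hu
    refine S.ndU u fun y => ?_
    rw [← hβO, hu, polar_zero_left]
  have hβsurj := LinearMap.injective_iff_surjective.1 hβinj
  have hβw : ∀ u, c (t u w) = t (β u) w := by
    intro u
    obtain ⟨u1, hu1⟩ := hcw u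
    rw [hu1]
    congr 2
    refine S.eq_of_polar fun y => ?_
    obtain ⟨y', rfl⟩ := hβsurj y
    rw [hβO]
    have h1 := polar_map hc (t u w) (t y' w')
    rw [hu1, S.pol, hyp.pair, mul_one, polar_comm, S.polar_cw, ← hβ, polar_comm] at h1
    exact h1
  let α : U ≃ₗ[F] U := LinearEquiv.ofInjectiveEndo β hβinj
  have hα : ∀ u, α u = β u := fun u => rfl
  have hαO : α ∈ O QU := mem_O_of_polar S.two fun x y => by rw [hα, hα, hβO]
  refine ⟨α, (rU S.ten α)⁻¹ * c, hαO, (O Q).mul_mem ((O Q).inv_mem (S.rU_mem_O hαO)) hc,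
    by rw [mul_inv_cancel_left], ?_⟩
  have hi : ∀ u z, (rU S.ten α)⁻¹ (t (α u) z) = t u z := by
    intro u z
    rw [← rU_apply S.ten]
    exact LinearEquiv.symm_apply_apply _ _
  refine isR_of S hyp ?_ ?_
  · intro u
    show (rU S.ten α)⁻¹ (c (t u w)) = _
    rw [hβw, ← hα, hi]
  · intro u y hy
    obtain ⟨u', hu'⟩ := hact u y hy
    obtain ⟨u'', hu''⟩ := hβsurj u'
    refine ⟨u'', ?_⟩
    show (rU S.ten α)⁻¹ (c (t u y)) = _
    rw [hu', map_add, ← hα, hi, ← hu'', ← hα, hi]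

end gen

end Cfsg.Agent.H883.C7
end

-- part: H883/C7/CentB
section
/-!
# Elements commuting with the Siegel group of a slot: structure
-/

set_option autoImplicit false
set_option linter.unusedSectionVars false
set_option linter.unusedSimpArgs false

namespace Cfsg.Agent.H883.C7

open QuadraticMap hiding proj
open Cfsg.Agent.LieClassical.OrthCore Cfsg.Agent.LieClassical.OrthTrans
open Cfsg.Agent.H882.Ten

section gen

variable {F : Type*} {U : Type*} {W : Type*} {V : Type*} [Field F] [AddCommGroup U] [Module F U]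
  [AddCommGroup W] [Module F W] [AddCommGroup V] [Module F V]
  {t : U →ₗ[F] W →ₗ[F] V} {QU : QuadraticForm F U} {QW : QuadraticForm F W} {Q : QuadraticForm F V}
  {X : Subgroup (V ≃ₗ[F] V)}

/-- `b = (α ⊗ 1) + ζ ⊗ om_w` -/
def IsB (t : U →ₗ[F] W →ₗ[F] V) (QW : QuadraticForm F W) (w : W) (b : V ≃ₗ[F] V) (α : U ≃ₗ[F] U)
    (ζ : Module.End F U) : Prop := ∀ u z, b (t u z) = t (α u) z + polar QW w z • t (ζ u) w

theorem isB_mul {w : W} (hw : QW w = 0) {b b' : V ≃ₗ[F] V} {α α' : U ≃ₗ[F] U} {ζ ζ' : Module.End F U}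
    (h : IsB t QW w b α ζ) (h' : IsB t QW w b' α' ζ') :
    IsB t QW w (b * b') (α * α') (ζ * (α' : Module.End F U) + (α : Module.End F U) * ζ') := by
  intro u z
  rw [LinearEquiv.mul_apply, h', map_add, map_smul, h, h, polar_self_of_sing hw, zero_smul, add_zero]
  simp only [LinearMap.add_apply, Module.End.mul_apply, LinearEquiv.coe_coe, map_add, LinearMap.add_apply,
    smul_add, LinearEquiv.mul_apply]
  abel

theorem isB_inv (_S : TSt t QU QW Q) {w : W} (hw : QW w = 0) {b : V ≃ₗ[F] V} {α : U ≃ₗ[F] U} {ζ : Module.End F U}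
    (h : IsB t QW w b α ζ) : IsB t QW w b⁻¹ α⁻¹
      (-(((α⁻¹ : U ≃ₗ[F] U) : Module.End F U) * ζ * ((α⁻¹ : U ≃ₗ[F] U) : Module.End F U))) := by
  intro u z
  have h2 : ∀ y, α (α⁻¹ y) = y := fun y => LinearEquiv.apply_symm_apply α y
  have h1 : b (t (α⁻¹ u) z + polar QW w z • t ((-(((α⁻¹ : U ≃ₗ[F] U) : Module.End F U) * ζ *
      ((α⁻¹ : U ≃ₗ[F] U) : Module.End F U))) u) w) = t u z := by
    rw [map_add, map_smul, h, h, polar_self_of_sing hw, zero_smul, add_zero, h2]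
    simp only [LinearMap.neg_apply, Module.End.mul_apply, LinearEquiv.coe_coe, map_neg, h2]
    module
  rw [← h1]
  exact LinearEquiv.symm_apply_apply b _

theorem isB_one {w : W} : IsB t QW w (1 : V ≃ₗ[F] V) 1 0 := by
  intro u z
  simp

theorem isB_comm_siegel (S : TSt t QU QW Q) {w x : W} (hw : QW w = 0) (hx : polar QW w x = 0) {b : V ≃ₗ[F] V}
    {α : U ≃ₗ[F] U} {ζ : Module.End F U} (h : IsB t QW w b α ζ) :
    b * rW S.ten (siegel QW w x hw hx) = rW S.ten (siegel QW w x hw hx) * b := by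
  have hsw : siegel QW w x hw hx w = w := by
    rw [siegel_apply, polar_self_of_sing hw, polar_comm QW x w, hx]; simp
  refine ext_t' S.ten fun u z => ?_
  rw [LinearEquiv.mul_apply, LinearEquiv.mul_apply, rW_apply, h, h, map_add, map_smul, rW_apply, rW_apply, hsw]
  congr 2
  have := polar_map (siegel_mem_O hw hx) w z
  rw [hsw] at this
  exact this

/-- elements of `IsB` with `α`, in the presence of thinness: unique -/
theorem isB_isometry (S : TSt t QU QW Q) {w w' : W} (hyp : Hyp QW w w') {b : V ≃ₗ[F] V} (hb : b ∈ O Q)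
    {α : U ≃ₗ[F] U} (hα : α ∈ O QU) {ζ : Module.End F U} (h : IsB t QW w b α ζ) (u u' : U) :
    polar QU (α u) (ζ u') + polar QU (ζ u) (α u') = 0 := by
  have h1 := polar_map hb (t u w') (t u' w')
  rw [h, h] at h1
  simp only [polar_add_left, polar_add_right, polar_smul_left, polar_smul_right, S.pol, hyp.pair, hyp.pair',
    hyp.polar_left, hyp.polar_right, polar_map hα, smul_eq_mul] at h1
  linear_combination h1

/-- the commutator with an element of `W` -/
theorem theta_scalar (S : TSt t QU QW Q) {w : W} (hw : QW w = 0) (hw0 : w ≠ 0)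
    (hrad : ∀ g ∈ X, ∀ τ, IsR t QW w g τ → ∃ (x : W) (hx : polar QW w x = 0),
      g = rW S.ten (siegel QW w x hw hx))
    {α : U ≃ₗ[F] U} {c r : V ≃ₗ[F] V} {τ : W →ₗ[F] U →ₗ[F] U} (hc : c ∈ X) (hcr : c = rU S.ten α * r)
    (hr : IsR t QW w r τ) {h : W ≃ₗ[F] W} (hhX : rW S.ten h ∈ X) (hh : h ∈ O QW) {c0 : F} (hc0 : c0 ≠ 0)
    (hhw : h w = c0 • w) (z : W) (hz : polar QW w z = 0) :
    ∃ a : F, ∀ u, τ z u - c0 • τ (h⁻¹ z) u = a • u := by
  -- inverse of `r`
  have hri1 : ∀ u, r⁻¹ (t u w) = t u w := by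
    intro u
    have h2 : r⁻¹ (r (t u w)) = t u w := LinearEquiv.symm_apply_apply r _
    rwa [hr.1] at h2
  have hri2 : ∀ u z, polar QW w z = 0 → r⁻¹ (t u z) = t u z - t (τ z u) w := by
    intro u z hz
    have h1 : r (t u z - t (τ z u) w) = t u z := by
      rw [map_sub, hr.2 u z hz, hr.1]; abel
    have h2 : r⁻¹ (r (t u z - t (τ z u) w)) = t u z - t (τ z u) w := LinearEquiv.symm_apply_apply r _
    rwa [h1] at h2
  have hhi : ∀ y, h (h⁻¹ y) = y := fun y => LinearEquiv.apply_symm_apply h y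
  have hhi' : ∀ y, h⁻¹ (h y) = y := fun y => LinearEquiv.symm_apply_apply h y
  have hhwi : h⁻¹ w = c0⁻¹ • w := by
    have : h⁻¹ (c0 • w) = w := by rw [← hhw, hhi']
    rw [map_smul] at this
    rw [← this, smul_smul, inv_mul_cancel₀ hc0, one_smul, this]
  have hperp : ∀ z, polar QW w z = 0 → polar QW w (h⁻¹ z) = 0 := by
    intro z hz
    have h1 := polar_map hh w (h⁻¹ z)
    rw [hhi, hhw, polar_smul_left, hz, smul_zero] at h1
    exact h1.symm
  have hHi : ∀ u z, (rW S.ten h)⁻¹ (t u z) = t u (h⁻¹ z) := fun u z => by rw [← map_inv, rW_apply]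
  -- `r1 = r h r⁻¹ h⁻¹`
  set r1 := r * rW S.ten h * r⁻¹ * (rW S.ten h)⁻¹ with hr1
  have e1 : ∀ u, r1 (t u w) = t u w := by
    intro u
    show r (rW S.ten h (r⁻¹ ((rW S.ten h)⁻¹ (t u w)))) = _
    rw [hHi, hhwi, map_smul, map_smul, hri1, map_smul, rW_apply, hhw, map_smul, map_smul (t u) c0 w,
      map_smul r c0, smul_smul, inv_mul_cancel₀ hc0, one_smul, hr.1]
  have e2 : ∀ u z, polar QW w z = 0 → r1 (t u z) = t u z + t (τ z u - c0 • τ (h⁻¹ z) u) w := by
    intro u z hz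
    show r (rW S.ten h (r⁻¹ ((rW S.ten h)⁻¹ (t u z)))) = _
    rw [hHi, hri2 u _ (hperp z hz), map_sub, rW_apply, rW_apply, hhi, hhw, map_sub, map_smul, map_smul,
      hr.2 u z hz, hr.1, map_sub, map_smul]
    simp only [LinearMap.sub_apply, LinearMap.smul_apply, map_smul]
    abel
  set g := c * rW S.ten h * c⁻¹ * (rW S.ten h)⁻¹ with hg
  have hgX : g ∈ X := X.mul_mem (X.mul_mem (X.mul_mem hc hhX) (X.inv_mem hc)) (X.inv_mem hhX)
  have hgr : g = rU S.ten α * r1 * (rU S.ten α)⁻¹ := by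
    have hcomm : (rU S.ten α)⁻¹ * (rW S.ten h)⁻¹ = (rW S.ten h)⁻¹ * (rU S.ten α)⁻¹ := by
      rw [← mul_inv_rev, ← mul_inv_rev, rU_rW]
    rw [hg, hr1, hcr, mul_inv_rev]
    calc rU S.ten α * r * rW S.ten h * (r⁻¹ * (rU S.ten α)⁻¹) * (rW S.ten h)⁻¹
        = rU S.ten α * (r * rW S.ten h * r⁻¹) * ((rU S.ten α)⁻¹ * (rW S.ten h)⁻¹) := by group
      _ = _ := by rw [hcomm]; group
  have hαi : ∀ y, α (α⁻¹ y) = y := fun y => LinearEquiv.apply_symm_apply α y
  have hαi' : ∀ y, α⁻¹ (α y) = y := fun y => LinearEquiv.symm_apply_apply α y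
  have hUi : ∀ u z, (rU S.ten α)⁻¹ (t u z) = t (α⁻¹ u) z := fun u z => by rw [← map_inv, rU_apply]
  have hgR : IsR t QW w g (LinearMap.llcomp F U U U (α : U →ₗ[F] U) ∘ₗ
      (((LinearMap.lcomp F U ((α⁻¹ : U ≃ₗ[F] U) : U →ₗ[F] U)) ∘ₗ (τ - c0 • (τ ∘ₗ ((h⁻¹ : W ≃ₗ[F] W) : W →ₗ[F] W)))))) := by
    refine ⟨fun u => ?_, fun u z hz => ?_⟩
    · rw [hgr]
      show rU S.ten α (r1 ((rU S.ten α)⁻¹ (t u w))) = _
      rw [hUi, e1, rU_apply, hαi]
    · rw [hgr]
      show rU S.ten α (r1 ((rU S.ten α)⁻¹ (t u z))) = _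
      rw [hUi, e2 _ z hz, map_add, rU_apply, rU_apply, hαi]
      rfl
  obtain ⟨x, hx, hgx⟩ := hrad g hgX _ hgR
  refine ⟨-(polar QW x z), fun u => ?_⟩
  have h1 := hgR.2 (α u) z hz
  rw [hgx, (S.isR_siegel hw hx).2 (α u) z hz] at h1
  have h3 := t_left_inj S.ten hw0 (add_left_cancel h1)
  have h4 : (LinearMap.llcomp F U U U (α : U →ₗ[F] U) ∘ₗ
      (((LinearMap.lcomp F U ((α⁻¹ : U ≃ₗ[F] U) : U →ₗ[F] U)) ∘ₗ (τ - c0 • (τ ∘ₗ ((h⁻¹ : W ≃ₗ[F] W) : W →ₗ[F] W))))))
      z (α u) = α (τ z (α⁻¹ (α u)) - c0 • τ (h⁻¹ z) (α⁻¹ (α u))) := rfl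
  rw [h4, hαi'] at h3
  have h5 : α (-(polar QW x z) • u) = α (τ z u - c0 • τ (h⁻¹ z) u) := by
    rw [← h3, map_smul]
    simp only [LinearMap.neg_apply, LinearMap.smulRight_apply, LinearMap.smul_apply, LinearMap.id_apply,
      polarBilin_apply_apply]
    module
  exact (α.injective h5).symm

/-- From scalar parameters to `IsB`. -/
theorem isB_of_scalar (S : TSt t QU QW Q) [FiniteDimensional F U] [FiniteDimensional F W] [Nontrivial U]
    (hQ : Nondeg Q) {w : W} (hw : QW w = 0) (hw0 : w ≠ 0) {α : U ≃ₗ[F] U} {c r : V ≃ₗ[F] V}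
    {τ : W →ₗ[F] U →ₗ[F] U} (hcr : c = rU S.ten α * r) (hrO : r ∈ O Q)
    (hr : IsR t QW w r τ) (hscal : ∀ y, polar QW w y = 0 → ∃ c : F, ∀ u, τ y u = c • u) :
    ∃ (x : W) (hx : polar QW w x = 0) (ζ : Module.End F U),
      IsB t QW w (c * (rW S.ten (siegel QW w x hw hx))⁻¹) α ζ := by
  obtain ⟨x, hx, κ, -, hκ⟩ := eq_siegel_mul S (X := O Q) le_rfl hQ hw hw0 hrO hr
    (fun x hx => S.rW_mem_O (siegel_mem_O hw hx)) hscal
  refine ⟨x, hx, (α : Module.End F U) * κ, fun u z => ?_⟩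
  rw [hcr, mul_assoc]
  show rU S.ten α ((r * (rW S.ten (siegel QW w x hw hx))⁻¹) (t u z)) = _
  rw [hκ, map_add, map_smul, rU_apply, rU_apply]
  rfl

/-- the torus argument for the central part -/
theorem zeta_torus (S : TSt t QU QW Q) {w : W} (hw : QW w = 0) 
    (hZ : ∀ κ, InZ t QW X w κ → κ = 0) {α : U ≃ₗ[F] U} {ζ : Module.End F U} {c : V ≃ₗ[F] V} (hc : c ∈ X)
    (hcB : IsB t QW w c α ζ) {h : W ≃ₗ[F] W} (hhX : rW S.ten h ∈ X) (hh : h ∈ O QW) {c0 : F}
    (hc1 : c0 * c0 ≠ 1) (hhw : h w = c0 • w) : ζ = 0 := by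
  have hhi : ∀ y, h (h⁻¹ y) = y := fun y => LinearEquiv.apply_symm_apply h y
  have hαi : ∀ y, α (α⁻¹ y) = y := fun y => LinearEquiv.apply_symm_apply α y
  have hαi' : ∀ y, α⁻¹ (α y) = y := fun y => LinearEquiv.symm_apply_apply α y
  have hHi : ∀ u z, (rW S.ten h)⁻¹ (t u z) = t u (h⁻¹ z) := fun u z => by rw [← map_inv, rW_apply]
  have hpol : ∀ z, polar QW w (h⁻¹ z) = c0 * polar QW w z := by
    intro z
    have h1 := polar_map hh w (h⁻¹ z)
    rw [hhi, hhw, polar_smul_left, smul_eq_mul] at h1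
    exact h1.symm
  have hci := isB_inv S hw hcB
  have h1 : InZ t QW X w ((1 - c0 * c0) • (ζ * ((α⁻¹ : U ≃ₗ[F] U) : Module.End F U))) := by
    refine ⟨c * rW S.ten h * c⁻¹ * (rW S.ten h)⁻¹,
      X.mul_mem (X.mul_mem (X.mul_mem hc hhX) (X.inv_mem hc)) (X.inv_mem hhX), fun u z => ?_⟩
    show c (rW S.ten h (c⁻¹ ((rW S.ten h)⁻¹ (t u z)))) = _
    rw [hHi, hci, map_add, map_smul, rW_apply, rW_apply, hhi, hhw, hpol, map_add, map_smul, map_smul, map_smul,
      hcB, hcB, polar_self_of_sing hw, zero_smul, add_zero, hαi]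
    simp only [LinearMap.neg_apply, Module.End.mul_apply, LinearEquiv.coe_coe, map_neg, hαi, LinearMap.smul_apply,
      map_smul]
    module
  have h2 := hZ _ h1
  have h3 : (1 - c0 * c0) ≠ 0 := fun h => hc1 (by linear_combination -h)
  have h4 := (smul_eq_zero.1 h2).resolve_left h3
  refine LinearMap.ext fun u => ?_
  have h5 := LinearMap.congr_fun h4 (α u)
  rw [Module.End.mul_apply, LinearEquiv.coe_coe, hαi'] at h5
  exact h5

end gen

end Cfsg.Agent.H883.C7
end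

-- part: H883/C7/LIface
section
/-!
# Interface of part (L): thin overgroups satisfy (D)
-/

set_option autoImplicit false
set_option linter.unusedSectionVars false

namespace Cfsg.Agent.H883.C7

open QuadraticMap hiding proj
open Cfsg.Agent.LieClassical.OrthCore Cfsg.Agent.LieClassical.OrthTrans
open Cfsg.Agent.H882.Ten Cfsg.Agent.LieClassical.OrthFinite

variable {F : Type*} [Field F] {κ : Type*} [Fintype κ] [DecidableEq κ] {ι : Type*} [Fintype ι] [DecidableEq ι]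

/-- The elements `b = α ⊗ 1 + ζ ⊗ ω_w` of `M` with `α ∈ Ω (A_j)` have `ζ = 0`. -/
def ZP (q : QuadraticForm F (κ → F)) (M : Subgroup (((ι → κ) → F) ≃ₗ[F] ((ι → κ) → F))) : Prop :=
  ∀ (j : ι) (w : κ → F), w ≠ 0 → q w = 0 → ∀ b ∈ M,
    ∀ (α : (({l // l ≠ j} → κ) → F) ≃ₗ[F] (({l // l ≠ j} → κ) → F))
      (ζ : Module.End F (({l // l ≠ j} → κ) → F)),
      α ∈ ⁅O (QT q {l // l ≠ j}), O (QT q {l // l ≠ j})⁆ → IsB (ten F κ j) q w b α ζ → ζ = 0

/-- The parameter `τ` of an element `c = (α ⊗ 1) r` of `M` is scalar. -/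
def SP (q : QuadraticForm F (κ → F)) (M : Subgroup (((ι → κ) → F) ≃ₗ[F] ((ι → κ) → F))) : Prop :=
  ∀ (j : ι) (w : κ → F), w ≠ 0 → q w = 0 → ∀ c ∈ M,
    ∀ (α : (({l // l ≠ j} → κ) → F) ≃ₗ[F] (({l // l ≠ j} → κ) → F)) (r : ((ι → κ) → F) ≃ₗ[F] ((ι → κ) → F))
      (τ : (κ → F) →ₗ[F] (({l // l ≠ j} → κ) → F) →ₗ[F] (({l // l ≠ j} → κ) → F)),
      c = rU (isTen F κ j) α * r → IsR (ten F κ j) q w r τ →
      ∀ z, polar q w z = 0 → ∃ a : F, ∀ u, τ z u = a • u

end Cfsg.Agent.H883.C7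
end
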