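import Cfsg.Agent.H883.C7.Slots_mg
import Cfsg.Agent.H883.C7.LIface
import Cfsg.Agent.H883.C7.NIface
import Cfsg.Agent.H883.Bridge
import Cfsg.Agent.H69.C7.Purify_mg
import Cfsg.Agent.H296.C7.RootPure_mg
import Cfsg.Agent.H900.C7.Glob
set_option linter.all false

-- part: H883/C7/DMain
section
/-!
# Part (L): property (D) for thin overgroups
-/

set_option autoImplicit false
set_option linter.unusedSectionVars false
set_option linter.unusedSimpArgs false

namespace Cfsg.Agent.H883.C7

open QuadraticMap hiding proj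
open Cfsg.Agent.LieClassical.OrthCore Cfsg.Agent.LieClassical.OrthTrans
open Cfsg.Agent.H882.Ten Cfsg.Agent.LieClassical.OrthFinite
open scoped commutatorElement

variable {F : Type*} [Field F] {κ : Type*} [Fintype κ] [DecidableEq κ] {ι : Type*} [Fintype ι] [DecidableEq ι]
  {q : QuadraticForm F (κ → F)} {M : Subgroup (((ι → κ) → F) ≃ₗ[F] ((ι → κ) → F))}

/-- `Carries` is symmetric by dimension. -/
theorem Carries.symm {x : κ → F} (hx0 : x ≠ 0) {g : ((ι → κ) → F) ≃ₗ[F] ((ι → κ) → F)} {i j : ι}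
    (h : Carries g i j) : Carries g⁻¹ j i := by
  choose φ hφ using h
  have hgi : ∀ v, g (g⁻¹ v) = v := fun v => LinearEquiv.apply_symm_apply g v
  have hgi' : ∀ v, g⁻¹ (g v) = v := fun v => LinearEquiv.symm_apply_apply g v
  have huniq : ∀ f f', (∀ v, g (sl i f v) = sl j f' (g v)) → φ f = f' := by
    intro f f' h'
    refine sl_inj hx0 (i := j) (LinearMap.ext fun v => ?_)
    have h1 := hφ f (g⁻¹ v)
    have h2 := h' (g⁻¹ v)
    rw [hgi] at h1 h2
    rw [← h1, h2]
  let Φ : Module.End F (κ → F) →ₗ[F] Module.End F (κ → F) :=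
    { toFun := φ
      map_add' := fun a b => huniq _ _ fun v => by
        rw [sl_add, sl_add, LinearMap.add_apply, LinearMap.add_apply, map_add, hφ, hφ]
      map_smul' := fun c a => huniq _ _ fun v => by
        rw [sl_smul, RingHom.id_apply, sl_smul, LinearMap.smul_apply, LinearMap.smul_apply, map_smul, hφ] }
  have hinj : Function.Injective Φ := by
    intro a b hab
    refine sl_inj hx0 (i := i) (LinearMap.ext fun v => ?_)
    have h1 := hφ a v
    have h2 := hφ b v
    have h3 : φ a = φ b := hab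
    rw [h3, ← h2] at h1
    exact g.injective h1
  have hsurj : Function.Surjective Φ := LinearMap.injective_iff_surjective.1 hinj
  intro f
  obtain ⟨f', hf'⟩ := hsurj f
  refine ⟨f', fun v => ?_⟩
  have h1 := hφ f' (g⁻¹ v)
  rw [hgi] at h1
  have h3 : φ f' = f := hf'
  rw [h3] at h1
  rw [← h1, hgi']

theorem dprop_of [Finite F] (H : Hyp7 q) (ht : 2 ≤ Fintype.card ι) (hM : Over q M) (hrad : RadP q M)
    (hZ : ZP q M) (hS : SP q M)
    (hcomm : ∀ (l : ι) (u z : κ → F) (hu : q u = 0) (hz : polar q u z = 0),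
      slE l (siegel q u z hu hz) ∈ ⁅M ⊓ (slE (F := F) (κ := κ) l).range, M ⊓ (slE (F := F) (κ := κ) l).range⁆) :
    DProp q M := by
  intro g hg i j w w' hw0 hw'0 hqw hgw
  have h2 := H.two
  have hq := H.nd
  have hG := H.good ht
  have hle := hM.le_O
  have Si := tst (ι := ι) h2 hq i
  have Sj := tst (ι := ι) h2 hq j
  have hgi : ∀ v, g (g⁻¹ v) = v := fun v => LinearEquiv.apply_symm_apply g v
  have hgi' : ∀ v, g⁻¹ (g v) = v := fun v => LinearEquiv.symm_apply_apply g v
  -- the linear bijection `L`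
  obtain ⟨v0, hv0⟩ := hq.exists_polar_eq hw'0 1
  have hv0' : polar q v0 w' = 1 := by rw [polar_comm]; exact hv0
  let L : (({l // l ≠ i} → κ) → F) →ₗ[F] (({l // l ≠ j} → κ) → F) :=
    Sj.cw v0 ∘ₗ (g : Module.End F ((ι → κ) → F)) ∘ₗ (ten F κ i).flip w
  have hL : ∀ a, g (ten F κ i a w) = ten F κ j (L a) w' := by
    intro a
    obtain ⟨b, hb⟩ := hgw a
    have : L a = b := by
      show Sj.cw v0 (g (ten F κ i a w)) = b
      rw [hb, Sj.cw_t, hv0', one_smul]
    rw [this, hb]
  have hLinj : Function.Injective L := by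
    rw [← LinearMap.ker_eq_bot, LinearMap.ker_eq_bot']
    intro a ha
    have h1 := hL a
    rw [ha, map_zero, LinearMap.zero_apply] at h1
    have h3 : ten F κ i a w = 0 := by
      rw [← map_zero g] at h1
      exact g.injective h1
    exact eq_zero_of_t (isTen F κ i) h3 hw0
  have hLsurj : Function.Surjective L := by
    refine (LinearMap.injective_iff_surjective_of_finrank_eq_finrank ?_).1 hLinj
    rw [Module.finrank_fintype_fun_eq_card, Module.finrank_fintype_fun_eq_card, Fintype.card_fun,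
      Fintype.card_fun]
    congr 1
    simp
  -- `w'` is singular
  have hqw' : q w' = 0 := by
    obtain ⟨b, hb⟩ : ∃ b, QT q {l // l ≠ j} b ≠ 0 := by
      by_contra hcon
      push Not at hcon
      have hne : tp (fun _ : {l // l ≠ j} => w) ≠ 0 := tp_ne_zero fun _ => hw0
      obtain ⟨y0, hy0⟩ := Sj.ndU.exists_polar_eq hne 1
      rw [polar, hcon, hcon, hcon] at hy0
      simp at hy0
    obtain ⟨a, rfl⟩ := hLsurj b
    have h1 : QT q ι (g (ten F κ i a w)) = QT q ι (ten F κ i a w) := hle hg _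
    rw [hL, Sj.Q_t, Si.sing_right a hqw] at h1
    have h3 := (mul_eq_zero.1 h1).resolve_left h2
    exact (mul_eq_zero.1 h3).resolve_left hb
  obtain ⟨w1, hyp1⟩ := LieClassical.OrthTrans.exists_hyp hq hqw hw0
  obtain ⟨w1', hyp1'⟩ := LieClassical.OrthTrans.exists_hyp hq hqw' hw'0
  have hdz : ∃ z : κ → F, polar q w' z = 0 ∧ q z ≠ 0 := by
    obtain ⟨z, hz1, _, hz3⟩ := exists_nonsing_perp hq
      (by rw [Module.finrank_fintype_fun_eq_card]; exact H.three) hyp1'
    exact ⟨z, hz1, hz3⟩
  -- the radical of slot `j` is carried into the radical of slot `i`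
  have hD : ∀ (x : κ → F) (hx : polar q w' x = 0), ∃ (y : κ → F) (hy : polar q w y = 0),
      g⁻¹ * slE j (siegel q w' x hqw' hx) * g = slE i (siegel q w y hqw hy) := by
    intro x hx
    have hsM := hM.siegel_mem h2 hG j hqw' hx
    have hr : g⁻¹ * slE j (siegel q w' x hqw' hx) * g ∈ M := M.mul_mem (M.mul_mem (M.inv_mem hg) hsM) hg
    have hsw : siegel q w' x hqw' hx w' = w' := by
      rw [siegel_apply, polar_self_of_sing hqw', polar_comm q x w', hx]; simp
    obtain ⟨τ, hτ⟩ := isR_of Si hyp1 (g := g⁻¹ * slE j (siegel q w' x hqw' hx) * g) (by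
      intro a
      show g⁻¹ (slE j (siegel q w' x hqw' hx) (g (ten F κ i a w))) = ten F κ i a w
      rw [hL, slE_ten, hsw, ← hL, hgi']) (by
      intro a z hz
      show ∃ u', g⁻¹ (slE j (siegel q w' x hqw' hx) (g (ten F κ i a z))) = ten F κ i a z + ten F κ i u' w
      -- `g (a ⊗ z)` is orthogonal to `A_j ⊗ w'`
      have h1 : Sj.cw w' (g (ten F κ i a z)) = 0 := by
        rw [Sj.cw_eq_zero_iff]
        intro b
        obtain ⟨a', rfl⟩ := hLsurj b
        rw [← hL, polar_map (hle hg), Si.pol, polar_comm q z w, hz, mul_zero]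
      have h3 := siegel_sub Sj hqw' hx (g (ten F κ i a z))
      rw [h1, map_zero, LinearMap.zero_apply, LinearMap.zero_apply, smul_zero, zero_sub, sub_zero,
        ← slE_eq_rW] at h3
      obtain ⟨a', ha'⟩ := hLsurj (Sj.cw x (g (ten F κ i a z)))
      refine ⟨-a', ?_⟩
      have h5 : slE j (siegel q w' x hqw' hx) (g (ten F κ i a z)) =
          g (ten F κ i a z) - g (ten F κ i a' w) := by
        rw [hL, ha', sub_eq_add_neg]
        exact sub_eq_iff_eq_add'.1 h3
      rw [h5, map_sub, hgi', hgi', map_neg, LinearMap.neg_apply, sub_eq_add_neg])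
    exact hrad i w hqw hw0 _ hr τ hτ
  -- structure of the conjugates of the elements of the slots `l ≠ i`
  have hstr : ∀ l, l ≠ i → ∀ k ∈ M ⊓ (slE (F := F) (κ := κ) l).range, ∃ (b s : ((ι → κ) → F) ≃ₗ[F] ((ι → κ) → F))
      (α : (({l // l ≠ j} → κ) → F) ≃ₗ[F] (({l // l ≠ j} → κ) → F)) (ζ : Module.End F (({l // l ≠ j} → κ) → F))
      (x : κ → F) (hx : polar q w' x = 0),
      b ∈ M ∧ α ∈ O (QT q {l // l ≠ j}) ∧ IsB (ten F κ j) q w' b α ζ ∧
      s = rW (isTen F κ j) (siegel q w' x hqw' hx) ∧ g * k * g⁻¹ = b * s := by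
    rintro l hl k ⟨hkM, ⟨f, rfl⟩⟩
    have hcM : g * slE l f * g⁻¹ ∈ M := M.mul_mem (M.mul_mem hg hkM) (M.inv_mem hg)
    obtain ⟨α, r, hα, hr, hcr, τ, hτ⟩ := cent_struct Sj hyp1' hdz (hle hcM) (by
      intro b
      obtain ⟨a, rfl⟩ := hLsurj b
      have h1 : slE l f (ten F κ i a w) = ten F κ i (slE (⟨l, hl⟩ : {l // l ≠ i}) f a) w :=
        slE_sub_ten i ⟨l, hl⟩ f a w
      refine ⟨L (slE (⟨l, hl⟩ : {l // l ≠ i}) f a), ?_⟩
      show g (slE l f (g⁻¹ (ten F κ j (L a) w'))) = _
      rw [← hL, hgi', h1, hL]) (by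
      intro x hx
      obtain ⟨y, hy, hxy⟩ := hD x hx
      rw [← slE_eq_rW]
      have h1 : slE j (siegel q w' x hqw' hx) = g * slE i (siegel q w y hqw hy) * g⁻¹ := by
        rw [← hxy]; group
      rw [h1]
      have h3 := slE_comm (F := F) (κ := κ) hl f (siegel q w y hqw hy)
      calc g * slE l f * g⁻¹ * (g * slE i (siegel q w y hqw hy) * g⁻¹)
          = g * (slE l f * slE i (siegel q w y hqw hy)) * g⁻¹ := by group
        _ = g * (slE i (siegel q w y hqw hy) * slE l f) * g⁻¹ := by rw [h3]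
        _ = _ := by group)
    have hscal := hS j w' hw'0 hqw' _ hcM α r τ hcr hτ
    have : Nontrivial (({l // l ≠ j} → κ) → F) := ⟨tp (fun _ => w), 0, tp_ne_zero fun _ => hw0⟩
    obtain ⟨x, hx, ζ, hB⟩ := isB_of_scalar Sj (nondeg_QT h2 hq) hqw' hw'0 hcr hr hτ hscal
    refine ⟨_, _, α, ζ, x, hx, ?_, hα, hB, rfl, by group⟩
    refine M.mul_mem hcM (M.inv_mem ?_)
    rw [← slE_eq_rW]
    exact hM.siegel_mem h2 hG j hqw' hx
  -- commutators
  have hcj : ∀ l, l ≠ i → ∀ k ∈ ⁅M ⊓ (slE (F := F) (κ := κ) l).range, M ⊓ (slE (F := F) (κ := κ) l).range⁆,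
      g * k * g⁻¹ ∈ (rU (isTen F κ j)).range := by
    intro l hl
    have hle' : ⁅M ⊓ (slE (F := F) (κ := κ) l).range, M ⊓ (slE (F := F) (κ := κ) l).range⁆ ≤
        (rU (isTen F κ j)).range.comap (MulAut.conj g).toMonoidHom := by
      rw [Subgroup.commutator_le]
      intro k1 hk1 k2 hk2
      rw [Subgroup.mem_comap]
      show g * ⁅k1, k2⁆ * g⁻¹ ∈ _
      obtain ⟨b1, s1, α1, ζ1, x1, hx1, hb1, hα1, hB1, hs1, hc1⟩ := hstr l hl k1 hk1
      obtain ⟨b2, s2, α2, ζ2, x2, hx2, hb2, hα2, hB2, hs2, hc2⟩ := hstr l hl k2 hk2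
      have hbs : ∀ {b : ((ι → κ) → F) ≃ₗ[F] ((ι → κ) → F)} {α ζ}, IsB (ten F κ j) q w' b α ζ →
          ∀ {x : κ → F} (hx : polar q w' x = 0), b * rW (isTen F κ j) (siegel q w' x hqw' hx) =
            rW (isTen F κ j) (siegel q w' x hqw' hx) * b := fun hB _ hx => isB_comm_siegel Sj hqw' hx hB
      have e12 : b1 * s2 = s2 * b1 := by rw [hs2]; exact hbs hB1 hx2
      have e21 : b2 * s1 = s1 * b2 := by rw [hs1]; exact hbs hB2 hx1
      have e11 : b1 * s1 = s1 * b1 := by rw [hs1]; exact hbs hB1 hx1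
      have e22 : b2 * s2 = s2 * b2 := by rw [hs2]; exact hbs hB2 hx2
      have ess : s1 * s2 = s2 * s1 := by
        rw [hs1, hs2, ← map_mul, ← map_mul, siegel_mul hqw' hx1 hx2 (by rw [polar_add_right, hx1, hx2, add_zero]),
          siegel_mul hqw' hx2 hx1 (by rw [polar_add_right, hx1, hx2, add_zero])]
        congr 1
        ext v : 1
        rw [siegel_apply, siegel_apply, add_comm x1 x2]
      have e1 : g * ⁅k1, k2⁆ * g⁻¹ = ⁅b1, b2⁆ := by
        have h3 : g * ⁅k1, k2⁆ * g⁻¹ = ⁅g * k1 * g⁻¹, g * k2 * g⁻¹⁆ := by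
          rw [commutatorElement_def, commutatorElement_def]; group
        rw [h3, hc1, hc2, commutatorElement_def, commutatorElement_def, mul_inv_rev, mul_inv_rev]
        have c1 : Commute s1 b2 := e21.symm
        have c2 : Commute s2 b1 := e12.symm
        have c3 : Commute s1 s2 := ess
        have c4 : Commute s1 b1 := e11.symm
        have c5 : Commute s2 b2 := e22.symm
        calc b1 * s1 * (b2 * s2) * (s1⁻¹ * b1⁻¹) * (s2⁻¹ * b2⁻¹)
            = b1 * (s1 * (b2 * s2) * s1⁻¹) * b1⁻¹ * (s2⁻¹ * b2⁻¹) := by group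
          _ = b1 * (b2 * s2) * b1⁻¹ * (s2⁻¹ * b2⁻¹) := by
              rw [(c1.mul_right c3).eq, mul_assoc (b2 * s2) s1, mul_inv_cancel, mul_one]
          _ = b1 * b2 * (s2 * b1⁻¹) * s2⁻¹ * b2⁻¹ := by group
          _ = b1 * b2 * b1⁻¹ * b2⁻¹ := by
              rw [c2.inv_right.eq]; group
      rw [e1]
      have hB : ∃ ζ, IsB (ten F κ j) q w' ⁅b1, b2⁆ ⁅α1, α2⁆ ζ := by
        rw [commutatorElement_def, commutatorElement_def]
        exact ⟨_, isB_mul hqw' (isB_mul hqw' (isB_mul hqw' hB1 hB2) (isB_inv Sj hqw' hB1)) (isB_inv Sj hqw' hB2)⟩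
      obtain ⟨ζ, hB⟩ := hB
      have hbM : ⁅b1, b2⁆ ∈ M := by
        rw [commutatorElement_def]
        exact M.mul_mem (M.mul_mem (M.mul_mem hb1 hb2) (M.inv_mem hb1)) (M.inv_mem hb2)
      have h0 := hZ j w' hw'0 hqw' _ hbM _ _ (Subgroup.commutator_mem_commutator hα1 hα2) hB
      refine ⟨⁅α1, α2⁆, ?_⟩
      refine ext_t' Sj.ten fun a u => ?_
      rw [rU_apply, hB, h0]
      simp
    intro k hk
    exact hle' hk
  -- the slot algebra
  have hc : Carries g⁻¹ j i := by
    intro f
    obtain ⟨f', hf'⟩ := comm_slots h2 hq H.three hqw hw0 i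
      (T := ((g⁻¹ : ((ι → κ) → F) ≃ₗ[F] ((ι → κ) → F)) : Module.End F ((ι → κ) → F)) * sl j f *
        (g : Module.End F ((ι → κ) → F))) (by
      intro l hl u z hu hz v
      show g⁻¹ (sl j f (g (slE l (siegel q u z hu hz) v))) = slE l (siegel q u z hu hz) (g⁻¹ (sl j f (g v)))
      obtain ⟨β, hβ⟩ := hcj l hl _ (hcomm l u z hu hz)
      have h1 : ∀ v, g (slE l (siegel q u z hu hz) v) = rU (isTen F κ j) β (g v) := by
        intro v
        rw [hβ]
        show _ = g (slE l (siegel q u z hu hz) (g⁻¹ (g v)))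
        rw [hgi']
      have h3 : ∀ v, sl j f (rU (isTen F κ j) β v) = rU (isTen F κ j) β (sl j f v) := by
        intro v
        have : sl j f ∘ₗ ((rU (isTen F κ j) β : ((ι → κ) → F) ≃ₗ[F] ((ι → κ) → F)) : Module.End F ((ι → κ) → F)) =
            ((rU (isTen F κ j) β : ((ι → κ) → F) ≃ₗ[F] ((ι → κ) → F)) : Module.End F ((ι → κ) → F)) ∘ₗ sl j f := by
          refine ext_t Sj.ten fun a u => ?_
          simp only [LinearMap.comp_apply, LinearEquiv.coe_coe]
          rw [rU_apply, sl_ten, sl_ten, rU_apply]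
        exact LinearMap.congr_fun this v
      rw [h1, h3]
      refine g.injective ?_
      rw [hgi, h1, hgi])
    refine ⟨f', fun v => ?_⟩
    have h1 := hf' (g⁻¹ v)
    have h3 : g⁻¹ (sl j f (g (g⁻¹ v))) = sl i f' (g⁻¹ v) := h1
    rwa [hgi] at h3
  have := hc.symm hw0
  rwa [inv_inv] at this

end Cfsg.Agent.H883.C7
end

-- part: H883/C7/GIface
section
/-!
# Interface of part (G): with (D) every element permutes the slot algebras
-/

set_option autoImplicit false
set_option linter.unusedSectionVars false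

namespace Cfsg.Agent.H883.C7

open QuadraticMap hiding proj
open Cfsg.Agent.LieClassical.OrthCore Cfsg.Agent.LieClassical.OrthTrans
open Cfsg.Agent.H882.Ten Cfsg.Agent.LieClassical.OrthFinite

variable {F : Type*} [Field F] {κ : Type*} [Fintype κ] [DecidableEq κ] {ι : Type*} [Fintype ι] [DecidableEq ι]

/-- Conjugation as a linear map. -/
def cjL {V : Type*} [AddCommGroup V] [Module F V] (g : V ≃ₗ[F] V) : Module.End F V →ₗ[F] Module.End F V where
  toFun := cj g
  map_add' := cj_add' g
  map_smul' := cj_smul' g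

/-- The algebra `g 𝒜_j g⁻¹`, `𝒜_j = sl j (End U)`. -/
noncomputable def Al (g : ((ι → κ) → F) ≃ₗ[F] ((ι → κ) → F)) (j : ι) : Submodule F (Module.End F ((ι → κ) → F)) :=
  (LinearMap.range (slA (F := F) (κ := κ) j).toLinearMap).map (cjL g)

theorem mem_Al {g : ((ι → κ) → F) ≃ₗ[F] ((ι → κ) → F)} {j : ι} {T : Module.End F ((ι → κ) → F)} :
    T ∈ Al g j ↔ ∃ f : Module.End F (κ → F), cj g (sl j f) = T := by
  constructor
  · rintro ⟨_, ⟨f, rfl⟩, rfl⟩
    exact ⟨f, rfl⟩
  · rintro ⟨f, rfl⟩
    exact ⟨_, ⟨f, rfl⟩, rfl⟩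

theorem Al_map (h g : ((ι → κ) → F) ≃ₗ[F] ((ι → κ) → F)) (j : ι) : (Al g j).map (cjL h) = Al (h * g) j := by
  ext T
  rw [mem_Al]
  constructor
  · rintro ⟨S, hS, rfl⟩
    obtain ⟨f, rfl⟩ := mem_Al.1 hS
    exact ⟨f, (cj_cj h g _).symm⟩
  · rintro ⟨f, rfl⟩
    exact ⟨_, mem_Al.2 ⟨f, rfl⟩, cj_cj h g _⟩

theorem carries_iff {g : ((ι → κ) → F) ≃ₗ[F] ((ι → κ) → F)} {i j : ι} : Carries g i j ↔ Al g i ≤ Al 1 j := by
  constructor
  · intro h T hT
    obtain ⟨f, rfl⟩ := mem_Al.1 hT
    obtain ⟨f', hf'⟩ := h f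
    refine mem_Al.2 ⟨f', ?_⟩
    rw [one_cj]
    refine LinearMap.ext fun v => ?_
    rw [cj_apply, hf']
    congr 1
    exact (LinearEquiv.apply_symm_apply g v).symm
  · intro h f
    obtain ⟨f', hf'⟩ := mem_Al.1 (h (mem_Al.2 ⟨f, rfl⟩))
    refine ⟨f', fun v => ?_⟩
    rw [one_cj] at hf'
    rw [hf', cj_apply]
    have : g⁻¹ (g v) = v := LinearEquiv.symm_apply_apply g v
    rw [this]

/-- Skew operators (the Lie algebra of the form). -/
def Skew {V : Type*} [AddCommGroup V] [Module F V] (Q : QuadraticForm F V) (X : Module.End F V) : Prop :=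
  ∀ u v, polar Q (X u) v = - polar Q u (X v)

/-- Fixed point property: a Siegel element `d = slE i (siegel w y)`, `y` nonsingular, normalises `g 𝒜_j g⁻¹` only
if this is `𝒜_i` or commutes with `𝒜_i`. -/
def FixAll (q : QuadraticForm F (κ → F)) (M : Subgroup (((ι → κ) → F) ≃ₗ[F] ((ι → κ) → F))) : Prop :=
  ∀ (i : ι) (w y : κ → F) (hw : q w = 0) (hy : polar q w y = 0), w ≠ 0 → q y ≠ 0 → ∀ g ∈ M, ∀ j : ι,
    (Al g j).map (cjL (slE i (siegel q w y hw hy))) ≤ Al g j →
    Al g j = Al 1 i ∨ ∀ a ∈ Al g j, ∀ f : Module.End F (κ → F), a * sl i f = sl i f * a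

/-- The sum of the slot Lie algebras is `M`-invariant. -/
def SoInv (q : QuadraticForm F (κ → F)) (M : Subgroup (((ι → κ) → F) ≃ₗ[F] ((ι → κ) → F))) : Prop :=
  ∀ g ∈ M, ∀ (i : ι) (X : Module.End F (κ → F)), Skew q X →
    ∃ Y : ι → Module.End F (κ → F), (∀ l, Skew q (Y l)) ∧ cj g (sl i X) = ∑ l, sl l (Y l)

/-- The partial trace over the slots `≠ i`. -/
noncomputable def pt (i : ι) : Module.End F ((ι → κ) → F) →ₗ[F] Module.End F (κ → F) where
  toFun T :=
    { toFun := fun u s => ∑ a : {l // l ≠ i} → κ, T (ten F κ i (Pi.single a 1) u) (ins i a s)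
      map_add' := fun u u' => by
        funext s
        simp only [map_add, Pi.add_apply, Finset.sum_add_distrib]
      map_smul' := fun c u => by
        funext s
        simp only [map_smul, Pi.smul_apply, smul_eq_mul, Finset.mul_sum, RingHom.id_apply] }
  map_add' T T' := by
    ext u s
    simp [Finset.sum_add_distrib]
  map_smul' c T := by
    ext u s
    simp [Finset.mul_sum]

/-- The partial trace to `g 𝒜_j g⁻¹`. -/
noncomputable def tA (g : ((ι → κ) → F) ≃ₗ[F] ((ι → κ) → F)) (j : ι) (z : Module.End F ((ι → κ) → F)) :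
    Module.End F ((ι → κ) → F) := cj g (sl j (pt j (cj g⁻¹ z)))

/-- The operators `R ⊗ X`, `X` skew in slot `l`. -/
def Kl (q : QuadraticForm F (κ → F)) (l : ι) : Submodule F (Module.End F ((ι → κ) → F)) :=
  Submodule.span F {T | ∃ (R : Module.End F ((ι → κ) → F)) (X : Module.End F (κ → F)),
    (∀ f, R * sl l f = sl l f * R) ∧ Skew q X ∧ T = R * sl l X}

end Cfsg.Agent.H883.C7
end

-- part: H567/C7/HW
section
/-!
# The submodule of second vectors of root elements; closure of a submodule under the Siegel group of a slot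
-/

set_option autoImplicit false
set_option linter.unusedSectionVars false

namespace Cfsg.Agent.H567.C7

open QuadraticMap hiding proj
open Cfsg.Agent.LieClassical.OrthCore Cfsg.Agent.LieClassical.OrthTrans
open Cfsg.Agent.H882.Ten Cfsg.Agent.LieClassical.OrthFinite
open Cfsg.Agent.H883.C7 Cfsg.Agent.H883.Root

section gen

variable {F V : Type*} [Field F] [AddCommGroup V] [Module F V] {Q : QuadraticForm F V}

/-- The vectors all of whose multiples give Siegel transformations at `u` in `H`. -/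
def HW (Q : QuadraticForm F V) (H : Subgroup (V ≃ₗ[F] V)) {u : V} (hu : Q u = 0) : Submodule F V where
  carrier := {v | ∀ r : F, Has Q H u (r • v)}
  zero_mem' := fun r => by rw [smul_zero]; exact has_zero hu
  add_mem' := fun {v w} hv hw r => by rw [smul_add]; exact (hv r).add (hw r)
  smul_mem' := fun c v hv r => by rw [smul_smul]; exact hv (r * c)

variable {H : Subgroup (V ≃ₗ[F] V)} {u x y v w : V}

theorem mem_HW {hu : Q u = 0} : v ∈ HW Q H hu ↔ ∀ r : F, Has Q H u (r • v) := Iff.rfl

theorem has_of_mem {hu : Q u = 0} (h : v ∈ HW Q H hu) : Has Q H u v := by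
  have := mem_HW.1 h 1
  rwa [one_smul] at this

theorem map_mem_HW {hu : Q u = 0} (h : v ∈ HW Q H hu) {g : V ≃ₗ[F] V} (hgO : g ∈ O Q) (hg : g ∈ H)
    {u' : V} (e : g u = u') (hu' : Q u' = 0) : g v ∈ HW Q H hu' := by
  intro r
  have := (mem_HW.1 h r).map hgO hg
  rw [map_smul, e] at this
  exact this

/-- First commutator rule. -/
theorem mem_HW_of_comm {hu : Q u = 0} {hx : Q x = 0} (hw : Has Q H u w) (hy : y ∈ HW Q H hx)
    (hxu : polar Q x u = 0) (hyu : polar Q y u = 0) (hQy : Q y = 0) (hyw : polar Q y w = 0)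
    (hxw : polar Q x w ≠ 0) : y ∈ HW Q H hu := by
  intro r
  have h1 := mem_HW.1 hy (r * (polar Q x w)⁻¹)
  have h2 := h1.comm' hw hxu (by rw [polar_smul_left, hyu, smul_zero])
    (by rw [QuadraticMap.map_smul, hQy, smul_zero]) (by rw [polar_smul_left, hyw, smul_zero])
  rw [smul_smul, mul_comm r, mul_inv_cancel_left₀ hxw] at h2
  exact h2

/-- Second commutator rule. -/
theorem mem_HW_of_comm2 {hu : Q u = 0} {hx : Q x = 0} (hw : Has Q H u w) (hy : y ∈ HW Q H hx)
    (hxu : polar Q x u = 0) (hyu : polar Q y u = 0) (hxw : polar Q x w = 0)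
    (hyw : polar Q y w ≠ 0) : x ∈ HW Q H hu := by
  intro r
  have h1 := mem_HW.1 hy (-(r * (polar Q y w)⁻¹))
  have h2 := h1.comm hw hxu (by rw [polar_smul_left, hyu, smul_zero])
  rw [hxw, zero_smul, zero_sub, mul_zero, add_zero, polar_smul_left, smul_eq_mul, ← neg_smul, neg_mul, neg_neg,
    mul_assoc, inv_mul_cancel₀ hyw, mul_one] at h2
  exact h2

/-- A submodule closed under the Siegel group of `a` which contains a vector not orthogonal to `a` is
everything. -/
theorem top_of_siegel (h2 : (2 : F) ≠ 0) {a b z : V} (hyp : Hyp Q a b) (hz : polar Q a z = 0) (hqz : Q z ≠ 0)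
    {W : Submodule F V} {x : V} (hx : x ∈ W) (hax : polar Q a x ≠ 0)
    (hW : ∀ (y : V) (hy : polar Q a y = 0), ∀ v ∈ W, siegel Q a y hyp.left hy v ∈ W) : W = ⊤ := by
  have hneg : ∀ y, polar Q a y = 0 → polar Q a (-y) = 0 := fun y hy => by rw [polar_neg_right, hy, neg_zero]
  have haW : a ∈ W := by
    have h1 := W.sub_mem (W.sub_mem (W.add_mem (hW z hz x hx) (hW (-z) (hneg z hz) x hx)) hx) hx
    rw [siegel_apply, siegel_apply, polar_neg_left, QuadraticMap.map_neg] at h1
    have e : x + polar Q a x • z - polar Q z x • a - (Q z * polar Q a x) • a +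
        (x + polar Q a x • -z - -polar Q z x • a - (Q z * polar Q a x) • a) - x - x =
        (-(2 * (Q z * polar Q a x))) • a := by module
    rw [e] at h1
    exact (W.smul_mem_iff (neg_ne_zero.2 (mul_ne_zero h2 (mul_ne_zero hqz hax)))).1 h1
  have hperp : ∀ y, polar Q a y = 0 → y ∈ W := by
    intro y hy
    have h1 := W.add_mem (W.sub_mem (hW y hy x hx) hx) (W.smul_mem (polar Q y x + Q y * polar Q a x) haW)
    rw [siegel_apply] at h1
    have e : x + polar Q a x • y - polar Q y x • a - (Q y * polar Q a x) • a - x +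
        (polar Q y x + Q y * polar Q a x) • a = polar Q a x • y := by module
    rw [e] at h1
    exact (W.smul_mem_iff hax).1 h1
  rw [eq_top_iff]
  intro v _
  have h1 : v - (polar Q a v * (polar Q a x)⁻¹) • x ∈ W := hperp _ (by
    rw [polar_sub_right, polar_smul_right, smul_eq_mul, mul_assoc, inv_mul_cancel₀ hax, mul_one, sub_self])
  have h3 := W.add_mem h1 (W.smul_mem (polar Q a v * (polar Q a x)⁻¹) hx)
  rwa [sub_add_cancel] at h3

end gen

section slot

variable {F : Type*} [Field F] {κ : Type*} [Fintype κ] [DecidableEq κ] {ι : Type*} [Fintype ι] [DecidableEq ι]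
  {q : QuadraticForm F (κ → F)}

theorem QT_tp (h2 : (2 : F) ≠ 0) {x : ι → (κ → F)} {i : ι} (hi : q (x i) = 0) : QT q ι (tp x) = 0 := by
  have h1 := polar_self' (Q := QT q ι) (tp x)
  rw [polar_tp h2, Finset.prod_eq_zero (Finset.mem_univ i) (polar_self_of_sing hi)] at h1
  exact (mul_eq_zero.1 h1.symm).resolve_left h2

theorem polar_tp_zero (h2 : (2 : F) ≠ 0) {x y : ι → (κ → F)} (i : ι) (hi : polar q (x i) (y i) = 0) :
    polar (QT q ι) (tp x) (tp y) = 0 := by
  rw [polar_tp h2]
  exact Finset.prod_eq_zero (Finset.mem_univ i) hi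

theorem polar_tp_ne (h2 : (2 : F) ≠ 0) {x y : ι → (κ → F)} (h : ∀ i, polar q (x i) (y i) ≠ 0) :
    polar (QT q ι) (tp x) (tp y) ≠ 0 := by
  rw [polar_tp h2]
  exact Finset.prod_ne_zero_iff.2 fun i _ => h i

theorem isMono_opE (f : ι → ((κ → F) ≃ₗ[F] (κ → F))) : IsMono (opE f) := ⟨f, 1, by rw [map_one, mul_one]⟩

variable {M : Subgroup (((ι → κ) → F) ≃ₗ[F] ((ι → κ) → F))}

theorem opE_sq_mem (h2 : (2 : F) ≠ 0) (hG : Good (QT q ι)) (hM : Over q M) {f : ι → ((κ → F) ≃ₗ[F] (κ → F))}
    (hf : ∀ i, f i ∈ O q) : opE (fun i => f i * f i) ∈ M :=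
  hM.2 _ (opE_sq_mem_E h2 hG hf) (isMono_opE _)

theorem opE_sq_mem_O (h2 : (2 : F) ≠ 0) {f : ι → ((κ → F) ≃ₗ[F] (κ → F))}
    (hf : ∀ i, f i ∈ O q) : opE (fun i => f i * f i) ∈ O (QT q ι) :=
  opE_mem_O h2 fun i => (O q).mul_mem (hf i) (hf i)

theorem slE_siegel_mem (h2 : (2 : F) ≠ 0) (hG : Good (QT q ι)) (hM : Over q M) (i : ι)
    {u x : κ → F} (hu : q u = 0) (hx : polar q u x = 0) : slE i (siegel q u x hu hx) ∈ M :=
  hM.2 _ (slE_siegel_mem_E h2 hG i hu hx) (by rw [slE_eq]; exact isMono_opE _)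

/-- Filling slot `l`. -/
theorem fill (h2 : (2 : F) ≠ 0) (hq : Nondeg q) (hd : 3 ≤ Fintype.card κ) {a : ι → (κ → F)}
    (ha : ∀ l, a l ≠ 0 ∧ q (a l) = 0) {W : Submodule F ((ι → κ) → F)} (l : ι)
    (hW : ∀ (y : κ → F) (hy : polar q (a l) y = 0), ∀ v ∈ W, slE l (siegel q (a l) y (ha l).2 hy) v ∈ W)
    {x : ι → (κ → F)} (hx : tp x ∈ W) (hax : polar q (a l) (x l) ≠ 0) (v : κ → F) :
    tp (Function.update x l v) ∈ W := by
  obtain ⟨b, hyp⟩ := LieClassical.OrthTrans.exists_hyp hq (ha l).2 (ha l).1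
  obtain ⟨z, hz1, _, hz3⟩ := exists_nonsing_perp hq (by rw [Module.finrank_fintype_fun_eq_card]; exact hd) hyp
  let L : (κ → F) →ₗ[F] ((ι → κ) → F) := (tpM F ι κ).toLinearMap x l
  have hL : ∀ u, L u = tp (Function.update x l u) := fun u => rfl
  have htop : W.comap L = ⊤ := by
    refine top_of_siegel h2 hyp hz1 hz3 (x := x l) ?_ hax ?_
    · rw [Submodule.mem_comap, hL, Function.update_eq_self]
      exact hx
    · intro y hy v hv
      rw [Submodule.mem_comap, hL] at hv ⊢
      have h1 := hW y hy _ hv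
      rw [slE_tp, Function.update_self, Function.update_idem] at h1
      exact h1
  have h1 : v ∈ W.comap L := by rw [htop]; trivial
  rwa [Submodule.mem_comap, hL] at h1

/-- Filling the slots in `S`. -/
theorem fill_all (h2 : (2 : F) ≠ 0) (hq : Nondeg q) (hd : 3 ≤ Fintype.card κ) {a : ι → (κ → F)}
    (ha : ∀ l, a l ≠ 0 ∧ q (a l) = 0) {W : Submodule F ((ι → κ) → F)}
    (hW : ∀ (l : ι) (y : κ → F) (hy : polar q (a l) y = 0), ∀ v ∈ W, slE l (siegel q (a l) y (ha l).2 hy) v ∈ W)
    {x : ι → (κ → F)} (hx : tp x ∈ W) (S : Finset ι) (hax : ∀ l ∈ S, polar q (a l) (x l) ≠ 0)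
    (v : ι → (κ → F)) : tp (fun l => if l ∈ S then v l else x l) ∈ W := by
  induction S using Finset.induction_on with
  | empty => simpa using hx
  | insert i S hi ih =>
    have h1 := ih fun l hl => hax l (Finset.mem_insert_of_mem hl)
    have h3 := fill h2 hq hd ha i (hW i) h1 (by
      show polar q (a i) (if i ∈ S then v i else x i) ≠ 0
      rw [if_neg hi]
      exact hax i (Finset.mem_insert_self _ _)) (v i)
    convert h3 using 2
    funext j
    by_cases hj : j = i
    · subst hj
      rw [Function.update_self, if_pos (Finset.mem_insert_self _ _)]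
    · rw [Function.update_of_ne hj]
      by_cases hjS : j ∈ S
      · rw [if_pos (Finset.mem_insert_of_mem hjS), if_pos hjS]
      · rw [if_neg, if_neg hjS]
        intro h
        rcases Finset.mem_insert.1 h with h | h
        · exact hj h
        · exact hjS h

end slot

end Cfsg.Agent.H567.C7
end

-- part: H567/C7/RootGen
section
/-!
# (C7 orthogonal, part N3) A root element generates everything
-/

set_option autoImplicit false
set_option linter.unusedSectionVars false

namespace Cfsg.Agent.H567.C7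

open QuadraticMap hiding proj
open Cfsg.Agent.LieClassical.OrthCore Cfsg.Agent.LieClassical.OrthTrans
open Cfsg.Agent.H882.Ten Cfsg.Agent.LieClassical.OrthFinite
open Cfsg.Agent.H883.C7 Cfsg.Agent.H883.Root

section one

variable {F V : Type*} [Field F] [AddCommGroup V] [Module F V] {Q : QuadraticForm F V}

theorem polar_siegel_sq {a b z : V} (hyp : Hyp Q a b) (hz : polar Q a z = 0) (hz' : polar Q b z = 0) :
    polar Q a (siegel Q b z hyp.right hz' (siegel Q b z hyp.right hz' a)) = -(4 * Q z) := by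
  have hza : polar Q z a = 0 := by rw [polar_comm]; exact hz
  have hzb : polar Q z b = 0 := by rw [polar_comm]; exact hz'
  have e1 : siegel Q b z hyp.right hz' a = a + z - Q z • b := by
    rw [siegel_apply, hyp.pair', hza]
    module
  rw [e1, siegel_apply]
  simp only [polar_add_right, polar_sub_right, polar_smul_right, hyp.polar_left, hyp.polar_right, hyp.pair,
    hyp.pair', hz, hz', hza, hzb, polar_self' z, smul_eq_mul]
  ring

end one

variable {F : Type*} [Field F] {κ : Type*} [Fintype κ] [DecidableEq κ] {ι : Type*} [Fintype ι] [DecidableEq ι]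
  {q : QuadraticForm F (κ → F)} {M : Subgroup (((ι → κ) → F) ≃ₗ[F] ((ι → κ) → F))}

theorem opE_single_tp (j : ι) (g : (κ → F) ≃ₗ[F] (κ → F)) (x : ι → (κ → F)) :
    opE (fun l => (if l = j then g else 1) * (if l = j then g else 1)) (tp x) =
      tp (Function.update x j (g (g (x j)))) := by
  rw [opE_tp]
  congr 1
  funext l
  by_cases h : l = j
  · subst h
    rw [if_pos rfl, Function.update_self]
    rfl
  · rw [if_neg h, Function.update_of_ne h]
    rfl

theorem opE_cosingle_tp (j : ι) (g : ι → ((κ → F) ≃ₗ[F] (κ → F))) (x : ι → (κ → F)) :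
    opE (fun l => (if l = j then 1 else g l) * (if l = j then 1 else g l)) (tp x) =
      tp (fun l => if l = j then x l else g l (g l (x l))) := by
  rw [opE_tp]
  congr 1
  funext l
  by_cases h : l = j
  · subst h
    rw [if_pos rfl, if_pos rfl]
    rfl
  · rw [if_neg h, if_neg h]
    rfl

/-- The scalars. -/
theorem stepA [Finite F] (H : Hyp7 q) (ht : 2 ≤ Fintype.card ι) (hM : Over q M) {a : ι → (κ → F)}
    (ha : ∀ l, a l ≠ 0 ∧ q (a l) = 0) {j : ι} {z : κ → F} (hz : polar q (a j) z = 0)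
    (h : Has (QT q ι) M (tp a) (tp (Function.update a j z))) :
    tp (Function.update a j z) ∈ HW (QT q ι) M (QT_tp H.two (ha j).2) := by
  obtain ⟨b, hyp⟩ := LieClassical.OrthTrans.exists_hyp H.nd (ha j).2 (ha j).1
  set c0 := polar q b z with hc0
  set z' := z - c0 • a j with hz'
  have e0 : tp (Function.update a j z) = tp (Function.update a j z') + c0 • tp a := by
    conv_rhs => rw [← Function.update_eq_self j a]
    rw [Function.update_idem, ← tp_update_smul, ← tp_update_add, hz', sub_add_cancel]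
  have hself : tp a ∈ HW (QT q ι) M (QT_tp H.two (ha j).2) := fun r => has_self (QT_tp H.two (ha j).2) r
  rw [e0]
  refine Submodule.add_mem _ ?_ (Submodule.smul_mem _ _ hself)
  have h1 : Has (QT q ι) M (tp a) (tp (Function.update a j z')) := by
    have := h.add_smul_self (-c0)
    rw [e0] at this
    have e : tp (Function.update a j z') + c0 • tp a + -c0 • tp a = tp (Function.update a j z') := by module
    rwa [e] at this
  have hz1 : polar q (a j) z' = 0 := by
    rw [hz', polar_sub_right, hz, polar_smul_right, hyp.polar_left, smul_zero, sub_zero]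
  have hz2 : polar q b z' = 0 := by
    rw [hz', polar_sub_right, polar_smul_right, hyp.pair', ← hc0, smul_eq_mul, mul_one, sub_self]
  have hperp := h1.perp
  have hsq : ∀ c : F, Has (QT q ι) M (tp a) ((c * c) • tp (Function.update a j z')) := by
    intro c
    by_cases hc : c = 0
    · rw [hc, zero_mul, zero_smul]
      exact has_zero h1.sing
    obtain ⟨g, -, hgO, -, g1, g2, g3, -⟩ := exists_torus0 hyp hc
    have hf : ∀ l, (if l = j then g else (1 : (κ → F) ≃ₗ[F] (κ → F))) ∈ O q := by
      intro l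
      split_ifs
      · exact hgO
      · exact (O q).one_mem
    have h3 := h1.map (opE_sq_mem_O H.two hf) (opE_sq_mem H.two (H.good ht) hM hf)
    rw [opE_single_tp, opE_single_tp, Function.update_self, Function.update_idem, g3 z' hz1 hz2, g3 z' hz1 hz2, g1,
      map_smul, g1, smul_smul, tp_update_smul, Function.update_eq_self] at h3
    exact h3.smul_right h1.sing hperp
  intro r
  have h3 := (hsq ((r + 1) * 2⁻¹)).sub (hsq ((r - 1) * 2⁻¹))
  rw [← sub_smul] at h3
  have e : (r + 1) * 2⁻¹ * ((r + 1) * 2⁻¹) - (r - 1) * 2⁻¹ * ((r - 1) * 2⁻¹) = r := by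
    have := H.two
    field_simp
    ring
  rwa [e] at h3

/-- The submodule of `tp a` is closed under the Siegel group of `a l` in slot `l`. -/
theorem closed [Finite F] (H : Hyp7 q) (ht : 2 ≤ Fintype.card ι) (hM : Over q M) {a : ι → (κ → F)}
    (ha : ∀ l, a l ≠ 0 ∧ q (a l) = 0) (hQ : QT q ι (tp a) = 0) (l : ι) (y : κ → F)
    (hy : polar q (a l) y = 0) (v : (ι → κ) → F) (hv : v ∈ HW (QT q ι) M hQ) :
    slE l (siegel q (a l) y (ha l).2 hy) v ∈ HW (QT q ι) M hQ := by
  refine map_mem_HW hv (slE_mem_O H.two l (siegel_mem_O (ha l).2 hy))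
    (slE_siegel_mem H.two (H.good ht) hM l (ha l).2 hy) ?_ hQ
  have e : siegel q (a l) y (ha l).2 hy (a l) = a l := by
    rw [siegel_apply, polar_self_of_sing (ha l).2, polar_comm q y, hy]
    module
  rw [slE_tp, e, Function.update_eq_self]

theorem stepC [Finite F] (H : Hyp7 q) (ht : 2 ≤ Fintype.card ι) (hM : Over q M) {a : ι → (κ → F)}
    (ha : ∀ l, a l ≠ 0 ∧ q (a l) = 0) {j : ι} {z : κ → F} (hz : polar q (a j) z = 0) (hqz : q z ≠ 0)
    (h : Has (QT q ι) M (tp a) (tp (Function.update a j z))) (hQ : QT q ι (tp a) = 0) {x : ι → (κ → F)}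
    (hx : x j = a j) : tp x ∈ HW (QT q ι) M hQ := by
  have hex : ∀ l, ∃ b y, Hyp q (a l) b ∧ polar q (a l) y = 0 ∧ polar q b y = 0 ∧ q y ≠ 0 := by
    intro l
    obtain ⟨b, hyp⟩ := LieClassical.OrthTrans.exists_hyp H.nd (ha l).2 (ha l).1
    obtain ⟨y, hy1, hy2, hy3⟩ := exists_nonsing_perp H.nd
      (by rw [Module.finrank_fintype_fun_eq_card]; exact H.three) hyp
    exact ⟨b, y, hyp, hy1, hy2, hy3⟩
  choose b y hyp hy1 hy2 hy3 using hex
  have h4 : (4 : F) ≠ 0 := by
    have : (4 : F) = 2 * 2 := by norm_num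
    rw [this]
    exact mul_ne_zero H.two H.two
  let s : ι → ((κ → F) ≃ₗ[F] (κ → F)) := fun l => siegel q (b l) (y l) (hyp l).right (hy2 l)
  have hs : ∀ l, s l ∈ O q := fun l => siegel_mem_O _ _
  have hf : ∀ l, (if l = j then (1 : (κ → F) ≃ₗ[F] (κ → F)) else s l) ∈ O q := by
    intro l
    split_ifs
    · exact (O q).one_mem
    · exact hs l
  set a' : ι → (κ → F) := fun l => if l = j then a l else s l (s l (a l)) with ha'
  have ha'j : a' j = a j := if_pos rfl
  have ha'l : ∀ l, l ≠ j → polar q (a' l) (a l) ≠ 0 := by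
    intro l hl
    have e : a' l = s l (s l (a l)) := if_neg hl
    rw [e, polar_comm, polar_siegel_sq (hyp l) (hy1 l) (hy2 l)]
    exact neg_ne_zero.2 (mul_ne_zero h4 (hy3 l))
  have hQ' : QT q ι (tp a') = 0 := QT_tp H.two (i := j) (by rw [ha'j]; exact (ha j).2)
  have h1 := map_mem_HW (stepA H ht hM ha hz h) (opE_sq_mem_O H.two hf) (opE_sq_mem H.two (H.good ht) hM hf)
    (opE_cosingle_tp j s a) hQ'
  rw [opE_cosingle_tp] at h1
  have e1 : (fun l => if l = j then Function.update a j z l else s l (s l (Function.update a j z l))) =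
      Function.update a' j z := by
    funext l
    by_cases hl : l = j
    · subst hl
      rw [if_pos rfl, Function.update_self, Function.update_self]
    · rw [if_neg hl, Function.update_of_ne hl, Function.update_of_ne hl]
      exact (if_neg hl).symm
  rw [e1] at h1
  have hzz : polar q z z ≠ 0 := by rw [polar_self']; exact mul_ne_zero H.two hqz
  have hmem : tp a' ∈ HW (QT q ι) M hQ := by
    refine mem_HW_of_comm2 h h1 ?_ ?_ ?_ ?_
    · exact polar_tp_zero H.two j (by rw [ha'j]; exact polar_self_of_sing (ha j).2)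
    · exact polar_tp_zero H.two j (by rw [Function.update_self, polar_comm]; exact hz)
    · exact polar_tp_zero H.two j (by rw [Function.update_self, ha'j]; exact hz)
    · refine polar_tp_ne H.two fun l => ?_
      by_cases hl : l = j
      · subst hl
        rw [Function.update_self, Function.update_self]
        exact hzz
      · rw [Function.update_of_ne hl, Function.update_of_ne hl]
        exact ha'l l hl
  have h5 := fill_all H.two H.nd H.three ha (closed H ht hM ha hQ) hmem (Finset.univ.erase j)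
    (fun l hl => by rw [polar_comm]; exact ha'l l (Finset.ne_of_mem_erase hl)) x
  convert h5 using 2
  funext l
  by_cases hl : l = j
  · subst hl
    rw [if_neg (Finset.notMem_erase _ _), ha'j, hx]
  · rw [if_pos (Finset.mem_erase.2 ⟨hl, Finset.mem_univ _⟩)]

theorem stepE0 [Finite F] (H : Hyp7 q) (ht : 2 ≤ Fintype.card ι) (hM : Over q M) {a : ι → (κ → F)}
    (ha : ∀ l, a l ≠ 0 ∧ q (a l) = 0) {j : ι} {z : κ → F} (hz : polar q (a j) z = 0) (hqz : q z ≠ 0)
    (h : Has (QT q ι) M (tp a) (tp (Function.update a j z))) (hQ : QT q ι (tp a) = 0) {i : ι} (hij : i ≠ j)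
    {b : κ → F} (hb : Hyp q (a i) b) {x : ι → (κ → F)}
    (hx1 : polar q (a i) (x i) = 0) (hx2 : polar q b (x i) = 0) : tp x ∈ HW (QT q ι) M hQ := by
  have hex : ∀ l, ∃ b, Hyp q (a l) b := fun l => LieClassical.OrthTrans.exists_hyp H.nd (ha l).2 (ha l).1
  choose b0 hyp0 using hex
  set b' : ι → (κ → F) := Function.update b0 i b with hb'
  have hyp : ∀ l, Hyp q (a l) (b' l) := by
    intro l
    by_cases hl : l = i
    · subst hl
      rw [hb', Function.update_self]
      exact hb
    · rw [hb', Function.update_of_ne hl]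
      exact hyp0 l
  have hbi : b' i = b := by rw [hb', Function.update_self]
  obtain ⟨y, hy1, hy2, hy3⟩ := exists_nonsing_perp H.nd
    (by rw [Module.finrank_fintype_fun_eq_card]; exact H.three) (hyp j)
  have h4 : (4 : F) ≠ 0 := by
    have : (4 : F) = 2 * 2 := by norm_num
    rw [this]
    exact mul_ne_zero H.two H.two
  set s := siegel q (b' j) y (hyp j).right hy2 with hsdef
  have hsO : s ∈ O q := siegel_mem_O _ _
  have hf : ∀ l, (if l = j then s else (1 : (κ → F) ≃ₗ[F] (κ → F))) ∈ O q := by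
    intro l
    split_ifs
    · exact hsO
    · exact (O q).one_mem
  set a' : ι → (κ → F) := Function.update a j (s (s (a j))) with ha'
  have ha'j : a' j = s (s (a j)) := by rw [ha', Function.update_self]
  have ha'l : ∀ l, l ≠ j → a' l = a l := fun l hl => by rw [ha', Function.update_of_ne hl]
  have hpol : polar q (a' j) (a j) ≠ 0 := by
    rw [ha'j, polar_comm, polar_siegel_sq (hyp j) hy1 hy2]
    exact neg_ne_zero.2 (mul_ne_zero h4 hy3)
  have ha'0 : ∀ l, a' l ≠ 0 ∧ q (a' l) = 0 := by
    intro l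
    by_cases hl : l = j
    · subst hl
      rw [ha'j]
      refine ⟨fun h0 => ?_, by rw [hsO, hsO]; exact (ha l).2⟩
      rw [LinearEquiv.map_eq_zero_iff, LinearEquiv.map_eq_zero_iff] at h0
      exact (ha l).1 h0
    · rw [ha'l l hl]
      exact ha l
  have h1 := h.map (opE_sq_mem_O H.two hf) (opE_sq_mem H.two (H.good ht) hM hf)
  rw [opE_single_tp, opE_single_tp, Function.update_self, Function.update_idem, ← ha'] at h1
  have e1 : Function.update a j (s (s z)) = Function.update a' j (s (s z)) := by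
    rw [ha', Function.update_idem]
  rw [e1] at h1
  have hz' : polar q (a' j) (s (s z)) = 0 := by rw [ha'j, polar_map hsO, polar_map hsO]; exact hz
  have hqz' : q (s (s z)) ≠ 0 := by rw [hsO, hsO]; exact hqz
  have hQ' : QT q ι (tp a') = 0 := QT_tp H.two (ha'0 j).2
  -- first the vectors with `x j = a' j`
  have key : ∀ x : ι → (κ → F), x j = a' j → polar q (a i) (x i) = 0 → polar q b (x i) = 0 →
      tp x ∈ HW (QT q ι) M hQ := by
    intro x hxj hx1 hx2
    have h3 := stepC H ht hM ha'0 hz' hqz' h1 hQ' hxj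
    have h5 : tp (Function.update b' j (a j)) ∈ HW (QT q ι) M hQ :=
      stepC H ht hM ha hz hqz h hQ (by rw [Function.update_self])
    refine mem_HW_of_comm (has_of_mem h5) h3 ?_ ?_ ?_ ?_ ?_
    · exact polar_tp_zero H.two i (by rw [ha'l i hij]; exact polar_self_of_sing (ha i).2)
    · exact polar_tp_zero H.two i (by rw [polar_comm]; exact hx1)
    · exact QT_tp H.two (i := j) (by rw [hxj]; exact (ha'0 j).2)
    · exact polar_tp_zero H.two i (by rw [Function.update_of_ne hij, hbi, polar_comm]; exact hx2)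
    · refine polar_tp_ne H.two fun l => ?_
      by_cases hl : l = j
      · subst hl
        rw [Function.update_self]
        exact hpol
      · rw [Function.update_of_ne hl, ha'l l hl, (hyp l).pair]
        exact one_ne_zero
  have h6 := key (Function.update x j (a' j)) (by rw [Function.update_self])
    (by rw [Function.update_of_ne hij]; exact hx1) (by rw [Function.update_of_ne hij]; exact hx2)
  have h7 := fill H.two H.nd H.three ha j (closed H ht hM ha hQ j) h6
    (by rw [Function.update_self, polar_comm]; exact hpol) (x j)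
  rwa [Function.update_idem, Function.update_eq_self] at h7

theorem stepE [Finite F] (H : Hyp7 q) (ht : 2 ≤ Fintype.card ι) (hM : Over q M) {a : ι → (κ → F)}
    (ha : ∀ l, a l ≠ 0 ∧ q (a l) = 0) {j : ι} {z : κ → F} (hz : polar q (a j) z = 0) (hqz : q z ≠ 0)
    (h : Has (QT q ι) M (tp a) (tp (Function.update a j z))) (hQ : QT q ι (tp a) = 0) {i : ι} (hij : i ≠ j)
    {x : ι → (κ → F)} (hx1 : polar q (a i) (x i) = 0) : tp x ∈ HW (QT q ι) M hQ := by
  obtain ⟨b, hyp⟩ := LieClassical.OrthTrans.exists_hyp H.nd (ha i).2 (ha i).1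
  obtain ⟨y, hy1, hy2, hy3⟩ := exists_nonsing_perp H.nd
    (by rw [Module.finrank_fintype_fun_eq_card]; exact H.three) hyp
  have h0 : ∀ x : ι → (κ → F), polar q (a i) (x i) = 0 → polar q b (x i) = 0 → tp x ∈ HW (QT q ι) M hQ :=
    fun x h1 h3 => stepE0 H ht hM ha hz hqz h hQ hij hyp h1 h3
  have h1 : tp (Function.update x i y) ∈ HW (QT q ι) M hQ :=
    h0 _ (by rw [Function.update_self]; exact hy1) (by rw [Function.update_self]; exact hy2)
  have h3 : tp (Function.update x i (a i)) ∈ HW (QT q ι) M hQ := by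
    have h4 := closed H ht hM ha hQ i y hy1 _ h1
    have e : siegel q (a i) y (ha i).2 hy1 y = y + (-(2 * q y)) • a i := by
      rw [siegel_apply, hy1, polar_self']
      module
    rw [slE_tp, Function.update_self, Function.update_idem, e, tp_update_add, tp_update_smul] at h4
    have h5 := Submodule.sub_mem _ h4 h1
    rw [add_sub_cancel_left] at h5
    exact (Submodule.smul_mem_iff _ (neg_ne_zero.2 (mul_ne_zero H.two hy3))).1 h5
  have h4 : tp (Function.update x i (x i - polar q b (x i) • a i)) ∈ HW (QT q ι) M hQ := by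
    refine h0 _ ?_ ?_
    · rw [Function.update_self, polar_sub_right, hx1, polar_smul_right, hyp.polar_left, smul_zero, sub_zero]
    · rw [Function.update_self, polar_sub_right, polar_smul_right, hyp.pair', smul_eq_mul, mul_one, sub_self]
  have h5 := Submodule.add_mem _ h4 (Submodule.smul_mem _ (polar q b (x i)) h3)
  rwa [← tp_update_smul, ← tp_update_add, sub_add_cancel, Function.update_eq_self] at h5

/-- The pure vectors with a slot orthogonal to `a l` span the orthogonal complement of `tp a`. -/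
theorem mem_of_perp (h2 : (2 : F) ≠ 0) {a b : ι → (κ → F)} (hyp : ∀ l, Hyp q (a l) (b l))
    {W : Submodule F ((ι → κ) → F)} (hW : ∀ (x : ι → (κ → F)) (l : ι), polar q (a l) (x l) = 0 → tp x ∈ W)
    {v : (ι → κ) → F} (hv : polar (QT q ι) (tp a) v = 0) : v ∈ W := by
  have key : ∀ (x : ι → (κ → F)) (S : Finset ι),
      tp x - (∏ l ∈ S, polar q (a l) (x l)) • tp (fun l => if l ∈ S then b l else x l) ∈ W := by
    intro x S
    induction S using Finset.induction_on with
    | empty => simp
    | insert i S hi ih =>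
      set y : ι → (κ → F) := fun l => if l ∈ S then b l else x l with hy
      have hyi : y i = x i := if_neg hi
      set c := polar q (a i) (x i) with hc
      have e1 : tp y = c • tp (Function.update y i (b i)) + tp (Function.update y i (x i - c • b i)) := by
        rw [← tp_update_smul, ← tp_update_add, add_sub_cancel, ← hyi, Function.update_eq_self]
      have h1 : tp (Function.update y i (x i - c • b i)) ∈ W := by
        refine hW _ i ?_
        rw [Function.update_self, polar_sub_right, polar_smul_right, (hyp i).pair, smul_eq_mul, mul_one, ← hc,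
          sub_self]
      have e2 : (fun l => if l ∈ insert i S then b l else x l) = Function.update y i (b i) := by
        funext l
        by_cases hl : l = i
        · subst hl
          rw [if_pos (Finset.mem_insert_self _ _), Function.update_self]
        · rw [Function.update_of_ne hl]
          by_cases hlS : l ∈ S
          · rw [if_pos (Finset.mem_insert_of_mem hlS)]
            exact (if_pos hlS).symm
          · rw [if_neg]
            · exact (if_neg hlS).symm
            · intro h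
              rcases Finset.mem_insert.1 h with h | h
              · exact hl h
              · exact hlS h
      rw [e2, Finset.prod_insert hi, ← hc]
      have h3 := W.add_mem ih (W.smul_mem (∏ l ∈ S, polar q (a l) (x l)) h1)
      rw [e1] at h3
      have e3 : tp x - (∏ l ∈ S, polar q (a l) (x l)) •
          (c • tp (Function.update y i (b i)) + tp (Function.update y i (x i - c • b i))) +
          (∏ l ∈ S, polar q (a l) (x l)) • tp (Function.update y i (x i - c • b i)) =
          tp x - (c * ∏ l ∈ S, polar q (a l) (x l)) • tp (Function.update y i (b i)) := by module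
      rwa [e3] at h3
  have h1 : W.mkQ ∘ₗ (LinearMap.id - (polarBilin (QT q ι) (tp a)).smulRight (tp b)) = 0 := by
    refine tp_ext fun x => ?_
    rw [LinearMap.comp_apply, LinearMap.zero_apply, Submodule.mkQ_apply, Submodule.Quotient.mk_eq_zero,
      LinearMap.sub_apply, LinearMap.id_apply, LinearMap.smulRight_apply, polarBilin_apply_apply, polar_tp h2]
    have h3 := key x Finset.univ
    simpa only [Finset.mem_univ, if_true] using h3
  have h3 := LinearMap.congr_fun h1 v
  rw [LinearMap.comp_apply, LinearMap.zero_apply, Submodule.mkQ_apply, Submodule.Quotient.mk_eq_zero,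
    LinearMap.sub_apply, LinearMap.id_apply, LinearMap.smulRight_apply, polarBilin_apply_apply, hv, zero_smul,
    sub_zero] at h3
  exact h3

/-- **A root element generates everything.** -/
theorem E_le_of_root [Finite F] (H : Hyp7 q) (ht : 2 ≤ Fintype.card ι) (hM : Over q M) {a : ι → (κ → F)}
    (ha : ∀ l, a l ≠ 0 ∧ q (a l) = 0) {j : ι} {z : κ → F} (hz : polar q (a j) z = 0) (hqz : q z ≠ 0)
    (h : Has (QT q ι) M (tp a) (tp (Function.update a j z))) : E (QT q ι) ≤ M := by
  have hQ : QT q ι (tp a) = 0 := QT_tp H.two (ha j).2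
  have hex : ∀ l, ∃ b y, Hyp q (a l) b ∧ polar q (a l) y = 0 ∧ polar q b y = 0 ∧ q y ≠ 0 := by
    intro l
    obtain ⟨b, hyp⟩ := LieClassical.OrthTrans.exists_hyp H.nd (ha l).2 (ha l).1
    obtain ⟨y, hy1, hy2, hy3⟩ := exists_nonsing_perp H.nd
      (by rw [Module.finrank_fintype_fun_eq_card]; exact H.three) hyp
    exact ⟨b, y, hyp, hy1, hy2, hy3⟩
  choose b y hyp hy1 hy2 hy3 using hex
  obtain ⟨i, hij⟩ : ∃ i, i ≠ j := by
    have : Nontrivial ι := Fintype.one_lt_card_iff_nontrivial.1 (by omega)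
    exact exists_ne j
  have hall : ∀ (x : ι → (κ → F)) (l : ι), polar q (a l) (x l) = 0 → tp x ∈ HW (QT q ι) M hQ := by
    intro x l hl
    by_cases hlj : l = j
    · subst hlj
      refine stepE H ht hM ha (j := i) (z := y i) (hy1 i) (hy3 i) ?_ hQ (Ne.symm hij) hl
      exact has_of_mem (hu := hQ) (stepE H ht hM ha hz hqz h hQ hij (by rw [Function.update_self]; exact hy1 i))
    · exact stepE H ht hM ha hz hqz h hQ hlj hl
  have hfull : Full (QT q ι) M (tp a) := ⟨hQ, fun w hw => has_of_mem (hu := hQ) (mem_of_perp H.two hyp hall hw)⟩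
  let s : ι → ((κ → F) ≃ₗ[F] (κ → F)) := fun l => siegel q (b l) (y l) (hyp l).right (hy2 l)
  have hs : ∀ l, s l ∈ O q := fun l => siegel_mem_O _ _
  have hfull' := hfull.map (opE_sq_mem_O H.two hs) (opE_sq_mem H.two (H.good ht) hM hs)
  have h4 : (4 : F) ≠ 0 := by
    have : (4 : F) = 2 * 2 := by norm_num
    rw [this]
    exact mul_ne_zero H.two H.two
  refine E_le_of_full_pair (H.good ht) hfull hfull' ?_
  rw [opE_tp]
  refine polar_tp_ne H.two fun l => ?_
  show polar q (a l) (s l (s l (a l))) ≠ 0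
  rw [polar_siegel_sq (hyp l) (hy1 l) (hy2 l)]
  exact neg_ne_zero.2 (mul_ne_zero h4 (hy3 l))

end Cfsg.Agent.H567.C7
end

-- part: H804/C7/ZGen
section
/-!
# The central part of the elements `α ⊗ 1 + ζ ⊗ ω_w` of a thin overgroup, generic fields (helper804, task 1911)
-/

set_option autoImplicit false
set_option linter.unusedSectionVars false
set_option linter.unusedSimpArgs false

namespace Cfsg.Agent.H804.C7

open QuadraticMap hiding proj
open Cfsg.Agent.LieClassical.OrthCore Cfsg.Agent.LieClassical.OrthTrans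
open Cfsg.Agent.H882.Ten Cfsg.Agent.LieClassical.OrthFinite Cfsg.Agent.H883.C7

/-- In a finite field with at least seven elements there is `c ≠ 0` with `c ^ 4 ≠ 1`. -/
theorem exists_four_ne {F : Type*} [Field F] [Finite F] (h7 : 7 ≤ Nat.card F) :
    ∃ c : F, c ≠ 0 ∧ (c * c) * (c * c) ≠ 1 := by
  classical
  have : Fintype F := Fintype.ofFinite F
  rw [Nat.card_eq_fintype_card] at h7
  by_contra hcon
  push Not at hcon
  have hp : (Polynomial.X ^ 4 - Polynomial.C (1 : F)).natDegree = 4 := Polynomial.natDegree_X_pow_sub_C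
  have hp0 : (Polynomial.X ^ 4 - Polynomial.C (1 : F)) ≠ 0 := Polynomial.X_pow_sub_C_ne_zero (by norm_num) _
  have h1 : (Finset.univ.erase (0 : F)) ⊆ (Polynomial.X ^ 4 - Polynomial.C (1 : F)).roots.toFinset := by
    intro c hc
    have hc0 : c ≠ 0 := Finset.ne_of_mem_erase hc
    rw [Multiset.mem_toFinset, Polynomial.mem_roots hp0, Polynomial.IsRoot.def]
    simp only [Polynomial.eval_sub, Polynomial.eval_pow, Polynomial.eval_X, Polynomial.eval_C]
    have := hcon c hc0
    linear_combination this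
  have h2 := Finset.card_le_card h1
  rw [Finset.card_erase_of_mem (Finset.mem_univ _), Finset.card_univ] at h2
  have h3 := (Multiset.toFinset_card_le _).trans (Polynomial.card_roots' (Polynomial.X ^ 4 - Polynomial.C (1 : F)))
  rw [hp] at h3
  omega

section gen

variable {F : Type*} {U : Type*} {W : Type*} {V : Type*} [Field F] [AddCommGroup U] [Module F U]
  [AddCommGroup W] [Module F W] [AddCommGroup V] [Module F V]
  {t : U →ₗ[F] W →ₗ[F] V} {QU : QuadraticForm F U} {QW : QuadraticForm F W} {Q : QuadraticForm F V}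

/-- the commutator of `α ⊗ 1 + ζ ⊗ ω_w` with `1 ⊗ s` -/
theorem conj_isB (S : TSt t QU QW Q) {w : W} (hw : QW w = 0) {b : V ≃ₗ[F] V} {α : U ≃ₗ[F] U}
    {ζ : Module.End F U} (h : IsB t QW w b α ζ) {s : W ≃ₗ[F] W} (hs : s ∈ O QW) (hsw : polar QW (s w) w = 0)
    (u : U) (z : W) : (rW S.ten s * b * (rW S.ten s)⁻¹ * b⁻¹) (t u z) =
      t u z + polar QW (s w) z • t (ζ (α⁻¹ u)) (s w) - polar QW w z • t (ζ (α⁻¹ u)) w := by
  have hsi : ∀ y, s (s⁻¹ y) = y := fun y => LinearEquiv.apply_symm_apply s y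
  have hαi : ∀ y, α (α⁻¹ y) = y := fun y => LinearEquiv.apply_symm_apply α y
  have hHi : ∀ u z, (rW S.ten s)⁻¹ (t u z) = t u (s⁻¹ z) := fun u z => by rw [← map_inv, rW_apply]
  have hpol : ∀ z, polar QW w (s⁻¹ z) = polar QW (s w) z := by
    intro z
    have h1 := polar_map hs w (s⁻¹ z)
    rw [hsi] at h1
    exact h1.symm
  have hi := isB_inv S hw h u z
  show rW S.ten s (b ((rW S.ten s)⁻¹ (b⁻¹ (t u z)))) = _
  rw [hi]
  simp only [LinearMap.neg_apply, Module.End.mul_apply, LinearEquiv.coe_coe, map_neg, LinearMap.smul_apply,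
    map_add, map_smul, hHi, smul_neg]
  rw [h, h, hpol, hpol, hsw, zero_smul, add_zero, hαi, hαi]
  simp only [map_add, map_smul, map_neg, rW_apply, hsi, LinearMap.neg_apply, smul_neg]
  abel

/-- the central part vanishes, in dimension at least five -/
theorem zeta_eq_zero (S : TSt t QU QW Q) {X : Subgroup (V ≃ₗ[F] V)} {w w' y : W} (hyp : Hyp QW w w')
    (hy : QW y = 0) (hyw : polar QW y w = 0) (hyw' : polar QW y w' = 0)
    (hZ : ∀ κ, InZ t QW X y κ → κ = 0)
    (hX : ∀ (x : W) (hx : polar QW y x = 0), rW S.ten (siegel QW y x hy hx) ∈ X) {b : V ≃ₗ[F] V}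
    (hb : b ∈ X) {α : U ≃ₗ[F] U} {ζ : Module.End F U} (h : IsB t QW w b α ζ) : ζ = 0 := by
  have hnw' : polar QW y (-w') = 0 := by rw [polar_neg_right, hyw', neg_zero]
  have hwy : polar QW w y = 0 := by rw [polar_comm]; exact hyw
  set s1 := siegel QW y w' hy hyw' with hs1
  set s2 := siegel QW y (-w') hy hnw' with hs2
  have e1 : s1 w = w - y := by
    rw [hs1, siegel_apply, hyw, hyp.pair', hyp.right]
    module
  have e2 : s2 w = w + y := by
    rw [hs2, siegel_apply, hyw, polar_neg_left, hyp.pair', QuadraticMap.map_neg, hyp.right]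
    module
  have p1 : polar QW (s1 w) w = 0 := by
    rw [e1, polar_sub_left, hyp.polar_left, hyw, sub_zero]
  have p2 : polar QW (s2 w) w = 0 := by
    rw [e2, polar_add_left, hyp.polar_left, hyw, add_zero]
  have c1 := conj_isB S hyp.left h (siegel_mem_O hy hyw') p1
  have c2 := conj_isB S hyp.left h (siegel_mem_O hy hnw') p2
  set g1 := rW S.ten s1 * b * (rW S.ten s1)⁻¹ * b⁻¹ with hg1
  set g2 := rW S.ten s2 * b * (rW S.ten s2)⁻¹ * b⁻¹ with hg2
  have m1 : g1 ∈ X := X.mul_mem (X.mul_mem (X.mul_mem (hX _ _) hb) (X.inv_mem (hX _ _))) (X.inv_mem hb)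
  have m2 : g2 ∈ X := X.mul_mem (X.mul_mem (X.mul_mem (hX _ _) hb) (X.inv_mem (hX _ _))) (X.inv_mem hb)
  rw [← hs1, e1] at c1
  rw [← hs2, e2] at c2
  have hyy : polar QW y y = 0 := polar_self_of_sing hy
  have key : InZ t QW X y ((2 : F) • (ζ * ((α⁻¹ : U ≃ₗ[F] U) : Module.End F U))) := by
    refine ⟨g1 * g2, X.mul_mem m1 m2, fun u z => ?_⟩
    rw [LinearEquiv.mul_apply, c2, map_sub, map_add, map_smul, map_smul, c1, c1, c1]
    simp only [polar_sub_left, polar_add_left, polar_sub_right, polar_add_right, hyp.polar_left, hyw, hwy, hyy,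
      LinearMap.smul_apply, Module.End.mul_apply, LinearEquiv.coe_coe, map_sub, map_add, map_smul]
    module
  have h2 := (smul_eq_zero.1 (hZ _ key)).resolve_left S.two
  have hαi' : ∀ y, α⁻¹ (α y) = y := fun y => LinearEquiv.symm_apply_apply α y
  refine LinearMap.ext fun u => ?_
  have h5 := LinearMap.congr_fun h2 (α u)
  rw [Module.End.mul_apply, LinearEquiv.coe_coe, hαi'] at h5
  exact h5

end gen

variable {F : Type*} [Field F] {κ : Type*} [Fintype κ] [DecidableEq κ] {ι : Type*} [Fintype ι] [DecidableEq ι]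

theorem zp_gen [Finite F] {q : QuadraticForm F (κ → F)} (H : Hyp7 q)
    (hk : 7 ≤ Nat.card F ∨ 5 ≤ Fintype.card κ) (ht : 2 ≤ Fintype.card ι)
    {M : Subgroup (((ι → κ) → F) ≃ₗ[F] ((ι → κ) → F))} (hM : Over q M) (hT : Thin q M) : ZP q M := by
  intro j w hw0 hw b hb α ζ _ hB
  have hG := H.good ht
  have S := tst (ι := ι) H.two H.nd j
  obtain ⟨w', hyp⟩ := LieClassical.OrthTrans.exists_hyp H.nd hw hw0
  rcases hk with h7 | hk
  · obtain ⟨a, ha0, ha⟩ := exists_four_ne h7
    obtain ⟨h, hh, hO, h1, -, -⟩ := exists_torus hyp ha0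
    have hm : rW S.ten h ∈ M := by
      have := hM.2 _ (slE_comm_mem_E H.two hG j hh) (slE_isMono _ _)
      rwa [slE_eq_rW] at this
    exact zeta_torus S hw (fun δ hδ => hT.inZ H.two H.nd j hw hw0 hδ) hb hB hm hO ha h1
  · have hGq : Good q := good_of_finite H.nd (by rw [Module.finrank_fintype_fun_eq_card]; exact hk)
    obtain ⟨y, y', hyp2, q1, q2, q3, q4⟩ := hGq.exists_hyp2 hyp
    exact zeta_eq_zero S hyp hyp2.left (by rw [polar_comm]; exact q1) (by rw [polar_comm]; exact q3)
      (fun δ hδ => hT.inZ H.two H.nd j hyp2.left hyp2.left_ne hδ)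
      (fun x hx => by
        have := hM.siegel_mem H.two hG j hyp2.left hx
        rwa [slE_eq_rW] at this) hb hB

end Cfsg.Agent.H804.C7
end

-- part: H804/C7/SlComm
section
/-!
# Slot Siegel elements are commutators in the slot groups of an overgroup (helper804, task 1912)
-/

set_option autoImplicit false
set_option linter.unusedSectionVars false

namespace Cfsg.Agent.H804.C7

open QuadraticMap hiding proj
open Cfsg.Agent.LieClassical.OrthCore Cfsg.Agent.LieClassical.OrthTrans
open Cfsg.Agent.H882.Ten Cfsg.Agent.LieClassical.OrthFinite Cfsg.Agent.H883.C7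
open scoped commutatorElement

section gen

variable {F : Type*} {V : Type*} [Field F] [AddCommGroup V] [Module F V] {Q : QuadraticForm F V}

/-- Expansion in dimension 4. -/
theorem expand4 (hd : Module.finrank F V = 4) {u u' v w : V} (hyp : Hyp Q u u') (h1 : polar Q u v = 0)
    (h2 : polar Q u' v = 0) (h3 : polar Q u w = 0) (h4 : polar Q u' w = 0) (h5 : polar Q v w = 0)
    (hv : polar Q v v ≠ 0) (hw : polar Q w w ≠ 0) (p : V) :
    p = polar Q u' p • u + polar Q u p • u' + ((polar Q v v)⁻¹ * polar Q v p) • v +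
      ((polar Q w w)⁻¹ * polar Q w p) • w := by
  have hli : LinearIndependent F ![u, u', v, w] := by
    rw [Fintype.linearIndependent_iff]
    intro c hc
    rw [Fin.sum_univ_four] at hc
    have hc' : c 0 • u + c 1 • u' + c 2 • v + c 3 • w = 0 := hc
    have e1 := congrArg (polar Q u) hc'
    have e2 := congrArg (polar Q u') hc'
    have e3 := congrArg (polar Q v) hc'
    have e4 := congrArg (polar Q w) hc'
    simp only [polar_add_right, polar_smul_right, hyp.polar_left, hyp.pair, hyp.pair', hyp.polar_right, h1, h2,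
      h3, h4, h5, polar_comm Q v u, polar_comm Q v u', polar_comm Q w u, polar_comm Q w u', polar_comm Q w v,
      polar_zero_right, smul_eq_mul, mul_zero, mul_one, zero_add, add_zero] at e1 e2 e3 e4
    have e5 : c 2 = 0 := (mul_eq_zero.1 e3).resolve_right hv
    have e6 : c 3 = 0 := (mul_eq_zero.1 e4).resolve_right hw
    intro i
    fin_cases i
    · exact e2
    · exact e1
    · exact e5
    · exact e6
  have hsp := hli.span_eq_top_of_card_eq_finrank (by simp [hd])
  have hp : p ∈ Submodule.span F (Set.range ![u, u', v, w]) := by rw [hsp]; trivial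
  rw [Submodule.mem_span_range_iff_exists_fun] at hp
  obtain ⟨c, hc⟩ := hp
  rw [Fin.sum_univ_four] at hc
  have hc' : c 0 • u + c 1 • u' + c 2 • v + c 3 • w = p := hc
  have e1 := congrArg (polar Q u) hc'
  have e2 := congrArg (polar Q u') hc'
  have e3 := congrArg (polar Q v) hc'
  have e4 := congrArg (polar Q w) hc'
  simp only [polar_add_right, polar_smul_right, hyp.polar_left, hyp.pair, hyp.pair', hyp.polar_right, h1, h2,
    h3, h4, h5, polar_comm Q v u, polar_comm Q v u', polar_comm Q w u, polar_comm Q w u', polar_comm Q w v,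
    smul_eq_mul, mul_zero, mul_one, zero_add, add_zero] at e1 e2 e3 e4
  rw [← e1, ← e2, ← e3, ← e4, ← hc']
  congr 2
  · congr 1
    field_simp
  · field_simp

theorem siegel_smul_smul {u z : V} (hu : Q u = 0) (a b : F)
    (hau : Q (a • u) = 0) (hab : polar Q (a • u) (b • z) = 0) (hc : polar Q u ((a * b) • z) = 0) :
    siegel Q (a • u) (b • z) hau hab = siegel Q u ((a * b) • z) hu hc := by
  ext v
  rw [siegel_apply, siegel_apply, QuadraticMap.map_smul, QuadraticMap.map_smul, polar_smul_left, polar_smul_left,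
    polar_smul_left]
  simp only [smul_eq_mul]
  module

theorem siegel_add_smul {u z : V} (hu : Q u = 0) (hz : polar Q u z = 0) (a : F)
    (hz' : polar Q u (z + a • u) = 0) : siegel Q u (z + a • u) hu hz' = siegel Q u z hu hz := by
  have h : polar Q z u = 0 := by rw [polar_comm]; exact hz
  ext v
  rw [siegel_apply, siegel_apply, Q_add, QuadraticMap.map_smul, hu, polar_smul_right, h, polar_add_left,
    polar_smul_left]
  simp only [smul_eq_mul]
  module

/-- the commutator of an eigenelement with a Siegel element -/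
theorem comm_siegel {h : V ≃ₗ[F] V} (hO : h ∈ O Q) {u z : V} (hu : Q u = 0) (hz : polar Q u z = 0) {a b : F}
    (hhu : h u = a • u) (hhz : h z = b • z) (hz' : polar Q u ((a * b - 1) • z) = 0) :
    h * siegel Q u z hu hz * h⁻¹ * (siegel Q u z hu hz)⁻¹ = siegel Q u ((a * b - 1) • z) hu hz' := by
  have e1 : Q (h u) = 0 := by rw [mem_O.1 hO]; exact hu
  have e2 : polar Q (h u) (h z) = 0 := by rw [polar_map hO]; exact hz
  have e3 : polar Q u ((a * b) • z) = 0 := by rw [polar_smul_right, hz, smul_zero]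
  have e4 : polar Q u (-z) = 0 := by rw [polar_neg_right, hz, neg_zero]
  have e5 : polar Q u ((a * b) • z + -z) = 0 := by rw [polar_add_right, e3, e4, add_zero]
  have e6 : Q (a • u) = 0 := by rw [← hhu]; exact e1
  have e7 : polar Q (a • u) (b • z) = 0 := by rw [← hhu, ← hhz]; exact e2
  rw [siegel_conj hO hu hz e1 e2, siegel_inv hu hz e4]
  have h1 : siegel Q (h u) (h z) e1 e2 = siegel Q u ((a * b) • z) hu e3 := by
    rw [← siegel_smul_smul hu a b e6 e7 e3]
    ext v
    rw [siegel_apply, siegel_apply, hhu, hhz]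
  rw [h1, siegel_mul hu e3 e4 e5]
  ext v
  rw [siegel_apply, siegel_apply]
  have : (a * b) • z + -z = (a * b - 1) • z := by module
  rw [this]

/-- products of two reflections in orthogonal vectors of the same norm are commutators -/
theorem refl_mul_refl_mem (h2 : (2 : F) ≠ 0) {x y : V} (hx : Q x ≠ 0) (hy : Q y ≠ 0) (h : Q x = Q y)
    (hxy : polar Q x y = 0) : refl Q x hx * refl Q y hy ∈ ⁅O Q, O Q⁆ := by
  have hd : Q (y - x) ≠ 0 := by
    rw [sub_eq_add_neg, Q_add, QuadraticMap.map_neg, polar_neg_right, polar_comm, hxy, neg_zero, add_zero, h,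
      ← two_mul]
    exact mul_ne_zero h2 hy
  have h1 : refl Q (y - x) hd x = y := by
    have h0 := refl_sub_apply h hd
    have h00 := LinearEquiv.congr_fun (refl_mul_self hd) y
    have h01 : refl Q (y - x) hd (refl Q (y - x) hd y) = y := h00
    rwa [h0] at h01
  have h2 : refl Q y hy = refl Q (y - x) hd * refl Q x hx * (refl Q (y - x) hd)⁻¹ := by
    have h3 : Q (refl Q (y - x) hd x) ≠ 0 := by rw [h1]; exact hy
    rw [refl_conj (refl_mem_O hd) hx h3]
    ext v
    rw [refl_apply, refl_apply, h1]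
  rw [h2]
  have h4 : refl Q x hx * (refl Q (y - x) hd * refl Q x hx * (refl Q (y - x) hd)⁻¹) =
      ⁅refl Q x hx, refl Q (y - x) hd⁆ := by
    rw [commutatorElement_def, refl_inv hx]
    group
  rw [h4]
  exact Subgroup.commutator_mem_commutator (refl_mem_O hx) (refl_mem_O hd)

end gen

variable {F : Type*} [Field F] {κ : Type*} [Fintype κ] [DecidableEq κ] {ι : Type*} [Fintype ι] [DecidableEq ι]

/-- In a field with three elements the nonzero elements are `1` and `-1`. -/
theorem three_cases [Finite F] (h3 : Nat.card F = 3) {a b : F} (ha : a ≠ 0) (hb : b ≠ 0) : a = b ∨ a = -b := by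
  classical
  have : Fintype F := Fintype.ofFinite F
  have h1 : (a * b⁻¹) ^ (Fintype.card F - 1) = 1 := FiniteField.pow_card_sub_one_eq_one _ (mul_ne_zero ha (inv_ne_zero hb))
  rw [← Nat.card_eq_fintype_card, h3] at h1
  have h2 : (a - b) * (a + b) = 0 := by
    have e : a = a * b⁻¹ * b := by rw [mul_assoc, inv_mul_cancel₀ hb, mul_one]
    have h4 : a * a = b * b := by
      calc a * a = (a * b⁻¹) ^ 2 * (b * b) := by
            conv_lhs => rw [e]
            ring
        _ = b * b := by rw [h1, one_mul]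
    linear_combination h4
  rcases mul_eq_zero.1 h2 with h | h
  · exact Or.inl (sub_eq_zero.1 h)
  · exact Or.inr (eq_neg_of_add_eq_zero_left h)

theorem siegel_mem_comm [Finite F] {q : QuadraticForm F (κ → F)} (H : Hyp7 q) (ht : 2 ≤ Fintype.card ι)
    {M : Subgroup (((ι → κ) → F) ≃ₗ[F] ((ι → κ) → F))} (hM : Over q M) (l : ι) {u z : κ → F} (hu : q u = 0)
    (hz : polar q u z = 0) :
    slE l (siegel q u z hu hz) ∈
      ⁅M ⊓ (slE (F := F) (κ := κ) l).range, M ⊓ (slE (F := F) (κ := κ) l).range⁆ := by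
  have hG := H.good ht
  have hone : u = 0 → slE l (siegel q u z hu hz) ∈
      ⁅M ⊓ (slE (F := F) (κ := κ) l).range, M ⊓ (slE (F := F) (κ := κ) l).range⁆ := by
    intro h0
    have : siegel q u z hu hz = 1 := by
      ext v : 1
      rw [siegel_apply]
      subst h0
      simp
    rw [this, map_one]
    exact Subgroup.one_mem _
  by_cases hu0 : u = 0
  · exact hone hu0
  obtain ⟨u', hyp⟩ := LieClassical.OrthTrans.exists_hyp H.nd hu hu0
  -- reduction to an element of `O q`
  have main : ∀ (h : (κ → F) ≃ₗ[F] (κ → F)), h ∈ ⁅O q, O q⁆ → h ∈ O q → ∀ a b : F, a * b - 1 ≠ 0 → h u = a • u →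
      h (LieClassical.OrthTrans.proj q u u' z) = b • LieClassical.OrthTrans.proj q u u' z →
      slE l (siegel q u z hu hz) ∈
      ⁅M ⊓ (slE (F := F) (κ := κ) l).range, M ⊓ (slE (F := F) (κ := κ) l).range⁆ := by
    intro h hc hO a b hab hhu hhz
    set z0 := LieClassical.OrthTrans.proj q u u' z with hz0
    have e0 : polar q u z0 = 0 := polar_proj_left hyp z
    have e1 : z = z0 + polar q u' z • u := by
      rw [hz0, LieClassical.OrthTrans.proj, hz]; module
    have e2 : polar q u (z0 + polar q u' z • u) = 0 := by rw [← e1]; exact hz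
    have e3 : siegel q u z hu hz = siegel q u z0 hu e0 := by
      rw [← siegel_add_smul hu e0 (polar q u' z) e2]
      ext v : 1
      rw [siegel_apply, siegel_apply, ← e1]
    set z1 := (a * b - 1)⁻¹ • z0 with hz1
    have e4 : polar q u z1 = 0 := by rw [hz1, polar_smul_right, e0, smul_zero]
    have e5 : h z1 = b • z1 := by rw [hz1, map_smul, hhz, smul_comm]
    have e6 : (a * b - 1) • z1 = z0 := by rw [hz1, smul_smul, mul_inv_cancel₀ hab, one_smul]
    have e7 : polar q u ((a * b - 1) • z1) = 0 := by rw [e6]; exact e0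
    have e8 : siegel q u z0 hu e0 = h * siegel q u z1 hu e4 * h⁻¹ * (siegel q u z1 hu e4)⁻¹ := by
      rw [comm_siegel hO hu e4 hhu e5 e7]
      ext v : 1
      rw [siegel_apply, siegel_apply, e6]
    rw [e3, e8, map_mul, map_mul, map_mul, map_inv, map_inv, ← commutatorElement_def]
    refine Subgroup.commutator_mem_commutator ?_ ?_
    · exact ⟨hM.2 _ (slE_comm_mem_E H.two hG l hc) (slE_isMono _ _), h, rfl⟩
    · exact ⟨hM.siegel_mem H.two hG l hu e4, _, rfl⟩
  have hz0u : polar q u (LieClassical.OrthTrans.proj q u u' z) = 0 := polar_proj_left hyp z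
  have hz0u' : polar q u' (LieClassical.OrthTrans.proj q u u' z) = 0 := polar_proj_right hyp z
  by_cases h5 : 5 ≤ Nat.card F
  · obtain ⟨c, hc0, hc1⟩ := exists_sq_ne h5
    obtain ⟨h, hh, hO, h1, -, h3⟩ := exists_torus hyp hc0
    exact main h hh hO (c * c) 1 (by rw [mul_one]; exact sub_ne_zero.2 hc1) h1
      (by rw [one_smul]; exact h3 _ hz0u hz0u')
  -- `|F| = 3`
  have h3 : Nat.card F = 3 := by
    have : Fintype F := Fintype.ofFinite F
    have h1 : 2 < Nat.card F ∧ Nat.card F ≠ 4 := by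
      constructor
      · have hlt : 1 < Nat.card F := Finite.one_lt_card
        rcases Nat.lt_or_ge 2 (Nat.card F) with h | h
        · exact h
        exfalso
        have h2 : Nat.card F = 2 := by omega
        apply H.two
        have := FiniteField.cast_card_eq_zero F
        rw [← Nat.card_eq_fintype_card, h2] at this
        exact_mod_cast this
      · intro h4
        apply H.two
        have := FiniteField.cast_card_eq_zero F
        rw [← Nat.card_eq_fintype_card, h4] at this
        have h5 : (2 : F) * 2 = 0 := by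
          have e : ((4 : ℕ) : F) = 2 * 2 := by norm_num
          rw [← e]; exact this
        exact mul_self_eq_zero.1 h5
    omega
  rcases Nat.lt_or_ge (Fintype.card κ) 5 with hk | hk
  · -- `|κ| = 4`
    have hk4 : Fintype.card κ = 4 := by
      have := H.three
      rcases Nat.lt_or_ge (Fintype.card κ) 4 with h | h
      · have := H.five (by omega)
        omega
      · omega
    have hfour := H.four hk4
    obtain ⟨y1, a1, a2, a3⟩ := exists_nonsing_perp H.nd
      (by rw [Module.finrank_fintype_fun_eq_card]; exact H.three) hyp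
    obtain ⟨y2, b0, hb⟩ := exists_perp_ne (Q := q) ![u, u', y1]
      (by rw [Module.finrank_fintype_fun_eq_card, hk4]; norm_num)
    have b1 : polar q u y2 = 0 := hb 0
    have b2 : polar q u' y2 = 0 := hb 1
    have b3 : polar q y1 y2 = 0 := hb 2
    have hani : ∀ y, polar q u y = 0 → polar q u' y = 0 → q y = 0 → y = 0 := by
      intro y c1 c2 c3
      obtain ⟨c, hc⟩ := hfour u y hu0 hu c3 c1
      rw [hc, polar_smul_right, hyp.pair', smul_eq_mul, mul_one] at c2
      rw [hc, c2, zero_smul]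
    have b4 : q y2 ≠ 0 := fun h => b0 (hani y2 b1 b2 h)
    have heq : q y1 = q y2 := by
      rcases three_cases h3 a3 b4 with h | h
      · exact h
      · exfalso
        have h5 : y1 + y2 = 0 := hani _ (by rw [polar_add_right, a1, b1, add_zero])
          (by rw [polar_add_right, a2, b2, add_zero]) (by rw [Q_add, b3, h]; ring)
        have h6 : y1 = -y2 := eq_neg_of_add_eq_zero_left h5
        rw [h6, polar_neg_left, polar_self'] at b3
        exact mul_ne_zero H.two b4 (neg_eq_zero.1 b3)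
    have p1 : polar q y1 y1 ≠ 0 := by rw [polar_self']; exact mul_ne_zero H.two a3
    have p2 : polar q y2 y2 ≠ 0 := by rw [polar_self']; exact mul_ne_zero H.two b4
    refine main (refl q y1 a3 * refl q y2 b4) (refl_mul_refl_mem H.two a3 b4 heq b3)
      ((O q).mul_mem (refl_mem_O a3) (refl_mem_O b4)) 1 (-1) ?_ ?_ ?_
    · intro h
      apply H.two
      linear_combination -h
    · show refl q y1 a3 (refl q y2 b4 u) = _
      rw [refl_apply b4, polar_comm q y2 u, b1, mul_zero, zero_smul, sub_zero, refl_apply a3,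
        polar_comm q y1 u, a1, mul_zero, zero_smul, sub_zero, one_smul]
    · have h7 := expand4 (by rw [Module.finrank_fintype_fun_eq_card]; exact hk4) hyp a1 a2 b1 b2 b3 p1 p2
        (LieClassical.OrthTrans.proj q u u' z)
      rw [hz0u, hz0u', zero_smul, zero_smul, zero_add, zero_add] at h7
      have r1 : refl q y1 a3 y1 = -y1 := by
        rw [refl_apply, polar_self', ← mul_assoc, mul_comm _ (2 : F), mul_assoc, inv_mul_cancel₀ a3]
        module
      have r2 : refl q y2 b4 y2 = -y2 := by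
        rw [refl_apply, polar_self', ← mul_assoc, mul_comm _ (2 : F), mul_assoc, inv_mul_cancel₀ b4]
        module
      have r3 : refl q y1 a3 y2 = y2 := by
        rw [refl_apply, b3, mul_zero, zero_smul, sub_zero]
      have r4 : refl q y2 b4 y1 = y1 := by
        rw [refl_apply, polar_comm, b3, mul_zero, zero_smul, sub_zero]
      rw [h7]
      show refl q y1 a3 (refl q y2 b4 _) = _
      rw [map_add, map_smul, map_smul, r4, r2, map_add, map_smul, map_smul, map_neg, r1, r3]
      module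
  · have hGq : Good q := good_of_finite H.nd (by rw [Module.finrank_fintype_fun_eq_card]; exact hk)
    have h1 : siegel q u z hu hz ∈ ⁅E q, E q⁆ := by
      rw [hGq.E_perfect]
      exact siegel_mem_E hu hz
    have h2 : (⁅E q, E q⁆).map (slE (F := F) (κ := κ) l) ≤
        ⁅M ⊓ (slE (F := F) (κ := κ) l).range, M ⊓ (slE (F := F) (κ := κ) l).range⁆ := by
      rw [Subgroup.map_commutator]
      refine Subgroup.commutator_mono ?_ ?_ <;>
      · rintro _ ⟨x, hx, rfl⟩
        exact ⟨hM.slE_mem H.two hG l hx, x, rfl⟩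
    exact h2 ⟨_, h1, rfl⟩

end Cfsg.Agent.H804.C7
end

-- part: H742/C7/Scal
section
/-!
# The parameters of the elements of `M` commuting with a Siegel group are scalar (task 1910; S5684, S5708)
-/

set_option autoImplicit false
set_option linter.unusedSectionVars false

namespace Cfsg.Agent.H742.C7

open QuadraticMap hiding proj
open Cfsg.Agent.LieClassical.OrthCore Cfsg.Agent.LieClassical.OrthTrans
open Cfsg.Agent.H882.Ten Cfsg.Agent.LieClassical.OrthFinite Cfsg.Agent.H883.C7

variable {F : Type*} [Field F] {κ : Type*} [Fintype κ] [DecidableEq κ] {ι : Type*} [Fintype ι] [DecidableEq ι]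

theorem radW {q : QuadraticForm F (κ → F)} (h2 : (2 : F) ≠ 0) (hq : Nondeg q)
    {M : Subgroup (((ι → κ) → F) ≃ₗ[F] ((ι → κ) → F))} (hrad : RadP q M) (j : ι) {w : κ → F} (hw0 : w ≠ 0)
    (hw : q w = 0) : ∀ g ∈ M, ∀ τ, IsR (ten F κ j) q w g τ → ∃ (x : κ → F) (hx : polar q w x = 0),
      g = rW (tst (ι := ι) h2 hq j).ten (siegel q w x hw hx) := by
  intro g hg τ hτ
  obtain ⟨x, hx, h⟩ := hrad j w hw hw0 g hg τ hτ
  exact ⟨x, hx, by rw [h, slE_eq_rW]⟩

theorem sp_three [Finite F] {q : QuadraticForm F (κ → F)} (H : Hyp7 q) (hk : Fintype.card κ = 3)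
    (ht : 2 ≤ Fintype.card ι) {M : Subgroup (((ι → κ) → F) ≃ₗ[F] ((ι → κ) → F))} (hM : Over q M)
    (hrad : RadP q M) : SP q M := by
  intro j w hw0 hw c hc α r τ hcr hr z hz
  have S := tst (ι := ι) H.two H.nd j
  have hG := H.good ht
  obtain ⟨w', hyp⟩ := LieClassical.OrthTrans.exists_hyp H.nd hw hw0
  obtain ⟨z0, hz1, hz2, hz3⟩ := H882.Ten.exists_nonsing_perp H.nd
    (by rw [Module.finrank_fintype_fun_eq_card, hk]) hyp
  have hz4 : polar q z0 z0 ≠ 0 := by rw [polar_self']; exact mul_ne_zero H.two hz3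
  have hexp : z = polar q w' z • w + ((polar q z0 z0)⁻¹ * polar q z0 z) • z0 := by
    have := expand3 (by rw [Module.finrank_fintype_fun_eq_card, hk]) hyp hz1 hz2 hz4 z
    rw [hz, zero_smul, add_zero] at this
    exact this
  obtain ⟨c0, hc0, hc1⟩ := exists_sq_ne (H.five hk)
  obtain ⟨h, hcomm, hO, h1, h2, h3⟩ := exists_torus hyp hc0
  have hhM : rW S.ten h ∈ M := by
    have := hM.2 _ (slE_comm_mem_E H.two hG j hcomm) (slE_isMono _ _)
    rwa [slE_eq_rW] at this
  obtain ⟨a, ha⟩ := theta_scalar S hw hw0 (radW H.two H.nd hrad j hw0 hw) hc hcr hr hhM hO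
    (mul_ne_zero hc0 hc0) h1 z0 hz1
  have hinv : h⁻¹ z0 = z0 := by
    have h4 : h⁻¹ (h z0) = z0 := LinearEquiv.symm_apply_apply h z0
    rwa [h3 z0 hz1 hz2] at h4
  rw [hinv] at ha
  have hne : 1 - c0 * c0 ≠ 0 := fun h => hc1 (by linear_combination -h)
  have hτ : ∀ u, τ z0 u = ((1 - c0 * c0)⁻¹ * a) • u := by
    intro u
    have h5 : (1 - c0 * c0) • τ z0 u = a • u := by
      rw [← ha u]
      module
    rw [← smul_smul, ← h5, smul_smul, inv_mul_cancel₀ hne, one_smul]
  refine ⟨(polar q z0 z0)⁻¹ * polar q z0 z * ((1 - c0 * c0)⁻¹ * a), fun u => ?_⟩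
  conv_lhs => rw [hexp]
  rw [map_add, map_smul, map_smul, LinearMap.add_apply, LinearMap.smul_apply, S.tau_self hw hw0 hr,
    LinearMap.smul_apply, hτ]
  module

/-- A nonsingular vector orthogonal to a hyperbolic plane `⟨y0, y0'⟩` and to `w ⊥ y0, y0'`. -/
theorem exists_z1 {q : QuadraticForm F (κ → F)} (hq : Nondeg q) (hd : 5 ≤ Fintype.card κ) {w : κ → F}
    (hw : q w = 0) (hw0 : w ≠ 0) {y0 : κ → F} (hy0 : q y0 = 0) (hwy0 : polar q w y0 = 0)
    (hmul : ∀ c : F, y0 ≠ c • w) : ∃ z1, polar q y0 z1 = 0 ∧ polar q w z1 = 0 ∧ q z1 ≠ 0 := by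
  obtain ⟨y, hy1, hy2⟩ := exists_sep hq hmul
  have hyp0 : Hyp q y0 (y + (-q y) • y0) := by
    refine ⟨hy0, ?_, ?_⟩
    · rw [Q_add, QuadraticMap.map_smul, hy0, polar_smul_right, polar_comm q y y0, hy2]
      simp
    · rw [polar_add_right, polar_smul_right, polar_self_of_sing hy0, hy2]
      simp
  set y0' := y + (-q y) • y0 with hy0'
  have hwy0' : polar q w y0' = 0 := by
    rw [hy0', polar_add_right, polar_smul_right, hy1, hwy0]; simp
  obtain ⟨w'', hyp1, hw1, hw2⟩ := exists_hyp_perp hq hyp0 hw hw0 (by rw [polar_comm]; exact hwy0)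
    (by rw [polar_comm]; exact hwy0')
  obtain ⟨a, c, ⟨a1, a2, a3, -⟩, ⟨c1, c2, c3, -⟩, hac⟩ := exists_perp4 hq
    (by rw [Module.finrank_fintype_fun_eq_card]; exact hd) hyp0 hyp1
    (by rw [polar_comm]; exact hwy0) hw1 (by rw [polar_comm]; exact hwy0') hw2
  rcases exists_nonsing hac with h | h | h
  · exact ⟨a, a1, a3, h⟩
  · exact ⟨c, c1, c3, h⟩
  · exact ⟨a + c, by rw [polar_add_right, a1, c1, add_zero], by rw [polar_add_right, a3, c3, add_zero], h⟩

theorem sp_five [Finite F] {q : QuadraticForm F (κ → F)} (H : Hyp7 q) (hk : 5 ≤ Fintype.card κ)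
    (ht : 2 ≤ Fintype.card ι) {M : Subgroup (((ι → κ) → F) ≃ₗ[F] ((ι → κ) → F))} (hM : Over q M)
    (hrad : RadP q M) : SP q M := by
  intro j w hw0 hw c hc α r τ hcr hr z hz
  have S := tst (ι := ι) H.two H.nd j
  have hG := H.good ht
  have hGq : Good q := LieClassical.OrthFinite.good_of_finite H.nd
    (by rw [Module.finrank_fintype_fun_eq_card]; exact hk)
  obtain ⟨w', hyp⟩ := LieClassical.OrthTrans.exists_hyp H.nd hw hw0
  -- singular vectors
  have hsing : ∀ y0, q y0 = 0 → polar q w y0 = 0 → ∃ c : F, ∀ u, τ y0 u = c • u := by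
    intro y0 hy0 hwy0
    by_cases hmul : ∃ c : F, y0 = c • w
    · obtain ⟨c, rfl⟩ := hmul
      refine ⟨0, fun u => ?_⟩
      rw [map_smul, LinearMap.smul_apply, S.tau_self hw hw0 hr]
      simp
    push Not at hmul
    obtain ⟨z1, hz1, hz3, hz4⟩ := exists_z1 H.nd hk hw hw0 hy0 hwy0 hmul
    have hy0w : polar q y0 w = 0 := by rw [polar_comm]; exact hwy0
    have hz1w : polar q z1 w = 0 := by rw [polar_comm]; exact hz3
    have hhM : rW S.ten (siegel q y0 z1 hy0 hz1) ∈ M := by
      have := hM.siegel_mem H.two hG j hy0 hz1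
      rwa [slE_eq_rW] at this
    have hhw : siegel q y0 z1 hy0 hz1 w = (1 : F) • w := by
      rw [siegel_apply, hy0w, hz1w]; simp
    obtain ⟨a, ha⟩ := theta_scalar S hw hw0 (radW H.two H.nd hrad j hw0 hw) hc hcr hr hhM
      (siegel_mem_O hy0 hz1) one_ne_zero hhw z1 hz3
    have hinv : (siegel q y0 z1 hy0 hz1)⁻¹ z1 = z1 + (2 * q z1) • y0 := by
      rw [siegel_inv_apply hy0 hz1, hz1, polar_self' z1]
      module
    rw [hinv] at ha
    have hn : (-(2 * q z1)) ≠ 0 := neg_ne_zero.2 (mul_ne_zero H.two hz4)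
    refine ⟨(-(2 * q z1))⁻¹ * a, fun u => ?_⟩
    have h5 : (-(2 * q z1)) • τ y0 u = a • u := by
      rw [← ha u, map_add, map_smul, LinearMap.add_apply, LinearMap.smul_apply]
      module
    rw [← smul_smul, ← h5, smul_smul, inv_mul_cancel₀ hn, one_smul]
  obtain ⟨z0, z0', hyp2, q1, q2, q3, q4⟩ := hGq.exists_hyp2 hyp
  have hperp : ∀ v, polar q w v = 0 → polar q w' v = 0 → ∃ c : F, ∀ u, τ v u = c • u := by
    intro v
    refine sing_induction_perp hyp2 q1 q2 q3 q4 (P := fun v => ∃ c : F, ∀ u, τ v u = c • u) ?_ ?_ v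
    · rintro a c _ _ _ _ ⟨c1, h1⟩ ⟨c2, h2⟩
      refine ⟨c1 + c2, fun u => ?_⟩
      rw [map_add, LinearMap.add_apply, h1, h2, add_smul]
    · intro a ha ha1 _
      exact hsing a ha ha1
  have e : z = LieClassical.OrthTrans.proj q w w' z + polar q w' z • w := by
    rw [LieClassical.OrthTrans.proj, hz]; module
  obtain ⟨c, hc⟩ := hperp _ (polar_proj_left hyp z) (polar_proj_right hyp z)
  refine ⟨c, fun u => ?_⟩
  rw [e, map_add, map_smul, LinearMap.add_apply, LinearMap.smul_apply, hc, S.tau_self hw hw0 hr]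
  simp

end Cfsg.Agent.H742.C7
end

-- part: H829/C7/Wrap
section
/-!
# From the coordinate-free theorem on tensor powers of orthogonal spaces to S5684 and S5708 (helper829, task 1606)

* `wrap` : maximality of the tensor wreath subgroup from the properness `hprop` and the main theorem `hmain`;
* `four_of_minus` : a nondegenerate quadratic form in four variables which is not of plus type has Witt index `≤ 1`;
* `s5684_of`, `s5708_of` : the two statements.
-/

set_option autoImplicit false
set_option linter.unusedSectionVars false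

namespace Cfsg.Agent.H829.C7

open QuadraticMap hiding proj
open Cfsg.Agent.LieClassical.OrthCore Cfsg.Agent.LieClassical.OrthTrans Cfsg.Agent.LieClassical.OrthFinite
open Cfsg.Agent.H883.C7 Cfsg.Geo
open scoped MatrixGroups Matrix

theorem two_ne_zero_of_odd {F : Type*} [Field F] [Fintype F] (hodd : Odd (Fintype.card F)) : (2 : F) ≠ 0 := by
  intro h
  have h1 : ringChar F = 2 := CharP.ringChar_of_prime_eq_zero Nat.prime_two (by exact_mod_cast h)
  have h2 := FiniteField.even_card_of_char_two h1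
  rw [Nat.odd_iff] at hodd
  omega

section

variable {F : Type*} [Field F] {k t : ℕ}

/-- The quadratic form with polar form `f₁`. -/
theorem exists_q (h2 : (2 : F) ≠ 0) {f₁ : (Fin k → F) → (Fin k → F) → F} (hf₁ : IsSymmetricForm f₁) :
    ∃ q : QuadraticForm F (Fin k → F), (∀ x y, polar q x y = f₁ x y) ∧ Nondeg q ∧ ∀ x, f₁ x x = 2 * q x := by
  have hb := hf₁.bilinear
  let B : LinearMap.BilinMap F (Fin k → F) F :=
    LinearMap.mk₂ F f₁ (fun x y v => hb.add_left x y v) (fun c x v => by rw [hb.smul_left, smul_eq_mul])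
      (fun v x y => hb.add_right v x y) (fun c v x => by rw [hb.smul_right, smul_eq_mul])
  have hB : ∀ x y, B x y = f₁ x y := fun x y => rfl
  have hq : ∀ x y, polar (((2 : F)⁻¹ • B).toQuadraticMap) x y = f₁ x y := by
    intro x y
    rw [LinearMap.BilinMap.polar_toQuadraticMap, LinearMap.smul_apply, LinearMap.smul_apply,
      LinearMap.smul_apply, LinearMap.smul_apply, hB, hB, hf₁.symm y x, smul_eq_mul, ← mul_add, ← two_mul,
      ← mul_assoc, inv_mul_cancel₀ h2, one_mul]
  refine ⟨((2 : F)⁻¹ • B).toQuadraticMap, hq, ?_, ?_⟩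
  · intro x hx
    by_contra h0
    obtain ⟨-, ⟨y, hy⟩⟩ := hf₁.nondegenerate x h0
    exact hy (by rw [← hq]; exact hx y)
  · intro x
    rw [LinearMap.BilinMap.toQuadraticMap_apply, LinearMap.smul_apply, LinearMap.smul_apply, hB, smul_eq_mul,
      ← mul_assoc, mul_inv_cancel₀ h2, one_mul]

/-- The transported form is a multiple of the tensor power. -/
theorem pull_eq (h2 : (2 : F) ≠ 0) {n : Type} [Fintype n] [DecidableEq n] {Q : (n → F) → F}
    (hQ : IsNondegenerateQuadraticForm Q) (e : n ≃ (Fin t → Fin k)) (P : Matrix.GeneralLinearGroup n F)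
    (f₁ : (Fin k → F) → (Fin k → F) → F) (hf₁ : IsSymmetricForm f₁)
    (hT : IsTensorPowerFormStructure id (QuadraticMap.polar Q) f₁ e P) {q : QuadraticForm F (Fin k → F)}
    (hq : ∀ x y, polar q x y = f₁ x y) :
    ∃ c : F, c ≠ 0 ∧ ∀ x, Cfsg.Agent.H889.pullForm e P Q x = c * QT q (Fin t) x := by
  obtain ⟨Q', rfl, -⟩ := Cfsg.Agent.H883.Bridge.exists_quadraticForm hQ
  obtain ⟨c, hc, h⟩ := Cfsg.Agent.H889.polar_pullForm_tp e P Q' f₁ hf₁.bilinear hT
  let L : ((Fin t → Fin k) → F) →ₗ[F] (n → F) :=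
    (Matrix.toLin' (P : Matrix n n F)) ∘ₗ (LinearMap.funLeft F F e)
  have hL : ∀ x, (Q'.comp L) x = Cfsg.Agent.H889.pullForm e P Q' x := fun x => rfl
  have hpol : polarBilin (Q'.comp L) = polarBilin (c • QT q (Fin t)) := by
    refine tp_ext2 fun x y => ?_
    rw [polarBilin_apply_apply, polarBilin_apply_apply]
    have e1 : polar (Q'.comp L) (tp x) (tp y) = c * ∏ i, f₁ (x i) (y i) := h x y
    have e2 : polar (c • QT q (Fin t)) (tp x) (tp y) = c * polar (QT q (Fin t)) (tp x) (tp y) := by
      simp only [polar, _root_.smul_apply, smul_eq_mul]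
      ring
    rw [e1, e2, polar_tp h2]
    congr 1
    exact Finset.prod_congr rfl fun i _ => (hq _ _).symm
  have h3 := QuadraticMap.polarBilin_injective (isUnit_iff_ne_zero.2 h2) hpol
  refine ⟨c, hc, fun x => ?_⟩
  rw [← hL, h3, _root_.smul_apply, smul_eq_mul]

/-- Proportional forms have the same `Ω`. -/
theorem omegaGL_congr {κ : Type} [Fintype κ] [DecidableEq κ] {Q Q' : (κ → F) → F} {c : F} (hc : c ≠ 0)
    (h : ∀ x, Q x = c * Q' x) : omegaGL Q = omegaGL Q' := by
  have h1 : Cfsg.isometryGroup F Q = Cfsg.isometryGroup F Q' := by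
    ext g
    rw [mem_isometryGroup_iff, mem_isometryGroup_iff]
    refine forall_congr' fun v => ?_
    rw [h, h]
    exact ⟨fun h => mul_left_cancel₀ hc h, fun h => by rw [h]⟩
  rw [Cfsg.Agent.H889.omegaGL_eq_commutator, Cfsg.Agent.H889.omegaGL_eq_commutator, h1]

end

/-- **From the coordinate-free main theorem to the statement.** -/
theorem wrap {F : Type*} [Field F] [Fintype F] {n : Type} [Fintype n] [DecidableEq n] {Q : (n → F) → F}
    (hQ : Cfsg.Geo.IsNondegenerateQuadraticForm Q) (hn : 13 ≤ Fintype.card n) (hodd : Odd (Fintype.card F)) {k t : ℕ}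
    (hk : 3 ≤ k) (ht : 2 ≤ t) (e : n ≃ (Fin t → Fin k)) (P : Matrix.GeneralLinearGroup n F)
    (f₁ : (Fin k → F) → (Fin k → F) → F) (hf₁ : Cfsg.Geo.IsSymmetricForm f₁)
    (hT : Cfsg.Geo.IsTensorPowerFormStructure id (QuadraticMap.polar Q) f₁ e P)
    (hprop : ∀ q : QuadraticForm F (Fin k → F), (∀ x y, QuadraticMap.polar q x y = f₁ x y) → Nondeg q →
      ∃ g ∈ E (QT q (Fin t)), ¬ ∀ i, ∃ j, Carries g i j)
    (hmain : ∀ q : QuadraticForm F (Fin k → F), (∀ x y, QuadraticMap.polar q x y = f₁ x y) → Nondeg q →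
      ∀ M : Subgroup (((Fin t → Fin k) → F) ≃ₗ[F] ((Fin t → Fin k) → F)), Over q M →
        E (QT q (Fin t)) ≤ M ∨ ∀ g ∈ M, ∀ i, ∃ j, Carries g i j) :
    Cfsg.Geo.IsMaximalIn (Cfsg.Geo.omegaGL Q) (Cfsg.Geo.tensorWreathSubgroup k t e P ⊓ Cfsg.Geo.omegaGL Q) := by
  have h2 := two_ne_zero_of_odd hodd
  obtain ⟨q, hq, hnd, -⟩ := exists_q h2 hf₁
  obtain ⟨c, hc, hpull⟩ := pull_eq h2 hQ e P f₁ hf₁ hT hq
  have hcard : 13 ≤ Fintype.card (Fin k) ^ Fintype.card (Fin t) := by
    have h3 := Fintype.card_congr e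
    rw [Fintype.card_fun] at h3
    omega
  have hG : Good (QT q (Fin t)) := good_QT h2 hnd (by omega)
  rw [Cfsg.Agent.H889.tensorWreathSubgroup_eq]
  refine Cfsg.Agent.H889.isMaximalIn_of_pull e P Q (tensorWreathStandard k t F) ?_
  rw [omegaGL_congr hc hpull]
  have hmem : ∀ g : Matrix.GeneralLinearGroup (Fin t → Fin k) F, g ∈ tensorWreathStandard k t F ↔
      glEquiv (Fin t → Fin k) F g ∈ (tensorWreathStandard k t F).map (glEquiv (Fin t → Fin k) F).toMonoidHom := by
    intro g
    exact (Subgroup.mem_map_iff_mem (glEquiv (Fin t → Fin k) F).injective).symm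
  refine Cfsg.Agent.H883.Bridge.isMaximalIn_omegaGL hG (tensorWreathStandard k t F) _ hmem ⟨?_, ?_⟩
  · obtain ⟨g, hg, hg2⟩ := hprop q hq hnd
    refine lt_of_le_of_ne inf_le_right fun h => hg2 ?_
    rw [← h] at hg
    obtain ⟨g', hg', rfl⟩ := hg.1
    exact fun i => IsMono.carries (isMono_of_mem hg') i
  · intro M hM1 hM2
    have hover : Over q M := by
      refine ⟨hM2, fun g hg hm => hM1 ⟨⟨(glEquiv (Fin t → Fin k) F).symm g, ?_, ?_⟩, hg⟩⟩
      · exact mem_of_isMono (by rw [MulEquiv.apply_symm_apply]; exact hm)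
      · exact (glEquiv (Fin t → Fin k) F).apply_symm_apply g
    rcases hmain q hq hnd M hover with h | h
    · exact Or.inr (le_antisymm hM2 h)
    · left
      refine le_antisymm (fun g hg => ⟨⟨(glEquiv (Fin t → Fin k) F).symm g, ?_, ?_⟩, hM2 hg⟩) hM1
      · exact mem_of_carries (by omega) (by omega) (by rw [MulEquiv.apply_symm_apply]; exact h g hg)
      · exact (glEquiv (Fin t → Fin k) F).apply_symm_apply g

/-- A nondegenerate quadratic form in four variables which is not of plus type has no totally singular planes. -/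
theorem four_of_minus {F : Type*} [Field F] {k : ℕ} (q : QuadraticForm F (Fin k → F))
    (hk : k = 4) (hm : ¬ Cfsg.Geo.IsPlusTypeOn (fun v : Fin k → F => q v) ⊤) :
    ∀ w x, w ≠ 0 → q w = 0 → q x = 0 → QuadraticMap.polar q w x = 0 → ∃ c : F, x = c • w := by
  intro w x hw h1 h2 h3
  by_contra hcon
  push Not at hcon
  apply hm
  have hli : LinearIndependent F ![w, x] := by
    rw [LinearIndependent.pair_iff' hw]
    intro c hc
    exact hcon c hc.symm
  refine ⟨Submodule.span F (Set.range ![w, x]), le_top, ?_, ?_⟩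
  · intro v hv
    rw [Submodule.mem_span_range_iff_exists_fun] at hv
    obtain ⟨c, rfl⟩ := hv
    rw [Fin.sum_univ_two]
    show q (c 0 • w + c 1 • x) = 0
    rw [QuadraticMap.map_add q, QuadraticMap.map_smul, QuadraticMap.map_smul, QuadraticMap.polar_smul_left,
      QuadraticMap.polar_smul_right, h1, h2, h3]
    simp
  · rw [finrank_span_eq_card hli, finrank_top, Module.finrank_fin_fun, Fintype.card_fin, hk]

/-- **S5684** from properness and the main theorem. -/
theorem s5684_of {F : Type*} [Field F] [Fintype F] (hodd : Odd (Fintype.card F)) (m : ℕ) (hm : 6 ≤ m) (k t : ℕ)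
    (hk : 3 ≤ k) (ht : 2 ≤ t) (hex : ¬ (Fintype.card F = 3 ∧ k = 3))
    (e : (Unit ⊕ (Fin m ⊕ Fin m)) ≃ (Fin t → Fin k)) (P : Matrix.GeneralLinearGroup (Unit ⊕ (Fin m ⊕ Fin m)) F)
    (f₁ : (Fin k → F) → (Fin k → F) → F) (hf₁ : Cfsg.Geo.IsSymmetricForm f₁)
    (hT : Cfsg.Geo.IsTensorPowerFormStructure id (QuadraticMap.polar (Cfsg.quadFormOdd m F)) f₁ e P)
    (hprop' : ∀ q : QuadraticForm F (Fin k → F), Hyp7 q → ∃ g ∈ E (QT q (Fin t)), ¬ ∀ i, ∃ j, Carries g i j)
    (hmain' : ∀ q : QuadraticForm F (Fin k → F), Hyp7 q →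
      ∀ M : Subgroup (((Fin t → Fin k) → F) ≃ₗ[F] ((Fin t → Fin k) → F)), Over q M →
        E (QT q (Fin t)) ≤ M ∨ ∀ g ∈ M, ∀ i, ∃ j, Carries g i j) :
    Cfsg.Geo.IsMaximalIn (Cfsg.Geo.omegaGL (Cfsg.quadFormOdd m F))
      (Cfsg.Geo.tensorWreathSubgroup k t e P ⊓ Cfsg.Geo.omegaGL (Cfsg.quadFormOdd m F)) := by
  have h2 := two_ne_zero_of_odd hodd
  have hcard := Fintype.card_congr e
  rw [Fintype.card_fun, Fintype.card_fin, Fintype.card_fin] at hcard
  have hcard' : Fintype.card (Unit ⊕ (Fin m ⊕ Fin m)) = 2 * m + 1 := by simp; ring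
  have hkodd : Odd k := by
    by_contra h
    rw [Nat.not_odd_iff_even] at h
    have h3 : Even (k ^ t) := (Nat.even_pow.2 ⟨h, by omega⟩)
    rw [← hcard, hcard'] at h3
    rw [Nat.even_iff] at h3
    omega
  have hH : ∀ q : QuadraticForm F (Fin k → F), Nondeg q → Hyp7 q := fun q hq =>
    { two := h2
      nd := hq
      three := by rwa [Fintype.card_fin]
      five := by
        intro h3
        rw [Fintype.card_fin] at h3
        rw [Nat.card_eq_fintype_card]
        have h4 : Fintype.card F ≠ 3 := fun h => hex ⟨h, h3⟩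
        have h5 := Fintype.one_lt_card (α := F)
        rw [Nat.odd_iff] at hodd
        omega
      four := by
        intro h4
        rw [Fintype.card_fin] at h4
        rw [h4] at hkodd
        exact absurd hkodd (by decide) }
  exact wrap (Cfsg.Agent.H883.Bridge.isNondegenerateQuadraticForm_odd hodd m) (by rw [hcard']; omega) hodd hk ht e P f₁
    hf₁ hT (fun q _ hq => hprop' q (hH q hq)) (fun q _ hq => hmain' q (hH q hq))

/-- **S5708** from properness and the main theorem. -/
theorem s5708_of {F : Type*} [Field F] [Fintype F] {n : ℕ} (hn : 13 ≤ n) (_heven : Even n) (Q : (Fin n → F) → F)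
    (hQ : Cfsg.Geo.IsNondegenerateQuadraticForm Q) (_hplus : Cfsg.Geo.IsPlusTypeOn Q ⊤)
    (hodd : Odd (Fintype.card F)) (k t : ℕ) (ht : 2 ≤ t) (_hke : Even k)
    (e : (Fin n) ≃ (Fin t → Fin k)) (P : Matrix.GeneralLinearGroup (Fin n) F)
    (f₁ : (Fin k → F) → (Fin k → F) → F) (hf₁ : Cfsg.Geo.IsSymmetricForm f₁)
    (hsize : (6 ≤ k ∧ Cfsg.Geo.IsPlusTypeOn (fun v : Fin k → F => f₁ v v) ⊤) ∨
      (4 ≤ k ∧ ¬ Cfsg.Geo.IsPlusTypeOn (fun v : Fin k → F => f₁ v v) ⊤))
    (hT : Cfsg.Geo.IsTensorPowerFormStructure id (QuadraticMap.polar Q) f₁ e P)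
    (hprop' : ∀ q : QuadraticForm F (Fin k → F), Hyp7 q → ∃ g ∈ E (QT q (Fin t)), ¬ ∀ i, ∃ j, Carries g i j)
    (hmain' : ∀ q : QuadraticForm F (Fin k → F), Hyp7 q →
      ∀ M : Subgroup (((Fin t → Fin k) → F) ≃ₗ[F] ((Fin t → Fin k) → F)), Over q M →
        E (QT q (Fin t)) ≤ M ∨ ∀ g ∈ M, ∀ i, ∃ j, Carries g i j) :
    Cfsg.Geo.IsMaximalIn (Cfsg.Geo.omegaGL Q) (Cfsg.Geo.tensorWreathSubgroup k t e P ⊓ Cfsg.Geo.omegaGL Q) := by
  have h2 := two_ne_zero_of_odd hodd
  have hk4 : 4 ≤ k := by rcases hsize with h | h <;> omega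
  have hH : ∀ q : QuadraticForm F (Fin k → F), (∀ x y, QuadraticMap.polar q x y = f₁ x y) → Nondeg q → Hyp7 q :=
    fun q hq hnd =>
    { two := h2
      nd := hnd
      three := by rw [Fintype.card_fin]; omega
      five := by
        intro h3
        rw [Fintype.card_fin] at h3
        omega
      four := by
        intro h4
        rw [Fintype.card_fin] at h4
        refine four_of_minus q h4 fun hplus => ?_
        obtain ⟨U, hU1, hU2, hU3⟩ := hplus
        have hm : ¬ Cfsg.Geo.IsPlusTypeOn (fun v : Fin k → F => f₁ v v) ⊤ := by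
          rcases hsize with h | h
          · omega
          · exact h.2
        refine hm ⟨U, hU1, fun w hw => ?_, hU3⟩
        have h5 : q w = 0 := hU2 w hw
        show f₁ w w = 0
        rw [← hq, QuadraticMap.polar_self, h5, smul_zero] }
  exact wrap hQ (by rwa [Fintype.card_fin]) hodd (by omega) ht e P f₁
    hf₁ hT (fun q hq hnd => hprop' q (hH q hq hnd)) (fun q hq hnd => hmain' q (hH q hq hnd))

end Cfsg.Agent.H829.C7
end

-- part: H161/C7/Proper
section
/-!
# The tensor wreath group does not contain `E (QT q ι)`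
-/

set_option autoImplicit false
set_option linter.unusedSectionVars false

namespace Cfsg.Agent.H161.C7

open QuadraticMap hiding proj
open Cfsg.Agent.LieClassical.OrthCore Cfsg.Agent.LieClassical.OrthTrans
open Cfsg.Agent.H882.Ten Cfsg.Agent.LieClassical.OrthFinite
open Cfsg.Agent.H883.C7

variable {F : Type*} [Field F] {κ : Type*} [Fintype κ] [DecidableEq κ] {ι : Type*} [Fintype ι] [DecidableEq ι]

/-- If `g` carries slot `i` to slot `j` then it carries `A_i ⊗ a` into some `A_j ⊗ y`. -/
theorem carries_line {q : QuadraticForm F (κ → F)} (H : Hyp7 q) {g : ((ι → κ) → F) ≃ₗ[F] ((ι → κ) → F)} {i j : ι}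
    (hg : Carries g i j) {a b : κ → F} (hyp : Hyp q a b) :
    ∃ f' : Module.End F (κ → F), (∀ (x : ι → (κ → F)), x i = a → sl j f' (g (tp x)) = g (tp x)) ∧
      ∃ y : κ → F, ∀ u, ∃ c : F, f' u = c • y := by
  classical
  let f : Module.End F (κ → F) := (polarBilin q b).smulRight a
  have hf : ∀ v, f v = polar q b v • a := fun v => rfl
  obtain ⟨f', hf'⟩ := hg f
  refine ⟨f', ?_, ?_⟩
  · intro x hx
    rw [← hf', sl_tp, hx, hf, hyp.pair', one_smul, ← hx, Function.update_eq_self]
  · have S := tst (ι := ι) H.two H.nd i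
    have hT := isTen F κ j
    -- everything in the image of `sl i f` is `a' ⊗ a`
    have him : ∀ v, ∃ a', sl i f v = ten F κ i a' a := by
      intro v
      refine ⟨S.cw b v, ?_⟩
      have : sl i f = (ten F κ i).flip a ∘ₗ S.cw b := ext_t (isTen F κ i) fun u w => by
        rw [sl_ten, LinearMap.comp_apply, S.cw_t, hf, map_smul, LinearMap.flip_apply, map_smul,
          LinearMap.smul_apply]
      rw [this]
      rfl
    by_contra hcon
    push Not at hcon
    obtain ⟨u1, hu1⟩ := hcon 0
    have h1 : f' u1 ≠ 0 := by simpa using hu1 0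
    obtain ⟨u2, hu2⟩ := hcon (f' u1)
    -- the injective map
    let L : ((({l // l ≠ j} → κ) → F) × (({l // l ≠ j} → κ) → F)) →ₗ[F] (({l // l ≠ i} → κ) → F) :=
      S.cw b ∘ₗ (g.symm : ((ι → κ) → F) →ₗ[F] ((ι → κ) → F)) ∘ₗ
        (LinearMap.coprod ((ten F κ j).flip (f' u1)) ((ten F κ j).flip (f' u2)))
    have hL : ∀ p, L p = S.cw b (g.symm (ten F κ j p.1 (f' u1) + ten F κ j p.2 (f' u2))) := fun p => rfl
    have hinj : Function.Injective L := by
      rw [← LinearMap.ker_eq_bot, LinearMap.ker_eq_bot']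
      rintro ⟨p1, p2⟩ hp
      rw [hL] at hp
      have h3 : ten F κ j p1 (f' u1) + ten F κ j p2 (f' u2) =
          sl j f' (ten F κ j p1 u1 + ten F κ j p2 u2) := by
        rw [map_add, sl_ten, sl_ten]
      have h4 : g.symm (sl j f' (ten F κ j p1 u1 + ten F κ j p2 u2)) =
          sl i f (g.symm (ten F κ j p1 u1 + ten F κ j p2 u2)) := by
        rw [LinearEquiv.symm_apply_eq, hf', LinearEquiv.apply_symm_apply]
      obtain ⟨a', ha'⟩ := him (g.symm (ten F κ j p1 u1 + ten F κ j p2 u2))
      have h5 : a' = 0 := by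
        have h6 := hp
        simp only at h6
        rw [h3, h4, ha', S.cw_t, hyp.pair', one_smul] at h6
        exact h6
      have h7 : ten F κ j p1 (f' u1) + ten F κ j p2 (f' u2) = 0 := by
        rw [h3]
        have := h4
        rw [ha', h5, map_zero, LinearMap.zero_apply, LinearEquiv.symm_apply_eq, map_zero] at this
        exact this
      -- contraction with a form vanishing on `f' u1`
      obtain ⟨φ, hφ1, hφ2⟩ := exists_ne_of_ne (F := F) (u := f' u1) (u' := f' u2) hu2
      have h8 := congrArg (cW hT φ) h7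
      rw [map_add, cW_apply, cW_apply, hφ1, zero_smul, zero_add, map_zero] at h8
      have hp2 : p2 = 0 := (smul_eq_zero.1 h8).resolve_left hφ2
      rw [hp2, map_zero, LinearMap.zero_apply, add_zero] at h7
      have hp1 : p1 = 0 := eq_zero_of_t hT h7 h1
      rw [hp1, hp2]
      rfl
    have hle := LinearMap.finrank_le_finrank_of_injective hinj
    rw [Module.finrank_prod, Module.finrank_fintype_fun_eq_card, Module.finrank_fintype_fun_eq_card,
      Fintype.card_fun, Fintype.card_fun] at hle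
    have hc : Fintype.card {l // l ≠ j} = Fintype.card {l // l ≠ i} := by
      rw [Fintype.card_subtype_compl, Fintype.card_subtype_compl]
      simp
    rw [hc] at hle
    have hpos : 0 < Fintype.card κ ^ Fintype.card {l // l ≠ i} :=
      Nat.pow_pos (by have := H.three; omega)
    omega

theorem exists_not_carries_slot [Finite F] {q : QuadraticForm F (κ → F)} (H : Hyp7 q) (ht : 2 ≤ Fintype.card ι) :
    ∃ g ∈ E (QT q ι), ∃ i, ∀ j, ¬ Carries g i j := by
  classical
  have hd : 3 ≤ Module.finrank F (κ → F) := by rw [Module.finrank_fintype_fun_eq_card]; exact H.three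
  obtain ⟨a, ha0, ha, -⟩ := exists_sing_perp (Q := q) (n := 0) ![] (by omega)
  obtain ⟨b, hyp⟩ := LieClassical.OrthTrans.exists_hyp H.nd ha ha0
  obtain ⟨z, haz, hbz, hz⟩ := exists_nonsing_perp H.nd hd hyp
  have hcard : 1 < Fintype.card ι := by omega
  obtain ⟨i0, j0, hij⟩ := Fintype.one_lt_card_iff.1 hcard
  let x : ι → (κ → F) := fun l => if l = i0 then b else z
  have hx0 : x i0 = b := if_pos rfl
  have hxn : ∀ {l}, l ≠ i0 → x l = z := fun h => if_neg h
  have hne : ∀ l : ι, ∃ l', l' ≠ l := by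
    intro l
    by_cases h : l = i0
    · exact ⟨j0, by rw [h]; exact hij.symm⟩
    · exact ⟨i0, fun h' => h h'.symm⟩
  let w : (ι → κ) → F := tp (fun _ => a) + tp x
  have G := H.good ht
  -- facts on the entries of `x`
  have hbx : ∀ l, polar q b (x l) = 0 := by
    intro l
    by_cases h : l = i0
    · rw [h, hx0, hyp.polar_right]
    · rw [hxn h, hbz]
  have hxna : ∀ l (c : F), x l ≠ c • a := by
    intro l c hc
    by_cases h : l = i0
    · rw [h, hx0] at hc
      have := hyp.pair
      rw [hc, polar_smul_right, hyp.polar_left, smul_zero] at this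
      exact zero_ne_one this
    · rw [hxn h] at hc
      rw [hc, QuadraticMap.map_smul, ha, smul_zero] at hz
      exact hz rfl
  let x' : ι → (κ → F) := fun l => if l = i0 then a else z
  have hxx' : ∀ l, polar q (x' l) (x l) ≠ 0 := by
    intro l
    by_cases h : l = i0
    · have : x' l = a := if_pos h
      rw [this, h, hx0, hyp.pair]
      exact one_ne_zero
    · have : x' l = z := if_neg h
      rw [this, hxn h, polar_self']
      exact mul_ne_zero H.two hz
  -- decomposition at `j`
  have hdec : ∀ j, w = ten F κ j (tp fun _ => a) a + ten F κ j (tp fun l => x l) (x j) := by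
    intro j
    show tp (fun _ => a) + tp x = _
    rw [tp_eq_ten j (fun _ => a), tp_eq_ten j x]
  -- impurity
  have hnp : ∀ j a' (y : κ → F), w ≠ ten F κ j a' y := by
    intro j a' y hw
    have S := tst (ι := ι) H.two H.nd j
    rw [hdec j] at hw
    obtain ⟨j', hj'⟩ := hne j
    have h1 := congrArg (S.cu (tp fun _ => b)) hw
    rw [map_add, S.cu_t, S.cu_t, S.cu_t, polar_tp H.two, polar_tp H.two,
      Finset.prod_eq_one (fun l _ => hyp.pair'), one_smul,
      Finset.prod_eq_zero (Finset.mem_univ (⟨j', hj'⟩ : {l // l ≠ j})) (hbx j'), zero_smul, add_zero] at h1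
    have h3 := congrArg (S.cu (tp fun l => x' l)) hw
    rw [map_add, S.cu_t, S.cu_t, S.cu_t, polar_tp H.two _ (fun l : {l // l ≠ j} => x l)] at h3
    have hpr : ∏ l : {l // l ≠ j}, polar q (x' l) (x l) ≠ 0 := Finset.prod_ne_zero_iff.2 fun l _ => hxx' l
    -- `y` is a multiple of `a`
    set c1 := polar (QT q {l // l ≠ j}) (tp fun _ => b) a' with hc1
    have hc1' : c1 ≠ 0 := by
      intro h
      rw [h, zero_smul] at h1
      exact ha0 h1
    have hy : y = c1⁻¹ • a := by rw [h1, smul_smul, inv_mul_cancel₀ hc1', one_smul]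
    rw [hy] at h3
    set c2 := ∏ l : {l // l ≠ j}, polar q (x' l) (x l)
    refine hxna j (c2⁻¹ * (polar (QT q {l // l ≠ j}) (tp fun l => x' l) a' * c1⁻¹ -
      polar (QT q {l // l ≠ j}) (tp fun l => x' l) (tp fun _ => a))) ?_
    rw [smul_smul] at h3
    rw [mul_smul, sub_smul, ← h3, add_sub_cancel_left, smul_smul, inv_mul_cancel₀ hpr, one_smul]
  have hw0 : w ≠ 0 := by
    intro h
    refine hnp i0 0 0 ?_
    rw [h, map_zero]
  have hwQ : QT q ι w = 0 := by
    have h1 : QT q ι (tp fun _ => a) = 0 := by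
      rw [Q_zero_iff H.two, polar_tp H.two]
      exact Finset.prod_eq_zero (Finset.mem_univ i0) hyp.polar_left
    have h3 : QT q ι (tp x) = 0 := by
      rw [Q_zero_iff H.two, polar_tp H.two]
      exact Finset.prod_eq_zero (Finset.mem_univ i0) (by rw [hx0]; exact hyp.polar_right)
    have h4 : polar (QT q ι) (tp fun _ => a) (tp x) = 0 := by
      rw [polar_tp H.two]
      exact Finset.prod_eq_zero (Finset.mem_univ j0) (by rw [hxn hij.symm]; exact haz)
    show QT q ι (tp (fun _ => a) + tp x) = 0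
    rw [Q_add, h1, h3, h4]
    simp
  have haQ : QT q ι (tp fun _ => a) = 0 := by
    rw [Q_zero_iff H.two, polar_tp H.two]
    exact Finset.prod_eq_zero (Finset.mem_univ i0) hyp.polar_left
  obtain ⟨g, hg, hgw⟩ := G.trans_sing haQ hwQ (tp_ne_zero fun _ => ha0) hw0
  refine ⟨g, hg, i0, fun j hc => ?_⟩
  obtain ⟨f', h1, y, hy⟩ := carries_line H hc hyp
  have h3 := h1 (fun _ => a) rfl
  rw [hgw] at h3
  obtain ⟨c1, hc1⟩ := hy a
  obtain ⟨c2, hc2⟩ := hy (x j)
  refine hnp j (c1 • (tp fun _ : {l // l ≠ j} => a) + c2 • (tp fun l : {l // l ≠ j} => x l)) y ?_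
  conv_lhs => rw [← h3, hdec j]
  rw [map_add, sl_ten, sl_ten, hc1, hc2, map_smul, map_smul, map_add, LinearMap.add_apply, map_smul, map_smul,
    LinearMap.smul_apply, LinearMap.smul_apply]

/-- The form asked for. -/
theorem exists_not_carries [Finite F] {q : QuadraticForm F (κ → F)} (H : Hyp7 q) (ht : 2 ≤ Fintype.card ι)
    (_hn : 13 ≤ Fintype.card κ ^ Fintype.card ι) :
    ∃ g ∈ E (QT q ι), ¬ ∀ i, ∃ j, Carries g i j := by
  obtain ⟨g, hg, i, hi⟩ := exists_not_carries_slot (ι := ι) H ht
  refine ⟨g, hg, fun h => ?_⟩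
  obtain ⟨j, hj⟩ := h i
  exact hi j hj

end Cfsg.Agent.H161.C7
end

-- part: H883/C7/Final
section
/-!
# Tensor powers of orthogonal spaces: the main theorem
-/

set_option autoImplicit false
set_option linter.unusedSectionVars false

namespace Cfsg.Agent.H883.C7

open QuadraticMap hiding proj
open Cfsg.Agent.LieClassical.OrthCore Cfsg.Agent.LieClassical.OrthTrans
open Cfsg.Agent.H882.Ten Cfsg.Agent.LieClassical.OrthFinite

universe u v w

/-- (N) -/
theorem not_thin {F : Type*} [Field F] {κ : Type*} [Fintype κ] [DecidableEq κ] {ι : Type*} [Fintype ι]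
    [DecidableEq ι] [Finite F] {q : QuadraticForm F (κ → F)} (H : Hyp7 q) (ht : 2 ≤ Fintype.card ι)
    {M : Subgroup (((ι → κ) → F) ≃ₗ[F] ((ι → κ) → F))} (hM : Over q M) (hN : ¬ Thin q M) : E (QT q ι) ≤ M := by
  obtain ⟨c, i, j, hi, hj, hc, hP⟩ := H69.C7.purify H ht hM hN
  obtain ⟨a, j', z, ha, hz, hqz, h⟩ := H296.C7.root_of_pure H ht hM hi hj hc hP
  exact H567.C7.E_le_of_root H ht hM ha hz hqz h

section

variable {F : Type u} [Field F] [Finite F] {κ : Type v} [Fintype κ] [DecidableEq κ] {q : QuadraticForm F (κ → F)}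

/-- A thin overgroup permutes the slots. -/
theorem thin_carries (H : Hyp7 q) (n : ℕ) : ∀ (ι : Type w) [Fintype ι] [DecidableEq ι], Fintype.card ι = n →
    2 ≤ n → ∀ M : Subgroup (((ι → κ) → F) ≃ₗ[F] ((ι → κ) → F)), Over q M → Thin q M →
    ∀ g ∈ M, ∀ i, ∃ j, Carries g i j := by
  induction n using Nat.strong_induction_on with
  | _ n ih =>
  intro ι _ _ hn hn2 M hM hT
  have ht : 2 ≤ Fintype.card ι := by omega
  have h2 := H.two
  have hq := H.nd
  have hG := H.good ht
  have h3 := H.three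
  have hRS : RadP q M ∧ SP q M := by
    rcases Nat.lt_or_ge (Fintype.card κ) 5 with h5 | h5
    · rcases (by omega : Fintype.card κ = 3 ∨ Fintype.card κ = 4) with hk | hk
      · have hrad := radP_three h2 hq hk (exists_sq_ne (H.five hk)) hG hM hT
        exact ⟨hrad, H742.C7.sp_three H hk ht hM hrad⟩
      · have hrad := H829.C7.radP_four H hk ht hM hT
        exact ⟨hrad, H829.C7.sp_four H hk ht hM hT hrad⟩
    · have hrad := radP_five h2 hq h5 hG hM hT
      exact ⟨hrad, H742.C7.sp_five H h5 ht hM hrad⟩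
  have hZ : ZP q M := by
    by_cases hgen : 7 ≤ Nat.card F ∨ 5 ≤ Fintype.card κ
    · exact H804.C7.zp_gen H hgen ht hM hT
    · push Not at hgen
      have hF : Nat.card F = 3 ∨ Nat.card F = 5 := by
        classical
        have : Fintype F := Fintype.ofFinite F
        have h1 : ringChar F ≠ 2 := fun h => h2 (by
          have := ringChar.spec F 2
          rw [h] at this
          exact_mod_cast this.2 (dvd_refl 2))
        have h4 := FiniteField.odd_card_of_char_ne_two h1
        have h5 := Fintype.one_lt_card (α := F)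
        rw [Nat.card_eq_fintype_card] at hgen ⊢
        omega
      refine H889.C7O.zp_exc H ht hM hT ?_ ?_
      · rcases (by omega : Fintype.card κ = 3 ∨ Fintype.card κ = 4) with hk | hk
        · have := H.five hk
          left
          exact ⟨hk, by omega⟩
        · right
          exact ⟨hk, hF⟩
      · intro h3' j M' hM' hT'
        refine ih (n - 1) (by omega) {l // l ≠ j} (by simp [hn]) (by omega) M' hM' hT'
  exact H900.C7.glob7 H ht hM (dprop_of H ht hM hRS.1 hZ hRS.2 fun l u z hu hz => H804.C7.siegel_mem_comm H ht hM l hu hz)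

/-- **Main theorem.** -/
theorem main (H : Hyp7 q) {ι : Type w} [Fintype ι] [DecidableEq ι] (ht : 2 ≤ Fintype.card ι)
    (M : Subgroup (((ι → κ) → F) ≃ₗ[F] ((ι → κ) → F))) (hM : Over q M) :
    E (QT q ι) ≤ M ∨ ∀ g ∈ M, ∀ i, ∃ j, Carries g i j := by
  by_cases hT : Thin q M
  · exact Or.inr (thin_carries H _ ι rfl ht M hM hT)
  · exact Or.inl (not_thin H ht hM hT)

end

end Cfsg.Agent.H883.C7
end
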